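import Mathlib

/-! S5855, chunk PG: unipotent subgroups of `U₁₁(q)` with long orbits. Interface and kit (proofs: notes/PG.md).
Matrix indices: `0..4 = e₁..e₅`, `5 = u`, `6 = y`. -/

set_option autoImplicit false
set_option linter.unusedSectionVars false

open Module
open scoped commutatorElement

namespace H4.PG

variable {F : Type*} [Field F] [Fintype F] {σ : F →+* F} {q : ℕ}

/-- the field data -/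
structure FD (σ : F →+* F) (q : ℕ) : Prop where
  hF : Fintype.card F = q ^ 2
  q2 : 2 ≤ q
  ex : ∃ l, σ l ≠ l
  hk : {c | σ c = c}.ncard ≤ q
  ss : ∀ c, σ (σ c) = c

variable (F) in
/-- the characteristic is large and the field is not small -/
def PP (q : ℕ) : Prop := 5 ≤ ringChar F ∧ ringChar F ^ 2 ≤ q

section coord
variable {G : Type*} [Group G] [Finite G] (ρ : G →* Matrix (Fin 7) (Fin 7) F)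

/-- kernel on `W^⊥/W₄` -/
structure K4 (g : G) : Prop where
  h45 : ρ g 4 5 = 0
/-- kernel on `W^⊥/W₃` -/
structure K3 (g : G) : Prop extends K4 ρ g where
  (h34 : ρ g 3 4 = 0) (h35 : ρ g 3 5 = 0)
/-- kernel on `W^⊥/W₂` -/
structure K2 (g : G) : Prop extends K3 ρ g where
  (h23 : ρ g 2 3 = 0) (h24 : ρ g 2 4 = 0) (h25 : ρ g 2 5 = 0)
/-- kernel on `W^⊥/W₁` -/
structure K1 (g : G) : Prop extends K2 ρ g where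
  (h12 : ρ g 1 2 = 0) (h13 : ρ g 1 3 = 0) (h14 : ρ g 1 4 = 0) (h15 : ρ g 1 5 = 0)
/-- kernel on `W^⊥` -/
structure K0 (g : G) : Prop extends K1 ρ g where
  (h01 : ρ g 0 1 = 0) (h02 : ρ g 0 2 = 0) (h03 : ρ g 0 3 = 0) (h04 : ρ g 0 4 = 0) (h05 : ρ g 0 5 = 0)
/-- `g` acts on `W` as `1 + x e₁ ⊗ e₅^*` -/
structure Eb (g : G) (x : F) : Prop where
  (h01 : ρ g 0 1 = 0) (h02 : ρ g 0 2 = 0) (h03 : ρ g 0 3 = 0) (h04 : ρ g 0 4 = x) (h12 : ρ g 1 2 = 0) (h13 : ρ g 1 3 = 0)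
  (h14 : ρ g 1 4 = 0) (h23 : ρ g 2 3 = 0) (h24 : ρ g 2 4 = 0) (h34 : ρ g 3 4 = 0)
/-- trivial on `W` -/
abbrev Tr (g : G) : Prop := Eb ρ g 0
/-- translation by `x e₂ + y e₃` on `W^⊥/W₁` -/
structure Cn (g : G) (x y : F) : Prop extends K3 ρ g where
  (h12 : ρ g 1 2 = 0) (h13 : ρ g 1 3 = 0) (h14 : ρ g 1 4 = 0) (h23 : ρ g 2 3 = 0) (h24 : ρ g 2 4 = 0)
  (h15 : ρ g 1 5 = x) (h25 : ρ g 2 5 = y)
/-- an entry that does not vanish identically -/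
def nz (i j : Fin 7) : Prop := ∃ g, ρ g i j ≠ 0
/-- Loewy length at least four -/
def NK : Prop := (nz ρ 0 1 ∧ nz ρ 1 2 ∧ nz ρ 2 3) ∨ (nz ρ 1 2 ∧ nz ρ 2 3 ∧ nz ρ 3 4) ∨ (nz ρ 0 1 ∧ nz ρ 1 2 ∧ nz ρ 2 4) ∨
  (nz ρ 0 1 ∧ nz ρ 1 3 ∧ nz ρ 3 4) ∨ (nz ρ 0 2 ∧ nz ρ 2 3 ∧ nz ρ 3 4)
/-- the fixed space in `W/W₁` is `W₂/W₁` -/
def FX2 : Prop := ∀ x y z : F, (∀ g, ρ g 1 2 * x + ρ g 1 3 * y + ρ g 1 4 * z = 0 ∧ ρ g 2 3 * y + ρ g 2 4 * z = 0 ∧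
  ρ g 3 4 * z = 0) → x = 0 ∧ y = 0 ∧ z = 0
/-- the fixed space in `W` is `W₁` -/
def FX1 : Prop := ∀ w x y z : F, (∀ g, ρ g 0 1 * w + ρ g 0 2 * x + ρ g 0 3 * y + ρ g 0 4 * z = 0 ∧
  ρ g 1 2 * x + ρ g 1 3 * y + ρ g 1 4 * z = 0 ∧ ρ g 2 3 * y + ρ g 2 4 * z = 0 ∧ ρ g 3 4 * z = 0) →
  w = 0 ∧ x = 0 ∧ y = 0 ∧ z = 0
/-- no translations -/
def T0 : Prop := ∀ t, Tr ρ t → K0 ρ t
/-- the translation by `e₁` -/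
def T1 : Prop := ∃ t, K1 ρ t ∧ ρ t 0 5 = 1
/-- an entry with at most `p` values -/
def Pv (i j : Fin 7) : Prop := ∃ ε : F, ∀ g, ∃ n : ℕ, ρ g i j = n * ε
/-- all translations by multiples of `e₂` on `W^⊥/W₁` -/
def AF : Prop := ∀ x, ∃ b, Cn ρ b x 0
/-- first normalisation -/
def E1 : Prop := ∀ g, ρ g 0 1 = ρ g 4 5
variable (σ) in
/-- second normalisation -/
def E2 : Prop := E1 ρ ∧ (∀ g, ρ g 1 2 = -σ (ρ g 4 5)) ∧ ∃ c, ∀ g, ρ g 0 2 = ρ g 4 6 - c * σ (ρ g 4 5)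
/-- the setting of type (c) with translations -/
structure PC (q : ℕ) : Prop where
  (pp : PP F q) (t1 : T1 ρ) (fx : FX1 ρ) (z12 : ∀ g, ρ g 1 2 = 0) (pv : Pv ρ 0 2)

/-- unitriangular representations -/
structure UT : Prop where
  lo : ∀ g i j, j < i → ρ g i j = 0
  di : ∀ g i, ρ g i i = 1

variable (σ q) in
/-- the action on `W₄^⊥` -/
structure Md : Prop extends FD σ q, UT ρ where
  tr : ∀ a b c d e, ∃ g, ρ g 0 5 = a ∧ ρ g 1 5 = b ∧ ρ g 2 5 = c ∧ ρ g 3 5 = d ∧ ρ g 4 5 = e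
  u1 : ∀ g, ρ g 5 6 = -σ (ρ g 4 5)
  u2 : ∀ g, ρ g 4 6 + σ (ρ g 4 6) + ρ g 4 5 * σ (ρ g 4 5) = 0
  sc : ∀ t s l, Tr ρ t → Tr ρ s → ρ s 0 5 = l * ρ t 0 5 → ρ s 1 5 = l * ρ t 1 5 → ρ s 2 5 = l * ρ t 2 5 →
    ρ s 3 5 = l * ρ t 3 5 → ρ s 4 5 = l * ρ t 4 5 → σ l = l ∨ K0 ρ t
  k1 : ∀ g, K1 ρ g → Tr ρ g
  k2 : (∀ g, ρ g 0 1 = 0) → ∀ g, K2 ρ g → Tr ρ g
  nk : NK ρ
  c5 : FX1 ρ → (∀ x, ∃ b, Eb ρ b x) → ∀ z, K0 ρ z → ρ z 0 6 = 0 ∧ ρ z 1 6 = 0 ∧ ρ z 2 6 = 0 ∧ ρ z 3 6 = 0 ∧ ρ z 4 6 = 0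

/-! ### Coordinate chunks: prove `theorem xx (h : Md σ q ρ) (listed earlier chunks) : XX ρ`. -/

def LA : Prop := FX2 ρ → (∀ g, K2 ρ g → K0 ρ g) → False
/-- uses `LA` -/
def S1 : Prop := T0 ρ → (FX2 ρ ∨ ∀ g, ρ g 1 2 = 0) →
  ∃ b x y, Cn ρ b x y ∧ (x ≠ 0 ∨ y ≠ 0) ∧ ρ b 0 1 * x + ρ b 0 2 * y = 0 ∧ ∀ g, ρ g 1 2 * y = 0
def S2 : Prop := T0 ρ → E1 ρ → FX1 ρ → AF ρ
variable (σ) in
def TH : Prop := T0 ρ → E1 ρ → FX1 ρ → AF ρ → ∃ a b c d : F, ∀ g, ρ g 2 3 * c = 0 ∧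
  ρ g 1 2 * b + ρ g 1 3 * c = -σ (ρ g 4 5) ∧ ρ g 0 1 * a + ρ g 0 2 * b + ρ g 0 3 * c = ρ g 4 6 - d * σ (ρ g 4 5)
variable (σ) in
def C2 : Prop := T0 ρ → E2 σ ρ → ∃ s, K2 ρ s ∧ ρ s 1 3 = 0 ∧ ρ s 1 4 ≠ 0
variable (σ) in
def C1 : Prop := T0 ρ → E2 σ ρ → FX1 ρ → ∀ s, K2 ρ s → ρ s 1 3 = 0 → ρ s 1 4 = 0
variable (q) in
def P3B : Prop := PP F q → (∀ g, ρ g 0 1 = 0) → (∀ g, ρ g 1 2 = 0) → Pv ρ 0 2 → False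
variable (q) in
def P3A : Prop := PP F q → T1 ρ → FX1 ρ → FX2 ρ → Pv ρ 0 1 → False
variable (σ q) in
def P3E : Prop := PC ρ q → ∀ b y, Cn ρ b 0 y → Tr ρ b ∧ ∀ g, σ (y * ρ g 0 2) = y * ρ g 0 2
variable (σ q) in
def P3T : Prop := PC ρ q → (∀ x, ∃ b, Eb ρ b x) → ∀ t, K1 ρ t → ρ t 4 6 = 0 ∧ ρ t 3 6 = 0 ∧
  ∀ g, ρ g 0 1 * ρ t 1 6 + ρ g 0 2 * ρ t 2 6 = -σ (ρ g 4 5) * ρ t 0 5
variable (σ q) in
def P3L : Prop := PC ρ q → ∀ x y, x ≠ 0 → (∀ l, ∃ b, Cn ρ b (l * x) (l * y) ∧ ρ b 0 1 * x + ρ b 0 2 * y = 0) →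
  ∃ κ τ : F, (κ ≠ 0 ∨ τ ≠ 0) ∧ (∀ g, x * ρ g 0 1 + y * ρ g 0 2 = κ * ρ g 4 5 + τ * σ (ρ g 4 5)) ∧
    ∀ l b, Cn ρ b (l * x) (l * y) → Eb ρ b (κ * l - σ τ * σ l)
/-- uses `P3E P3T P3L` -/
def P3N (q : ℕ) : Prop := PC ρ q → ∀ s, K3 ρ s → ρ s 1 3 = 0 ∧ ρ s 1 4 = 0 ∧ ρ s 2 3 = 0 ∧ ρ s 2 4 = 0
/-- uses `P3E P3T P3L` -/
def P3C (q : ℕ) : Prop := PC ρ q → (∀ s, K3 ρ s → ρ s 1 3 = 0 ∧ ρ s 1 4 = 0 ∧ ρ s 2 3 = 0 ∧ ρ s 2 4 = 0) → False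

end coord

section vec
variable {V : Type*} [AddCommGroup V] [Module F V] [Finite V]

/-- the setting -/
structure HS (q : ℕ) (f : V →ₗ[F] V →ₛₗ[σ] F) (U : Subgroup (V ≃ₗ[F] V)) : Prop extends FD σ q where
  sy : ∀ x y, f y x = σ (f x y)
  nd : ∀ x, (∀ y, f x y = 0) → x = 0
  dim : finrank F V = 11
  iso : ∀ g ∈ U, ∀ x y, f (g x) (g y) = f x y
  pg : IsPGroup (ringChar F) U
  big : ∀ x, f x x ≠ 0 → q ^ 10 ≤ {y | ∃ g ∈ U, g x = y}.ncard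
  nt : ∀ t ∈ U, ∀ e (l : F), f e e = 0 → (∀ x, t x = x + (l * f x e) • e) → e = 0 ∨ l = 0

/-- the invariant maximal isotropic subspace -/
structure VS (q : ℕ) (f : V →ₗ[F] V →ₛₗ[σ] F) (U : Subgroup (V ≃ₗ[F] V)) (W : Submodule F V) (u : V) : Prop
    extends HS q f U where
  ww : ∀ x ∈ W, ∀ y ∈ W, f x y = 0
  iw : ∀ g ∈ U, ∀ x ∈ W, g x ∈ W
  dw : finrank F W = 5
  wu : ∀ x ∈ W, f x u = 0
  nu : f u u ≠ 0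
  gu : ∀ g ∈ U, g u - u ∈ W
  tr : ∀ w ∈ W, ∃ g ∈ U, g u = u + w
  pp : ∀ v, (∀ x ∈ W, f x v = 0) → ∃ w ∈ W, ∃ c : F, v = w + c • u

variable (q) (f : V →ₗ[F] V →ₛₗ[σ] F) (U : Subgroup (V ≃ₗ[F] V)) (W : Submodule F V) (u : V)

/-! ### Vector chunks: prove `theorem v0 (h : HS q f U) : V0 q f U`, `theorem xx (h : VS q f U W u) (listed chunks) : XX ..`. -/

def V0 : Prop := ∃ W u, VS q f U W u
def WU : Prop := ∀ R : Submodule F V, (∀ x ∈ R, ∀ y ∈ R, f x y = 0) → (∀ g ∈ U, ∀ x ∈ R, g x ∈ R) → R ≤ W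
variable (σ) in
def SC : Prop := (∀ t ∈ U, ∀ s ∈ U, ∀ l : F, (∀ x ∈ W, t x = x) → (∀ x ∈ W, s x = x) → s u - u = l • (t u - u) →
  σ l = l ∨ t u = u) ∧ ((2 : F) = 0 → ∀ t ∈ U, (∀ x ∈ W, t x = x) → t u = u)
/-- uses `SC` -/
def L1 : Prop := ∀ g ∈ U, (∀ x ∈ W, ∀ k ∈ U, k (g x - x) = g x - x) → (∀ k ∈ U, k (g u - u) = g u - u) → ∀ x ∈ W, g x = x
/-- uses `SC L1` -/
def KL : Prop := ∃ g ∈ U, ∃ k ∈ U, ∃ s ∈ U, ∃ x ∈ W, g (k (s x - x) - (s x - x)) ≠ k (s x - x) - (s x - x)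
def C5 : Prop := ∀ e ∈ W, ∀ y, e ≠ 0 → f e y = 0 → (∀ g ∈ U, g e = e) → (∀ x ∈ W, (∀ g ∈ U, g x = x) → ∃ c : F, x = c • e) →
  (∀ c : F, ∃ b ∈ U, ∀ x ∈ W, b x = x + (c * f x y) • e) → ∀ z ∈ U, (∀ x ∈ W, z x = x) → z u = u → z y = y
/-- a translation by a fixed vector -/
def TF : Prop := ∃ t ∈ U, (∀ x ∈ W, t x = x) ∧ t u ≠ u ∧ ∀ g ∈ U, g (t u - u) = t u - u
def VT : Prop := ∀ t ∈ U, (∀ x ∈ W, t x = x) → t u ≠ u → TF U W u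
/-- a vector with an orbit of length `p` -/
def ZC : Prop := PP F q ∧ ∃ v : V, {y | ∃ g ∈ U, g v = y}.ncard = ringChar F
def VP : Prop := ZC q U → ∃ v ∈ W, ∃ e ∈ W, (∀ g ∈ U, g e = e) ∧ (∀ g ∈ U, ∃ n : ℕ, g v = v + (n : F) • e) ∧
  ∃ g ∈ U, g v ≠ v
variable (σ) in
/-- uses `WU SC` -/
def TZ : Prop := ∀ (J : Subgroup (V ≃ₗ[F] V)) (m : ℕ), (∀ c, σ c = c ^ q) → U ≤ J → (∀ g ∈ J, ∀ x y, f (g x) (g y) = f x y) →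
  ¬ ringChar F ∣ U.relIndex J → (∀ c : F, c ^ (q + 1) = 1 → ∃ g ∈ J, ∀ x, g x = c • x) → m * Nat.gcd 11 (q + 1) = q ^ 11 + 1 →
  (∀ x, x ≠ 0 → f x x = 0 → m * (q ^ 10 - 1) ∣ {y | ∃ g ∈ J, g x = y}.ncard) →
  {y : V | y ≠ 0 ∧ f y y = 0}.ncard ≤ (q ^ 11 + 1) * (q ^ 10 - 1) → TF U W u → ZC q U

end vec

/-! ### Kit -/

section kit
variable {G : Type*} [Group G] [Finite G] {ρ : G →* Matrix (Fin 7) (Fin 7) F}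

theorem cm (g k : G) : ⁅g, k⁆ * (k * g) = g * k := by group

/-- counting along a chain of subgroups -/
theorem idx {α : Type*} {H' H : Subgroup G} (le : H' ≤ H) (φ : G → α) {S : Set α} (fi : S.Finite) (mem : ∀ g ∈ H, φ g ∈ S)
    (inj : ∀ g ∈ H, ∀ k ∈ H, φ g = φ k → g * k⁻¹ ∈ H') : H'.index ≤ S.ncard * H.index := by
  rw [← Subgroup.relIndex_mul_index le]
  refine Nat.mul_le_mul_right _ ?_
  haveI := fi.to_subtype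
  rw [← Nat.card_coe_set_eq]
  refine Nat.card_le_card_of_injective (fun x : H ⧸ H'.subgroupOf H => (⟨φ x.out⁻¹, mem _ (inv_mem x.out.2)⟩ : S)) fun x y e => ?_
  rw [← x.out_eq', ← y.out_eq', QuotientGroup.eq, Subgroup.mem_subgroupOf]
  simpa using inj _ (inv_mem x.out.2) _ (inv_mem y.out.2) (congrArg Subtype.val e)

/-- the kernel of a function that is additive on `H` -/
def ks {A : Type*} [AddGroup A] (H : Subgroup G) (φ : G → A) (hφ : ∀ g ∈ H, ∀ k ∈ H, φ (g * k) = φ g + φ k) : Subgroup G where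
  carrier := {g | g ∈ H ∧ φ g = 0}
  one_mem' := ⟨one_mem H, by simpa using hφ 1 (one_mem H) 1 (one_mem H)⟩
  mul_mem' := fun {g k} a b => ⟨mul_mem a.1 b.1, by rw [hφ g a.1 k b.1, a.2, b.2, add_zero]⟩
  inv_mem' := fun {g} a => ⟨inv_mem a.1, by
    have h1 : φ 1 = 0 := by simpa using hφ 1 (one_mem H) 1 (one_mem H)
    simpa [a.2, h1] using (hφ g a.1 _ (inv_mem a.1)).symm⟩

theorem mem_ks {A : Type*} [AddGroup A] {H : Subgroup G} {φ : G → A} {hφ} {g : G} : g ∈ ks H φ hφ ↔ g ∈ H ∧ φ g = 0 := Iff.rfl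

theorem ks_idx {A : Type*} [AddGroup A] {H : Subgroup G} {φ : G → A} (hφ : ∀ g ∈ H, ∀ k ∈ H, φ (g * k) = φ g + φ k) {S : Set A} (fi : S.Finite) (mem : ∀ g ∈ H, φ g ∈ S) :
    (ks H φ hφ).index ≤ S.ncard * H.index :=
  idx (H' := ks H φ hφ) (fun _ a => (mem_ks.1 a).1) φ fi mem fun g hg k hk e => ⟨mul_mem hg (inv_mem hk), by
    have := hφ _ (mul_mem hg (inv_mem hk)) k hk
    rwa [inv_mul_cancel_right, e, right_eq_add] at this⟩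

namespace FD
variable (h : FD σ q)
include h

theorem cF : (Set.univ : Set F).ncard = q ^ 2 := by rw [Set.ncard_univ, Nat.card_eq_fintype_card, h.hF]
theorem cF2 : (Set.univ : Set (F × F)).ncard = q ^ 4 := by
  rw [Set.ncard_univ, Nat.card_prod, Nat.card_eq_fintype_card, h.hF, ← pow_add]
theorem cF3 : (Set.univ : Set (F × F × F)).ncard = q ^ 6 := by
  simp only [Set.ncard_univ, Nat.card_prod, Nat.card_eq_fintype_card (α := F), h.hF, ← pow_add]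
/-- real lines -/
theorem ln {n : F} (n0 : n ≠ 0) : {c | σ (c * n) = c * n}.ncard ≤ q :=
  (Set.ncard_le_ncard_of_injOn (· * n) (fun _ e => e) fun _ _ _ _ e => mul_right_cancel₀ n0 e).trans h.hk
/-- sets with real ratios -/
theorem rl {S : Set F} (k : ∀ a ∈ S, ∀ l, l * a ∈ S → σ l = l ∨ a = 0) : S.ncard ≤ q := by
  by_cases e : ∃ a ∈ S, a ≠ 0
  · obtain ⟨a, ha, a0⟩ := e
    exact (Set.ncard_le_ncard fun b hb => (k a ha (b * a⁻¹) (by simpa [a0])).resolve_right a0).trans (h.ln (inv_ne_zero a0))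
  · push Not at e
    exact (Set.ncard_le_ncard (t := {0}) e).trans (by simp; linarith [h.q2])
/-- skew elements -/
theorem sk : {c | c + σ c = 0}.ncard ≤ q := h.rl fun a ha l hl => or_iff_not_imp_right.2 fun a0 => by
  simp only [Set.mem_ofPred_eq, map_mul] at ha hl
  exact mul_right_cancel₀ a0 (by linear_combination σ l * ha - hl)
/-- a real-valued multiple of the identity vanishes -/
theorem re0 {a : F} (k : ∀ c, σ (c * a) = c * a) : a = 0 := by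
  obtain ⟨l, hl⟩ := h.ex
  have k1 := k 1
  have k2 := k l
  rw [one_mul] at k1
  rw [map_mul, k1] at k2
  exact by_contra fun n => hl (mul_right_cancel₀ n k2)
omit h in
theorem pv (ε : F) : {x | ∃ n : ℕ, x = n * ε}.ncard ≤ ringChar F := by
  haveI : Fact (ringChar F).Prime := ⟨CharP.char_is_prime F _⟩
  refine (Set.ncard_le_ncard (t := (fun n : ℕ => n * ε) '' Finset.range (ringChar F)) ?_).trans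
    ((Set.ncard_image_le (Set.toFinite _)).trans (by simp))
  rintro _ ⟨n, rfl⟩
  exact ⟨n % ringChar F, by simpa using Nat.mod_lt _ (Fact.out : (ringChar F).Prime).pos, by
    simp only; rw [← CharP.cast_eq_mod]⟩
theorem lt (p : PP F q) : ringChar F < q := by nlinarith [p.1, p.2]
omit h in
theorem p2 (p : PP F q) : (2 : F) ≠ 0 := fun e => by
  have := Nat.le_of_dvd two_pos ((ringChar.spec F 2).1 (by exact_mod_cast e)); linarith [p.1]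
omit h in
theorem p3 (p : PP F q) : (3 : F) ≠ 0 := fun e => by
  have := Nat.le_of_dvd three_pos ((ringChar.spec F 3).1 (by exact_mod_cast e)); linarith [p.1]
/-- `F` is not covered by `p` real lines -/
theorem pr (p : PP F q) {a ε : F} (k : ∀ c, ∃ n : ℕ, σ (c * a - n * ε) = c * a - n * ε) : a = 0 := by_contra fun a0 => by
  choose n hn using k
  have := Set.ncard_le_ncard_of_injOn (s := Set.univ) (t := {c | σ c = c} ×ˢ {x | ∃ n : ℕ, x = n * ε})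
    (fun c => (c * a - n c * ε, n c * ε)) (fun c _ => ⟨hn c, _, rfl⟩) fun c _ d _ e =>
      mul_right_cancel₀ a0 (by linear_combination congrArg (·.1) e + congrArg (·.2) e)
  rw [h.cF, Set.ncard_prod] at this
  nlinarith [this.trans (Nat.mul_le_mul h.hk (pv ε)), h.lt p, h.q2]
/-- two values of `α` on the kernel of `ε` with a non-real ratio -/
theorem ip (p : PP F q) (α ε : G → F) (ha : ∀ g k, α (g * k⁻¹) = α g - α k) (he : ∀ g k, ε (g * k⁻¹) = ε g - ε k)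
    (su : ∀ c, ∃ g, α g = c) (hv : ∃ e : F, ∀ g, ∃ n : ℕ, ε g = n * e) :
    ∃ g k l, ε g = 0 ∧ ε k = 0 ∧ α g ≠ 0 ∧ α k = l * α g ∧ σ l ≠ l := by
  by_contra! n
  obtain ⟨e, hv⟩ := hv
  choose g hg using su
  have k : ∀ c, ∃ d, ε (g d) = ε (g c) := fun c => ⟨c, rfl⟩
  have := Set.ncard_le_ncard_of_injOn (s := Set.univ) (t := {c | ∃ g, ε g = 0 ∧ α g = c} ×ˢ {x | ∃ n : ℕ, x = n * e})
    (fun c => (c - (k c).choose, ε (g c))) (fun c _ => ⟨⟨g c * (g (k c).choose)⁻¹, by rw [he, (k c).choose_spec, sub_self],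
      by rw [ha, hg, hg]⟩, hv _⟩) fun c _ d _ e => by
      obtain ⟨e1, e2⟩ := Prod.mk.inj e
      simpa only [e2, sub_left_inj] using e1
  rw [h.cF, Set.ncard_prod] at this
  nlinarith [this.trans (Nat.mul_le_mul (h.rl (by
    rintro _ ⟨g, a, rfl⟩ l ⟨k, b, c⟩
    exact or_iff_not_imp_right.2 fun z => n g k l a b z c)) (pv e)), h.lt p, h.q2]
theorem no {i j : ℕ} (e : q ^ i ≤ q ^ j) : i ≤ j := (Nat.pow_le_pow_iff_right h.q2).1 e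
end FD

namespace UT
variable (h : UT ρ)
include h

theorem z (g : G) : ρ g 1 0 = 0 ∧ ρ g 2 0 = 0 ∧ ρ g 2 1 = 0 ∧ ρ g 3 0 = 0 ∧ ρ g 3 1 = 0 ∧ ρ g 3 2 = 0 ∧ ρ g 4 0 = 0 ∧ ρ g 4 1 = 0 ∧ ρ g 4 2 = 0 ∧ ρ g 4 3 = 0 ∧ ρ g 5 0 = 0 ∧ ρ g 5 1 = 0 ∧ ρ g 5 2 = 0 ∧ ρ g 5 3 = 0 ∧ ρ g 5 4 = 0 ∧ ρ g 6 0 = 0 ∧ ρ g 6 1 = 0 ∧ ρ g 6 2 = 0 ∧ ρ g 6 3 = 0 ∧ ρ g 6 4 = 0 ∧ ρ g 6 5 = 0 ∧ ρ g 0 0 = 1 ∧ ρ g 1 1 = 1 ∧ ρ g 2 2 = 1 ∧ ρ g 3 3 = 1 ∧ ρ g 4 4 = 1 ∧ ρ g 5 5 = 1 ∧ ρ g 6 6 = 1 := by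
  simp [h.lo, h.di]

theorem m01 (g k : G) : ρ (g * k) 0 1 = ρ g 0 1 + ρ k 0 1 := by
  simp only [map_mul, Matrix.mul_apply, Fin.sum_univ_seven, h.z g, h.z k]; ring
theorem m02 (g k : G) : ρ (g * k) 0 2 = ρ g 0 2 + ρ k 0 2 + ρ g 0 1 * ρ k 1 2 := by
  simp only [map_mul, Matrix.mul_apply, Fin.sum_univ_seven, h.z g, h.z k]; ring
theorem m03 (g k : G) : ρ (g * k) 0 3 = ρ g 0 3 + ρ k 0 3 + ρ g 0 1 * ρ k 1 3 + ρ g 0 2 * ρ k 2 3 := by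
  simp only [map_mul, Matrix.mul_apply, Fin.sum_univ_seven, h.z g, h.z k]; ring
theorem m04 (g k : G) : ρ (g * k) 0 4 = ρ g 0 4 + ρ k 0 4 + ρ g 0 1 * ρ k 1 4 + ρ g 0 2 * ρ k 2 4 + ρ g 0 3 * ρ k 3 4 := by
  simp only [map_mul, Matrix.mul_apply, Fin.sum_univ_seven, h.z g, h.z k]; ring
theorem m05 (g k : G) : ρ (g * k) 0 5 = ρ g 0 5 + ρ k 0 5 + ρ g 0 1 * ρ k 1 5 + ρ g 0 2 * ρ k 2 5 + ρ g 0 3 * ρ k 3 5 + ρ g 0 4 * ρ k 4 5 := by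
  simp only [map_mul, Matrix.mul_apply, Fin.sum_univ_seven, h.z g, h.z k]; ring
theorem m06 (g k : G) : ρ (g * k) 0 6 = ρ g 0 6 + ρ k 0 6 + ρ g 0 1 * ρ k 1 6 + ρ g 0 2 * ρ k 2 6 + ρ g 0 3 * ρ k 3 6 + ρ g 0 4 * ρ k 4 6 + ρ g 0 5 * ρ k 5 6 := by
  simp only [map_mul, Matrix.mul_apply, Fin.sum_univ_seven, h.z g, h.z k]; ring
theorem m12 (g k : G) : ρ (g * k) 1 2 = ρ g 1 2 + ρ k 1 2 := by
  simp only [map_mul, Matrix.mul_apply, Fin.sum_univ_seven, h.z g, h.z k]; ring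
theorem m13 (g k : G) : ρ (g * k) 1 3 = ρ g 1 3 + ρ k 1 3 + ρ g 1 2 * ρ k 2 3 := by
  simp only [map_mul, Matrix.mul_apply, Fin.sum_univ_seven, h.z g, h.z k]; ring
theorem m14 (g k : G) : ρ (g * k) 1 4 = ρ g 1 4 + ρ k 1 4 + ρ g 1 2 * ρ k 2 4 + ρ g 1 3 * ρ k 3 4 := by
  simp only [map_mul, Matrix.mul_apply, Fin.sum_univ_seven, h.z g, h.z k]; ring
theorem m15 (g k : G) : ρ (g * k) 1 5 = ρ g 1 5 + ρ k 1 5 + ρ g 1 2 * ρ k 2 5 + ρ g 1 3 * ρ k 3 5 + ρ g 1 4 * ρ k 4 5 := by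
  simp only [map_mul, Matrix.mul_apply, Fin.sum_univ_seven, h.z g, h.z k]; ring
theorem m16 (g k : G) : ρ (g * k) 1 6 = ρ g 1 6 + ρ k 1 6 + ρ g 1 2 * ρ k 2 6 + ρ g 1 3 * ρ k 3 6 + ρ g 1 4 * ρ k 4 6 + ρ g 1 5 * ρ k 5 6 := by
  simp only [map_mul, Matrix.mul_apply, Fin.sum_univ_seven, h.z g, h.z k]; ring
theorem m23 (g k : G) : ρ (g * k) 2 3 = ρ g 2 3 + ρ k 2 3 := by
  simp only [map_mul, Matrix.mul_apply, Fin.sum_univ_seven, h.z g, h.z k]; ring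
theorem m24 (g k : G) : ρ (g * k) 2 4 = ρ g 2 4 + ρ k 2 4 + ρ g 2 3 * ρ k 3 4 := by
  simp only [map_mul, Matrix.mul_apply, Fin.sum_univ_seven, h.z g, h.z k]; ring
theorem m25 (g k : G) : ρ (g * k) 2 5 = ρ g 2 5 + ρ k 2 5 + ρ g 2 3 * ρ k 3 5 + ρ g 2 4 * ρ k 4 5 := by
  simp only [map_mul, Matrix.mul_apply, Fin.sum_univ_seven, h.z g, h.z k]; ring
theorem m26 (g k : G) : ρ (g * k) 2 6 = ρ g 2 6 + ρ k 2 6 + ρ g 2 3 * ρ k 3 6 + ρ g 2 4 * ρ k 4 6 + ρ g 2 5 * ρ k 5 6 := by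
  simp only [map_mul, Matrix.mul_apply, Fin.sum_univ_seven, h.z g, h.z k]; ring
theorem m34 (g k : G) : ρ (g * k) 3 4 = ρ g 3 4 + ρ k 3 4 := by
  simp only [map_mul, Matrix.mul_apply, Fin.sum_univ_seven, h.z g, h.z k]; ring
theorem m35 (g k : G) : ρ (g * k) 3 5 = ρ g 3 5 + ρ k 3 5 + ρ g 3 4 * ρ k 4 5 := by
  simp only [map_mul, Matrix.mul_apply, Fin.sum_univ_seven, h.z g, h.z k]; ring
theorem m36 (g k : G) : ρ (g * k) 3 6 = ρ g 3 6 + ρ k 3 6 + ρ g 3 4 * ρ k 4 6 + ρ g 3 5 * ρ k 5 6 := by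
  simp only [map_mul, Matrix.mul_apply, Fin.sum_univ_seven, h.z g, h.z k]; ring
theorem m45 (g k : G) : ρ (g * k) 4 5 = ρ g 4 5 + ρ k 4 5 := by
  simp only [map_mul, Matrix.mul_apply, Fin.sum_univ_seven, h.z g, h.z k]; ring
theorem m46 (g k : G) : ρ (g * k) 4 6 = ρ g 4 6 + ρ k 4 6 + ρ g 4 5 * ρ k 5 6 := by
  simp only [map_mul, Matrix.mul_apply, Fin.sum_univ_seven, h.z g, h.z k]; ring
theorem m56 (g k : G) : ρ (g * k) 5 6 = ρ g 5 6 + ρ k 5 6 := by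
  simp only [map_mul, Matrix.mul_apply, Fin.sum_univ_seven, h.z g, h.z k]; ring

theorem d01 (g k : G) : ρ (g * k⁻¹) 0 1 = ρ g 0 1 - ρ k 0 1 := by
  linear_combination congrArg (ρ · 0 1) (inv_mul_cancel_right g k) - h.m01 (g * k⁻¹) k
theorem d02 (g k : G) : ρ (g * k⁻¹) 0 2 = ρ g 0 2 - ρ k 0 2 - ρ (g * k⁻¹) 0 1 * ρ k 1 2 := by
  linear_combination congrArg (ρ · 0 2) (inv_mul_cancel_right g k) - h.m02 (g * k⁻¹) k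
theorem d03 (g k : G) : ρ (g * k⁻¹) 0 3 = ρ g 0 3 - ρ k 0 3 - ρ (g * k⁻¹) 0 1 * ρ k 1 3 - ρ (g * k⁻¹) 0 2 * ρ k 2 3 := by
  linear_combination congrArg (ρ · 0 3) (inv_mul_cancel_right g k) - h.m03 (g * k⁻¹) k
theorem d04 (g k : G) : ρ (g * k⁻¹) 0 4 = ρ g 0 4 - ρ k 0 4 - ρ (g * k⁻¹) 0 1 * ρ k 1 4 - ρ (g * k⁻¹) 0 2 * ρ k 2 4 - ρ (g * k⁻¹) 0 3 * ρ k 3 4 := by
  linear_combination congrArg (ρ · 0 4) (inv_mul_cancel_right g k) - h.m04 (g * k⁻¹) k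
theorem d05 (g k : G) : ρ (g * k⁻¹) 0 5 = ρ g 0 5 - ρ k 0 5 - ρ (g * k⁻¹) 0 1 * ρ k 1 5 - ρ (g * k⁻¹) 0 2 * ρ k 2 5 - ρ (g * k⁻¹) 0 3 * ρ k 3 5 - ρ (g * k⁻¹) 0 4 * ρ k 4 5 := by
  linear_combination congrArg (ρ · 0 5) (inv_mul_cancel_right g k) - h.m05 (g * k⁻¹) k
theorem d06 (g k : G) : ρ (g * k⁻¹) 0 6 = ρ g 0 6 - ρ k 0 6 - ρ (g * k⁻¹) 0 1 * ρ k 1 6 - ρ (g * k⁻¹) 0 2 * ρ k 2 6 - ρ (g * k⁻¹) 0 3 * ρ k 3 6 - ρ (g * k⁻¹) 0 4 * ρ k 4 6 - ρ (g * k⁻¹) 0 5 * ρ k 5 6 := by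
  linear_combination congrArg (ρ · 0 6) (inv_mul_cancel_right g k) - h.m06 (g * k⁻¹) k
theorem d12 (g k : G) : ρ (g * k⁻¹) 1 2 = ρ g 1 2 - ρ k 1 2 := by
  linear_combination congrArg (ρ · 1 2) (inv_mul_cancel_right g k) - h.m12 (g * k⁻¹) k
theorem d13 (g k : G) : ρ (g * k⁻¹) 1 3 = ρ g 1 3 - ρ k 1 3 - ρ (g * k⁻¹) 1 2 * ρ k 2 3 := by
  linear_combination congrArg (ρ · 1 3) (inv_mul_cancel_right g k) - h.m13 (g * k⁻¹) k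
theorem d14 (g k : G) : ρ (g * k⁻¹) 1 4 = ρ g 1 4 - ρ k 1 4 - ρ (g * k⁻¹) 1 2 * ρ k 2 4 - ρ (g * k⁻¹) 1 3 * ρ k 3 4 := by
  linear_combination congrArg (ρ · 1 4) (inv_mul_cancel_right g k) - h.m14 (g * k⁻¹) k
theorem d15 (g k : G) : ρ (g * k⁻¹) 1 5 = ρ g 1 5 - ρ k 1 5 - ρ (g * k⁻¹) 1 2 * ρ k 2 5 - ρ (g * k⁻¹) 1 3 * ρ k 3 5 - ρ (g * k⁻¹) 1 4 * ρ k 4 5 := by
  linear_combination congrArg (ρ · 1 5) (inv_mul_cancel_right g k) - h.m15 (g * k⁻¹) k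
theorem d16 (g k : G) : ρ (g * k⁻¹) 1 6 = ρ g 1 6 - ρ k 1 6 - ρ (g * k⁻¹) 1 2 * ρ k 2 6 - ρ (g * k⁻¹) 1 3 * ρ k 3 6 - ρ (g * k⁻¹) 1 4 * ρ k 4 6 - ρ (g * k⁻¹) 1 5 * ρ k 5 6 := by
  linear_combination congrArg (ρ · 1 6) (inv_mul_cancel_right g k) - h.m16 (g * k⁻¹) k
theorem d23 (g k : G) : ρ (g * k⁻¹) 2 3 = ρ g 2 3 - ρ k 2 3 := by
  linear_combination congrArg (ρ · 2 3) (inv_mul_cancel_right g k) - h.m23 (g * k⁻¹) k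
theorem d24 (g k : G) : ρ (g * k⁻¹) 2 4 = ρ g 2 4 - ρ k 2 4 - ρ (g * k⁻¹) 2 3 * ρ k 3 4 := by
  linear_combination congrArg (ρ · 2 4) (inv_mul_cancel_right g k) - h.m24 (g * k⁻¹) k
theorem d25 (g k : G) : ρ (g * k⁻¹) 2 5 = ρ g 2 5 - ρ k 2 5 - ρ (g * k⁻¹) 2 3 * ρ k 3 5 - ρ (g * k⁻¹) 2 4 * ρ k 4 5 := by
  linear_combination congrArg (ρ · 2 5) (inv_mul_cancel_right g k) - h.m25 (g * k⁻¹) k
theorem d26 (g k : G) : ρ (g * k⁻¹) 2 6 = ρ g 2 6 - ρ k 2 6 - ρ (g * k⁻¹) 2 3 * ρ k 3 6 - ρ (g * k⁻¹) 2 4 * ρ k 4 6 - ρ (g * k⁻¹) 2 5 * ρ k 5 6 := by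
  linear_combination congrArg (ρ · 2 6) (inv_mul_cancel_right g k) - h.m26 (g * k⁻¹) k
theorem d34 (g k : G) : ρ (g * k⁻¹) 3 4 = ρ g 3 4 - ρ k 3 4 := by
  linear_combination congrArg (ρ · 3 4) (inv_mul_cancel_right g k) - h.m34 (g * k⁻¹) k
theorem d35 (g k : G) : ρ (g * k⁻¹) 3 5 = ρ g 3 5 - ρ k 3 5 - ρ (g * k⁻¹) 3 4 * ρ k 4 5 := by
  linear_combination congrArg (ρ · 3 5) (inv_mul_cancel_right g k) - h.m35 (g * k⁻¹) k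
theorem d36 (g k : G) : ρ (g * k⁻¹) 3 6 = ρ g 3 6 - ρ k 3 6 - ρ (g * k⁻¹) 3 4 * ρ k 4 6 - ρ (g * k⁻¹) 3 5 * ρ k 5 6 := by
  linear_combination congrArg (ρ · 3 6) (inv_mul_cancel_right g k) - h.m36 (g * k⁻¹) k
theorem d45 (g k : G) : ρ (g * k⁻¹) 4 5 = ρ g 4 5 - ρ k 4 5 := by
  linear_combination congrArg (ρ · 4 5) (inv_mul_cancel_right g k) - h.m45 (g * k⁻¹) k
theorem d46 (g k : G) : ρ (g * k⁻¹) 4 6 = ρ g 4 6 - ρ k 4 6 - ρ (g * k⁻¹) 4 5 * ρ k 5 6 := by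
  linear_combination congrArg (ρ · 4 6) (inv_mul_cancel_right g k) - h.m46 (g * k⁻¹) k
theorem d56 (g k : G) : ρ (g * k⁻¹) 5 6 = ρ g 5 6 - ρ k 5 6 := by
  linear_combination congrArg (ρ · 5 6) (inv_mul_cancel_right g k) - h.m56 (g * k⁻¹) k

theorem c01 (g k : G) : ρ ⁅g, k⁆ 0 1 = 0 := by
  linear_combination congrArg (ρ · 0 1) (cm g k) - h.m01 ⁅g, k⁆ (k * g) + h.m01 g k - h.m01 k g
theorem c02 (g k : G) : ρ ⁅g, k⁆ 0 2 = ρ g 0 1 * ρ k 1 2 - (ρ k 0 1 * ρ g 1 2) := by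
  linear_combination congrArg (ρ · 0 2) (cm g k) - h.m02 ⁅g, k⁆ (k * g) + h.m02 g k - h.m02 k g - ρ (k * g) 1 2 * h.c01 g k
theorem c03 (g k : G) : ρ ⁅g, k⁆ 0 3 = ρ g 0 1 * ρ k 1 3 + ρ g 0 2 * ρ k 2 3 - (ρ k 0 1 * ρ g 1 3 + ρ k 0 2 * ρ g 2 3) - ρ ⁅g, k⁆ 0 2 * ρ (k * g) 2 3 := by
  linear_combination congrArg (ρ · 0 3) (cm g k) - h.m03 ⁅g, k⁆ (k * g) + h.m03 g k - h.m03 k g - ρ (k * g) 1 3 * h.c01 g k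
theorem c04 (g k : G) : ρ ⁅g, k⁆ 0 4 = ρ g 0 1 * ρ k 1 4 + ρ g 0 2 * ρ k 2 4 + ρ g 0 3 * ρ k 3 4 - (ρ k 0 1 * ρ g 1 4 + ρ k 0 2 * ρ g 2 4 + ρ k 0 3 * ρ g 3 4) - ρ ⁅g, k⁆ 0 2 * ρ (k * g) 2 4 - ρ ⁅g, k⁆ 0 3 * ρ (k * g) 3 4 := by
  linear_combination congrArg (ρ · 0 4) (cm g k) - h.m04 ⁅g, k⁆ (k * g) + h.m04 g k - h.m04 k g - ρ (k * g) 1 4 * h.c01 g k
theorem c05 (g k : G) : ρ ⁅g, k⁆ 0 5 = ρ g 0 1 * ρ k 1 5 + ρ g 0 2 * ρ k 2 5 + ρ g 0 3 * ρ k 3 5 + ρ g 0 4 * ρ k 4 5 - (ρ k 0 1 * ρ g 1 5 + ρ k 0 2 * ρ g 2 5 + ρ k 0 3 * ρ g 3 5 + ρ k 0 4 * ρ g 4 5) - ρ ⁅g, k⁆ 0 2 * ρ (k * g) 2 5 - ρ ⁅g, k⁆ 0 3 * ρ (k * g) 3 5 - ρ ⁅g, k⁆ 0 4 * ρ (k * g) 4 5 := by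
  linear_combination congrArg (ρ · 0 5) (cm g k) - h.m05 ⁅g, k⁆ (k * g) + h.m05 g k - h.m05 k g - ρ (k * g) 1 5 * h.c01 g k
theorem c06 (g k : G) : ρ ⁅g, k⁆ 0 6 = ρ g 0 1 * ρ k 1 6 + ρ g 0 2 * ρ k 2 6 + ρ g 0 3 * ρ k 3 6 + ρ g 0 4 * ρ k 4 6 + ρ g 0 5 * ρ k 5 6 - (ρ k 0 1 * ρ g 1 6 + ρ k 0 2 * ρ g 2 6 + ρ k 0 3 * ρ g 3 6 + ρ k 0 4 * ρ g 4 6 + ρ k 0 5 * ρ g 5 6) - ρ ⁅g, k⁆ 0 2 * ρ (k * g) 2 6 - ρ ⁅g, k⁆ 0 3 * ρ (k * g) 3 6 - ρ ⁅g, k⁆ 0 4 * ρ (k * g) 4 6 - ρ ⁅g, k⁆ 0 5 * ρ (k * g) 5 6 := by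
  linear_combination congrArg (ρ · 0 6) (cm g k) - h.m06 ⁅g, k⁆ (k * g) + h.m06 g k - h.m06 k g - ρ (k * g) 1 6 * h.c01 g k
theorem c12 (g k : G) : ρ ⁅g, k⁆ 1 2 = 0 := by
  linear_combination congrArg (ρ · 1 2) (cm g k) - h.m12 ⁅g, k⁆ (k * g) + h.m12 g k - h.m12 k g
theorem c13 (g k : G) : ρ ⁅g, k⁆ 1 3 = ρ g 1 2 * ρ k 2 3 - (ρ k 1 2 * ρ g 2 3) := by
  linear_combination congrArg (ρ · 1 3) (cm g k) - h.m13 ⁅g, k⁆ (k * g) + h.m13 g k - h.m13 k g - ρ (k * g) 2 3 * h.c12 g k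
theorem c14 (g k : G) : ρ ⁅g, k⁆ 1 4 = ρ g 1 2 * ρ k 2 4 + ρ g 1 3 * ρ k 3 4 - (ρ k 1 2 * ρ g 2 4 + ρ k 1 3 * ρ g 3 4) - ρ ⁅g, k⁆ 1 3 * ρ (k * g) 3 4 := by
  linear_combination congrArg (ρ · 1 4) (cm g k) - h.m14 ⁅g, k⁆ (k * g) + h.m14 g k - h.m14 k g - ρ (k * g) 2 4 * h.c12 g k
theorem c15 (g k : G) : ρ ⁅g, k⁆ 1 5 = ρ g 1 2 * ρ k 2 5 + ρ g 1 3 * ρ k 3 5 + ρ g 1 4 * ρ k 4 5 - (ρ k 1 2 * ρ g 2 5 + ρ k 1 3 * ρ g 3 5 + ρ k 1 4 * ρ g 4 5) - ρ ⁅g, k⁆ 1 3 * ρ (k * g) 3 5 - ρ ⁅g, k⁆ 1 4 * ρ (k * g) 4 5 := by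
  linear_combination congrArg (ρ · 1 5) (cm g k) - h.m15 ⁅g, k⁆ (k * g) + h.m15 g k - h.m15 k g - ρ (k * g) 2 5 * h.c12 g k
theorem c16 (g k : G) : ρ ⁅g, k⁆ 1 6 = ρ g 1 2 * ρ k 2 6 + ρ g 1 3 * ρ k 3 6 + ρ g 1 4 * ρ k 4 6 + ρ g 1 5 * ρ k 5 6 - (ρ k 1 2 * ρ g 2 6 + ρ k 1 3 * ρ g 3 6 + ρ k 1 4 * ρ g 4 6 + ρ k 1 5 * ρ g 5 6) - ρ ⁅g, k⁆ 1 3 * ρ (k * g) 3 6 - ρ ⁅g, k⁆ 1 4 * ρ (k * g) 4 6 - ρ ⁅g, k⁆ 1 5 * ρ (k * g) 5 6 := by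
  linear_combination congrArg (ρ · 1 6) (cm g k) - h.m16 ⁅g, k⁆ (k * g) + h.m16 g k - h.m16 k g - ρ (k * g) 2 6 * h.c12 g k
theorem c23 (g k : G) : ρ ⁅g, k⁆ 2 3 = 0 := by
  linear_combination congrArg (ρ · 2 3) (cm g k) - h.m23 ⁅g, k⁆ (k * g) + h.m23 g k - h.m23 k g
theorem c24 (g k : G) : ρ ⁅g, k⁆ 2 4 = ρ g 2 3 * ρ k 3 4 - (ρ k 2 3 * ρ g 3 4) := by
  linear_combination congrArg (ρ · 2 4) (cm g k) - h.m24 ⁅g, k⁆ (k * g) + h.m24 g k - h.m24 k g - ρ (k * g) 3 4 * h.c23 g k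
theorem c25 (g k : G) : ρ ⁅g, k⁆ 2 5 = ρ g 2 3 * ρ k 3 5 + ρ g 2 4 * ρ k 4 5 - (ρ k 2 3 * ρ g 3 5 + ρ k 2 4 * ρ g 4 5) - ρ ⁅g, k⁆ 2 4 * ρ (k * g) 4 5 := by
  linear_combination congrArg (ρ · 2 5) (cm g k) - h.m25 ⁅g, k⁆ (k * g) + h.m25 g k - h.m25 k g - ρ (k * g) 3 5 * h.c23 g k
theorem c26 (g k : G) : ρ ⁅g, k⁆ 2 6 = ρ g 2 3 * ρ k 3 6 + ρ g 2 4 * ρ k 4 6 + ρ g 2 5 * ρ k 5 6 - (ρ k 2 3 * ρ g 3 6 + ρ k 2 4 * ρ g 4 6 + ρ k 2 5 * ρ g 5 6) - ρ ⁅g, k⁆ 2 4 * ρ (k * g) 4 6 - ρ ⁅g, k⁆ 2 5 * ρ (k * g) 5 6 := by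
  linear_combination congrArg (ρ · 2 6) (cm g k) - h.m26 ⁅g, k⁆ (k * g) + h.m26 g k - h.m26 k g - ρ (k * g) 3 6 * h.c23 g k
theorem c34 (g k : G) : ρ ⁅g, k⁆ 3 4 = 0 := by
  linear_combination congrArg (ρ · 3 4) (cm g k) - h.m34 ⁅g, k⁆ (k * g) + h.m34 g k - h.m34 k g
theorem c35 (g k : G) : ρ ⁅g, k⁆ 3 5 = ρ g 3 4 * ρ k 4 5 - (ρ k 3 4 * ρ g 4 5) := by
  linear_combination congrArg (ρ · 3 5) (cm g k) - h.m35 ⁅g, k⁆ (k * g) + h.m35 g k - h.m35 k g - ρ (k * g) 4 5 * h.c34 g k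
theorem c36 (g k : G) : ρ ⁅g, k⁆ 3 6 = ρ g 3 4 * ρ k 4 6 + ρ g 3 5 * ρ k 5 6 - (ρ k 3 4 * ρ g 4 6 + ρ k 3 5 * ρ g 5 6) - ρ ⁅g, k⁆ 3 5 * ρ (k * g) 5 6 := by
  linear_combination congrArg (ρ · 3 6) (cm g k) - h.m36 ⁅g, k⁆ (k * g) + h.m36 g k - h.m36 k g - ρ (k * g) 4 6 * h.c34 g k
theorem c45 (g k : G) : ρ ⁅g, k⁆ 4 5 = 0 := by
  linear_combination congrArg (ρ · 4 5) (cm g k) - h.m45 ⁅g, k⁆ (k * g) + h.m45 g k - h.m45 k g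
theorem c46 (g k : G) : ρ ⁅g, k⁆ 4 6 = ρ g 4 5 * ρ k 5 6 - (ρ k 4 5 * ρ g 5 6) := by
  linear_combination congrArg (ρ · 4 6) (cm g k) - h.m46 ⁅g, k⁆ (k * g) + h.m46 g k - h.m46 k g - ρ (k * g) 5 6 * h.c45 g k
theorem c56 (g k : G) : ρ ⁅g, k⁆ 5 6 = 0 := by
  linear_combination congrArg (ρ · 5 6) (cm g k) - h.m56 ⁅g, k⁆ (k * g) + h.m56 g k - h.m56 k g

theorem o (i j : Fin 7) (e : i ≠ j := by decide) : ρ 1 i j = 0 := by rw [map_one, Matrix.one_apply_ne e]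

/-- the kernels as subgroups -/
def S4 : Subgroup G := ks ⊤ (ρ · 4 5) fun g _ k _ => h.m45 g k
theorem mem4 {g : G} : g ∈ h.S4 ↔ K4 ρ g := ⟨fun a => ⟨a.2⟩, fun a => ⟨trivial, a.1⟩⟩
def S3 : Subgroup G := ks h.S4 (fun g => (ρ g 3 4, ρ g 3 5)) fun g _ k b => by simp [h.m34, h.m35, b.2]
theorem mem3 {g : G} : g ∈ h.S3 ↔ K3 ρ g :=
  ⟨fun a => ⟨h.mem4.1 a.1, congrArg (·.1) a.2, congrArg (·.2) a.2⟩, fun a => ⟨h.mem4.2 a.1, Prod.ext a.2 a.3⟩⟩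
def S2 : Subgroup G := ks h.S3 (fun g => (ρ g 2 3, ρ g 2 4, ρ g 2 5)) fun g _ k b => by
  have b := h.mem3.1 b; simp [h.m23, h.m24, h.m25, b.h34, b.h35, b.h45]
theorem mem2 {g : G} : g ∈ h.S2 ↔ K2 ρ g :=
  ⟨fun a => ⟨h.mem3.1 a.1, congrArg (·.1) a.2, congrArg (·.2.1) a.2, congrArg (·.2.2) a.2⟩,
    fun a => ⟨h.mem3.2 a.1, by simp [a.2, a.3, a.4]⟩⟩
def S1 : Subgroup G := ks h.S2 (fun g => (ρ g 1 2, ρ g 1 3, ρ g 1 4, ρ g 1 5)) fun g _ k b => by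
  have b := h.mem2.1 b; simp [h.m12, h.m13, h.m14, h.m15, b.h23, b.h24, b.h25, b.h34, b.h35, b.h45]
theorem mem1 {g : G} : g ∈ h.S1 ↔ K1 ρ g :=
  ⟨fun a => ⟨h.mem2.1 a.1, congrArg (·.1) a.2, congrArg (·.2.1) a.2, congrArg (·.2.2.1) a.2, congrArg (·.2.2.2) a.2⟩,
    fun a => ⟨h.mem2.2 a.1, by simp [a.2, a.3, a.4, a.5]⟩⟩
def S0 : Subgroup G := ks h.S1 (fun g => (ρ g 0 1, ρ g 0 2, ρ g 0 3, ρ g 0 4, ρ g 0 5)) fun g _ k b => by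
  have b := h.mem1.1 b
  simp [h.m01, h.m02, h.m03, h.m04, h.m05, b.h12, b.h13, b.h14, b.h15, b.h23, b.h24, b.h25, b.h34, b.h35, b.h45]
theorem mem0 {g : G} : g ∈ h.S0 ↔ K0 ρ g :=
  ⟨fun a => ⟨h.mem1.1 a.1, congrArg (·.1) a.2, congrArg (·.2.1) a.2, congrArg (·.2.2.1) a.2, congrArg (·.2.2.2.1) a.2,
    congrArg (·.2.2.2.2) a.2⟩, fun a => ⟨h.mem1.2 a.1, by simp [a.2, a.3, a.4, a.5, a.6]⟩⟩

/-- row counting: `φ` determines the row on the larger kernel -/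
theorem i3 {α : Type*} (φ : G → α) {S : Set α} (fi : S.Finite) (mem : ∀ g, K4 ρ g → φ g ∈ S)
    (inj : ∀ g k, K4 ρ g → K4 ρ k → φ g = φ k → ρ g 3 4 = ρ k 3 4 ∧ ρ g 3 5 = ρ k 3 5) :
    h.S3.index ≤ S.ncard * h.S4.index :=
  idx (H' := h.S3) (H := h.S4) (fun _ a => a.1) φ fi (fun g a => mem g (h.mem4.1 a)) fun g a k b e => ⟨mul_mem a (inv_mem b), by
    have := inj g k (h.mem4.1 a) (h.mem4.1 b) e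
    simp [h.d34, h.d35, this, b.2]⟩
theorem i2 {α : Type*} (φ : G → α) {S : Set α} (fi : S.Finite) (mem : ∀ g, K3 ρ g → φ g ∈ S)
    (inj : ∀ g k, K3 ρ g → K3 ρ k → φ g = φ k → ρ g 2 3 = ρ k 2 3 ∧ ρ g 2 4 = ρ k 2 4 ∧ ρ g 2 5 = ρ k 2 5) :
    h.S2.index ≤ S.ncard * h.S3.index :=
  idx (H' := h.S2) (H := h.S3) (fun _ a => a.1) φ fi (fun g a => mem g (h.mem3.1 a)) fun g a k b e => ⟨mul_mem a (inv_mem b), by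
    have b := h.mem3.1 b
    have := inj g k (h.mem3.1 a) b e
    simp [h.d23, h.d24, h.d25, this, b.h34, b.h35, b.h45]⟩
theorem i1 {α : Type*} (φ : G → α) {S : Set α} (fi : S.Finite) (mem : ∀ g, K2 ρ g → φ g ∈ S)
    (inj : ∀ g k, K2 ρ g → K2 ρ k → φ g = φ k →
      ρ g 1 2 = ρ k 1 2 ∧ ρ g 1 3 = ρ k 1 3 ∧ ρ g 1 4 = ρ k 1 4 ∧ ρ g 1 5 = ρ k 1 5) :
    h.S1.index ≤ S.ncard * h.S2.index :=
  idx (H' := h.S1) (H := h.S2) (fun _ a => a.1) φ fi (fun g a => mem g (h.mem2.1 a)) fun g a k b e => ⟨mul_mem a (inv_mem b), by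
    have b := h.mem2.1 b
    have := inj g k (h.mem2.1 a) b e
    simp [h.d12, h.d13, h.d14, h.d15, this, b.h23, b.h24, b.h25, b.h34, b.h35, b.h45]⟩

/-- the kernels are normal -/
theorem n4 {g : G} (a : K4 ρ g) (k : G) : K4 ρ ⁅g, k⁆ := ⟨h.c45 g k⟩
theorem n3 {g : G} (a : K3 ρ g) (k : G) : K3 ρ ⁅g, k⁆ := ⟨h.n4 a.1 k, h.c34 g k, by simp [h.c35, a.h34, a.h45]⟩
theorem n2 {g : G} (a : K2 ρ g) (k : G) : K2 ρ ⁅g, k⁆ := by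
  have e : ρ ⁅g, k⁆ 2 4 = 0 := by simp [h.c24, a.h23, a.h34]
  exact ⟨h.n3 a.1 k, h.c23 g k, e, by rw [h.c25, e]; simp [a.h23, a.h24, a.h35, a.h45]⟩
theorem n1 {g : G} (a : K1 ρ g) (k : G) : K1 ρ ⁅g, k⁆ := by
  have e : ρ ⁅g, k⁆ 1 3 = 0 := by simp [h.c13, a.h12, a.h23]
  have e' : ρ ⁅g, k⁆ 1 4 = 0 := by rw [h.c14, e]; simp [a.h12, a.h13, a.h24, a.h34]
  exact ⟨h.n2 a.1 k, h.c12 g k, e, e', by rw [h.c15, e, e']; simp [a.h12, a.h13, a.h14, a.h25, a.h35, a.h45]⟩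
end UT

namespace Md
variable (h : Md σ q ρ)
include h

theorem i4 : h.S4.index ≤ q ^ 2 :=
  (ks_idx (H := ⊤) (φ := (ρ · 4 5)) (fun g _ k _ => h.m45 g k) Set.finite_univ fun _ _ => trivial).trans (by simp [h.hF])
theorem j3 : h.S3.index ≤ q ^ 6 := (h.i3 (fun g => (ρ g 3 4, ρ g 3 5)) Set.finite_univ (fun _ _ => trivial)
  fun _ _ _ _ e => Prod.mk.inj e).trans (by rw [h.cF2, show 6 = 4 + 2 from rfl, pow_add]; exact Nat.mul_le_mul_left _ h.i4)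

/-- transitivity -/
theorem i0 : q ^ 10 ≤ h.S0.index := by
  choose g hg using h.tr
  rw [show q ^ 10 = Nat.card (F × F × F × F × F) by simp only [Nat.card_prod, Nat.card_eq_fintype_card (α := F), h.hF]; ring]
  refine Nat.card_le_card_of_injective (fun x => ((g x.1 x.2.1 x.2.2.1 x.2.2.2.1 x.2.2.2.2 : G) : G ⧸ h.S0)) fun x y e => ?_
  have b := h.mem0.1 (QuotientGroup.eq.1 e)
  have e0 := h.m05 _ _ ▸ congrArg (ρ · 0 5) (mul_inv_cancel_left (g x.1 x.2.1 x.2.2.1 x.2.2.2.1 x.2.2.2.2) (g y.1 y.2.1 y.2.2.1 y.2.2.2.1 y.2.2.2.2))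
  have e1 := h.m15 _ _ ▸ congrArg (ρ · 1 5) (mul_inv_cancel_left (g x.1 x.2.1 x.2.2.1 x.2.2.2.1 x.2.2.2.2) (g y.1 y.2.1 y.2.2.1 y.2.2.2.1 y.2.2.2.2))
  have e2 := h.m25 _ _ ▸ congrArg (ρ · 2 5) (mul_inv_cancel_left (g x.1 x.2.1 x.2.2.1 x.2.2.2.1 x.2.2.2.2) (g y.1 y.2.1 y.2.2.1 y.2.2.2.1 y.2.2.2.2))
  have e3 := h.m35 _ _ ▸ congrArg (ρ · 3 5) (mul_inv_cancel_left (g x.1 x.2.1 x.2.2.1 x.2.2.2.1 x.2.2.2.2) (g y.1 y.2.1 y.2.2.1 y.2.2.2.1 y.2.2.2.2))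
  have e4 := h.m45 _ _ ▸ congrArg (ρ · 4 5) (mul_inv_cancel_left (g x.1 x.2.1 x.2.2.1 x.2.2.2.1 x.2.2.2.2) (g y.1 y.2.1 y.2.2.1 y.2.2.2.1 y.2.2.2.2))
  simp only [b.h05, b.h15, b.h25, b.h35, b.h45, hg, mul_zero, add_zero] at e0 e1 e2 e3 e4
  exact Prod.ext e0 (Prod.ext e1 (Prod.ext e2 (Prod.ext e3 e4)))

/-- a non-constant third row produces all constants -/
theorem nc2 {g : G} (a : K3 ρ g) (n : ρ g 2 3 ≠ 0 ∨ ρ g 2 4 ≠ 0) (μ : F) :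
    ∃ b, K3 ρ b ∧ ρ b 2 3 = 0 ∧ ρ b 2 4 = 0 ∧ ρ b 2 5 = μ := by
  have k : ∀ g, K3 ρ g → (ρ g 2 3 ≠ 0 ∨ ρ g 2 4 ≠ 0) → (∀ k, ρ g 2 3 * ρ k 3 4 = 0) →
      ∃ b, K3 ρ b ∧ ρ b 2 3 = 0 ∧ ρ b 2 4 = 0 ∧ ρ b 2 5 = μ := fun g a n z => by
    obtain ⟨x, y, e⟩ : ∃ x y, ρ g 2 3 * x + ρ g 2 4 * y = μ := by
      rcases n with n | n
      exacts [⟨μ / ρ g 2 3, 0, by field_simp; ring⟩, ⟨0, μ / ρ g 2 4, by field_simp; ring⟩]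
    obtain ⟨k, -, -, -, k1, k2⟩ := h.tr 0 0 0 x y
    have e' : ρ ⁅g, k⁆ 2 4 = 0 := by simp [h.c24, z, a.h34]
    exact ⟨_, h.n3 a k, h.c23 g k, e', by rw [h.c25, e']; simp [a.h35, a.h45, k1, k2, e]⟩
  by_cases z : ∀ k, ρ g 2 3 * ρ k 3 4 = 0
  · exact k g a n z
  push Not at z
  obtain ⟨s, z⟩ := z
  exact k _ (h.n3 a s) (.inr (by simpa [h.c24, a.h34] using z)) fun _ => by simp [h.c23]

/-- a non-constant second row produces all constants -/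
theorem nc1 {g : G} (a : K2 ρ g) (n : ρ g 1 2 ≠ 0 ∨ ρ g 1 3 ≠ 0 ∨ ρ g 1 4 ≠ 0) : AF ρ := fun μ => by
  have k : ∀ g, K2 ρ g → (ρ g 1 2 ≠ 0 ∨ ρ g 1 3 ≠ 0 ∨ ρ g 1 4 ≠ 0) → (∀ k, ρ ⁅g, k⁆ 1 3 = 0 ∧ ρ ⁅g, k⁆ 1 4 = 0) →
      ∃ b, Cn ρ b μ 0 := fun g a n z => by
    obtain ⟨x, y, w, e⟩ : ∃ x y w, ρ g 1 2 * x + ρ g 1 3 * y + ρ g 1 4 * w = μ := by
      rcases n with n | n | n
      exacts [⟨μ / ρ g 1 2, 0, 0, by field_simp; ring⟩, ⟨0, μ / ρ g 1 3, 0, by field_simp; ring⟩,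
        ⟨0, 0, μ / ρ g 1 4, by field_simp; ring⟩]
    obtain ⟨k, -, -, k0, k1, k2⟩ := h.tr 0 0 x y w
    have b := h.n2 a k
    exact ⟨_, b.1, h.c12 g k, (z k).1, (z k).2, b.h23, b.h24, by
      rw [h.c15, (z k).1, (z k).2]; simp [a.h25, a.h35, a.h45, k0, k1, k2, e], b.h25⟩
  have k2 : ∀ g, K2 ρ g → (ρ g 1 3 ≠ 0 ∨ ρ g 1 4 ≠ 0) → ρ g 1 2 = 0 → ∃ b, Cn ρ b μ 0 := fun g a n z => by
    have z3 : ∀ s, ρ ⁅g, s⁆ 1 3 = 0 := fun s => by simp [h.c13, z, a.h23]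
    by_cases e : ∀ s, ρ ⁅g, s⁆ 1 4 = 0
    · exact k g a (.inr n) fun s => ⟨z3 s, e s⟩
    push Not at e
    obtain ⟨s, e⟩ := e
    have b := h.n2 a s
    have z4 : ∀ r, ρ ⁅⁅g, s⁆, r⁆ 1 3 = 0 := fun r => by rw [h.c13, h.c12, b.h23]; simp
    exact k _ b (.inr (.inr e)) fun r => ⟨z4 r, by rw [h.c14, z4, h.c12, z3, b.h24, b.h34]; simp⟩
  by_cases e : ∀ s, ρ ⁅g, s⁆ 1 3 = 0 ∧ ρ ⁅g, s⁆ 1 4 = 0
  · exact k g a n e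
  push Not at e
  obtain ⟨s, e⟩ := e
  exact k2 _ (h.n2 a s) (or_iff_not_imp_left.2 fun z => e (not_not.1 z)) (h.c12 g s)

/-- without translations `K₁ = K₀` -/
theorem k10 (t0 : T0 ρ) {g : G} (a : K1 ρ g) : K0 ρ g := t0 g (h.k1 g a)

/-- translations by real multiples of `e₁` -/
theorem ra (t1 : T1 ρ) {g : G} (a : K1 ρ g) : σ (ρ g 0 5) = ρ g 0 5 := by
  obtain ⟨t, b, e⟩ := t1
  refine (h.sc t g _ (h.k1 t b) (h.k1 g a) (by simp [e]) (by simp [a.h15, b.h15]) (by simp [a.h25, b.h25])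
    (by simp [a.h35, b.h35]) (by simp [a.h45, b.h45])).resolve_right fun z => one_ne_zero (e.symm.trans z.h05)

/-- with translations `|K₁ : K₀| ≤ q` -/
theorem i1' (t1 : T1 ρ) : q ^ 9 ≤ h.S1.index := by
  have := h.i0.trans ((idx (H' := h.S0) (H := h.S1) (fun _ a => a.1) (ρ · 0 5) (S := {c | σ c = c}) (Set.toFinite _)
    (fun g a => h.ra t1 (h.mem1.1 a)) fun g a k b e => by
      have c := h.mem1.1 (mul_mem a (inv_mem b))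
      have t := h.k1 _ c
      exact h.mem0.2 ⟨c, t.h01, t.h02, t.h03, t.h04, by simp [h.d05, t.h01, t.h02, t.h03, t.h04, e]⟩).trans
    (Nat.mul_le_mul_right _ h.hk))
  exact Nat.le_of_mul_le_mul_left (by rwa [← pow_succ']) (by linarith [h.q2] : 0 < q)

/-- the elements `b_x` -/
theorem bx (t0 : T0 ρ) (e1 : E1 ρ) {b : G} {x : F} (a : Cn ρ b x 0) : Eb ρ b x := by
  have b1 : ρ b 0 1 = 0 := (e1 b).trans a.h45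
  have k : ∀ g, ρ b 0 2 * ρ g 2 5 + ρ b 0 3 * ρ g 3 5 + ρ b 0 4 * ρ g 4 5 = ρ g 4 5 * x := fun g => by
    have z3 : ρ ⁅b, g⁆ 1 3 = 0 := by simp [h.c13, a.h12, a.h23]
    have z4 : ρ ⁅b, g⁆ 1 4 = 0 := by rw [h.c14, z3]; simp [a.h12, a.h13, a.h24, a.h34]
    have c := h.k10 t0 ⟨h.n2 ⟨a.1, a.h23, a.h24, a.h25⟩ g, h.c12 b g, z3, z4, by
      rw [h.c15, z3, z4]; simp [a.h12, a.h13, a.h14, a.h25, a.h35, a.h45]⟩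
    have := h.c05 b g
    rw [c.h02, c.h03, c.h04, c.h05, b1, a.h15, a.h25, a.h35, a.h45, e1 g] at this
    linear_combination -this
  obtain ⟨g2, -, -, k2⟩ := h.tr 0 0 1 0 0
  obtain ⟨g3, -, -, k3⟩ := h.tr 0 0 0 1 0
  obtain ⟨g4, -, -, k4⟩ := h.tr 0 0 0 0 1
  exact ⟨b1, by simpa [k2] using k g2, by simpa [k3] using k g3, by simpa [k4] using k g4, a.h12, a.h13, a.h14, a.h23,
    a.h24, a.h34⟩

/-- the Heisenberg quotient: a non-zero central element -/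
theorem hz : ∃ g, ρ g 4 5 = 0 ∧ ρ g 4 6 ≠ 0 := by
  obtain ⟨l, hl⟩ := h.ex
  obtain ⟨g, -, -, -, -, e⟩ := h.tr 0 0 0 0 1
  obtain ⟨k, -, -, -, -, e'⟩ := h.tr 0 0 0 0 l
  exact ⟨⁅g, k⁆, h.c45 g k, by rw [h.c46, h.u1, h.u1, e, e', map_one]; exact fun z => hl (by linear_combination -z)⟩
end Md
end kit

end H4.PG
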