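import Mathlib
import Cfsg.Prelude.Def_GeometricClasses

/-! S5810: the Singer normaliser is maximal in `SU₇(q)`. Definitions and chunk statements (proofs: notes/US.md). -/

set_option autoImplicit false
set_option linter.unusedSectionVars false

open Module Polynomial Finset

namespace H4.US

universe u

/-- `gcd(7, q+1)` -/
def gg (q : ℕ) : ℕ := Nat.gcd 7 (q + 1)
/-- the order of the torus -/
def mm (q : ℕ) : ℕ := (q ^ 7 + 1) / gg q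
/-- the order of its Hall subgroup -/
def cc (q : ℕ) : ℕ := mm q / (q + 1)
/-- the exponent of the residue symbol -/
def NN (q : ℕ) : ℕ := (q ^ 7 - 1) * cc q

section field
variable (F : Type u) [Field F] [Fintype F] {K : Type u} [Field K] [Fintype K] [Algebra F K]

/-- the hermitian form -/
noncomputable def fm (q : ℕ) (x y : K) : F := Algebra.trace F K (x * y ^ q ^ 7)

/-- multiplications -/
def ml : Kˣ →* (K ≃ₗ[F] K) := DistribMulAction.toModuleAut F K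

theorem ml_apply (c : Kˣ) (x : K) : ml F c x = c * x := rfl

/-- isometries -/
def Iso (q : ℕ) (g : K ≃ₗ[F] K) : Prop := ∀ x y, fm F q (g x) (g y) = fm F q x y

/-- `g` lies in `ΓL₁(K)` -/
def Mon (q : ℕ) (g : K ≃ₗ[F] K) : Prop := ∃ (a : K) (i : ℕ), ∀ x, g x = a * x ^ (q ^ 2) ^ i

/-- unitary transvections -/
def Tv (q : ℕ) (t : K ≃ₗ[F] K) : Prop := ∃ (e : K) (l : F), e ≠ 0 ∧ l ≠ 0 ∧ fm F q e e = 0 ∧ ∀ x, t x = x + (l * fm F q x e) • e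

variable (K) in
/-- the fields -/
structure Fd (q : ℕ) : Prop where
  hF : Fintype.card F = q ^ 2
  hK : finrank F K = 7
  md : ∃ e : K ≃ₗ[F] (Fin 7 → F), ∀ x y, Cfsg.hermForm 7 F q (e x) (e y) = fm F q x y

variable {F}
/-- a proper overgroup of the Singer normaliser, extended by the central isometries -/
structure Hy (q : ℕ) (J : Subgroup (K ≃ₗ[F] K)) : Prop where
  iso : ∀ g ∈ J, Iso F q g
  tor : ∀ c : Kˣ, ml F c ∈ J ↔ c ^ mm q = 1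
  fro : ∃ g ∈ J, ∀ x, g x = x ^ q ^ 2
  big : ∃ g ∈ J, ¬ Mon F q g

/-- the Gauss sums of a function on the unitary space -/
noncomputable def Gs (q : ℕ) (ψ : AddChar F ℂ) (Φ : K → ℂ) (γ : K) : ℂ :=
  ∑ x, Φ x * ψ (Algebra.trace F K (γ * x ^ (q ^ 7 + 1)))

/-- `γ ∈ F_{q^7} ∖ F_q` -/
def Ek (q : ℕ) (γ : K) : Prop := γ ^ q ^ 7 = γ ∧ γ ^ q ≠ γ

variable (F) in
/-- functions of the residue symbols -/
def Iv (q : ℕ) (G : K → ℂ) : Prop := ∀ (κ : F) (γ γ' : K), κ ^ q ≠ κ → Ek q γ → Ek q γ' →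
  (γ + algebraMap F K κ) ^ NN q = (γ' + algebraMap F K κ) ^ NN q → ((γ + algebraMap F K κ) ^ NN q) ^ (q + 1) = 1 →
  G γ = G γ'

/-- constant off the small field -/
def Cn (q : ℕ) (G : K → ℂ) : Prop := ∀ γ γ', Ek q γ → Ek q γ' → G γ = G γ'

/-- the orbit of a vector -/
def orb (J : Subgroup (K ≃ₗ[F] K)) (x : K) : Set K := {y | ∃ g ∈ J, g x = y}
end field

/-- a group with a central subgroup `Zs`, a cyclic subgroup `⟨c⟩` of automizer order seven and a small representation -/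
structure XH {Γ : Type u} [Group Γ] {n : ℕ} (ρ : Γ →* Matrix (Fin n) (Fin n) ℂ) (Z0 Zs N : Subgroup Γ) (c y : Γ)
    (s t g : ℕ) : Prop where
  cen : Zs ≤ Subgroup.center Γ
  z0 : Z0 ≤ Zs
  oc : orderOf c = 7 * t + 1
  odd : Odd (7 * t + 1)
  g1 : 1 ≤ g
  t6 : 6 * g ≤ t
  dis : Zs ⊓ Subgroup.zpowers c = ⊥
  cy : y * c * y⁻¹ = c ^ s
  s7 : c ^ s ^ 7 = c
  fr : ∀ a ∈ Subgroup.zpowers c, ∀ i, 0 < i → i < 7 → a ^ s ^ i = a → a = 1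
  cN : Nat.card N = 7 * (7 * t + 1) * Nat.card Zs
  nN : ∀ x ∈ N, ∃ i, x * c * x⁻¹ = c ^ s ^ i
  ti : ∀ x, ∀ z ∈ Zs, ∀ z' ∈ Zs, ∀ a ∈ Subgroup.zpowers c, ∀ a' ∈ Subgroup.zpowers c, a ≠ 1 →
    x * (z * a) * x⁻¹ = z' * a' → x ∈ N
  sc : ∀ z ∈ Z0, ∃ ζ : ℂ, ρ z = ζ • 1
  fz : ∀ z ∈ Z0, ρ z = 1 → z = 1
  w1 : ∀ z ∈ Zs, ∀ a ∈ Subgroup.zpowers c, z * a ∉ Z0 → ‖(ρ (z * a)).trace‖ = 1
  wd : (n + 1) * Nat.card Z0 = g * (7 * t + 1) * Nat.card Zs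

/-! ### Chunks -/

/-- arithmetic of the torus -/
def AR : Prop := ∀ q : ℕ, 2 ≤ q → mm q * gg q = q ^ 7 + 1 ∧ cc q * (q + 1) = mm q ∧ (cc q).Coprime (q + 1) ∧
  (cc q).Coprime q ∧ Odd (cc q) ∧ (gg q = 1 ∨ gg q = 7) ∧ (∃ t, cc q = 7 * t + 1 ∧ 6 * gg q ≤ t) ∧
  (∀ i, 0 < i → i < 7 → (cc q).Coprime ((q ^ 2) ^ i - 1)) ∧ ∀ r, r.Prime → r ∣ cc q → 29 ≤ r

/-- group theory of the overgroup -/
def GR : Prop := ∀ (F K : Type u) [Field F] [Fintype F] [Field K] [Fintype K] [Algebra F K] (q : ℕ)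
  (J : Subgroup (K ≃ₗ[F] K)), Fd F K q → Hy q J →
  (∀ (g : K ≃ₗ[F] K) (t t' : K), t ^ q ^ 2 ≠ t → (∀ x, g (t * x) = t' * g x) → Mon F q g) ∧
  (∃ N : Subgroup (K ≃ₗ[F] K), (∀ g, g ∈ N ↔ g ∈ J ∧ Mon F q g) ∧ Nat.card N = 7 * mm q) ∧
  ∀ Y ≤ J, (∀ g ∈ J, ∀ y ∈ Y, g * y * g⁻¹ ∈ Y) → (∀ c : Kˣ, ml F c ∈ Y → c ^ (q + 1) = 1) →
    ∀ y ∈ Y, ∃ c : F, ∀ x, y x = c • x

/-- the Heisenberg relations -/
def HW : Prop := ∀ (V : Type u) [AddCommGroup V] [Fintype V] (b : V → V → ℂ),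
  (∀ x y z, b (x + y) z = b x z * b y z) → (∀ x y z, b x (y + z) = b x y * b x z) → (∀ x y, b x y ≠ 0) →
  (∀ x, x ≠ 0 → ∃ y, b x y ≠ b y x) →
  ∃ (n : ℕ) (E : V → Matrix (Fin n) (Fin n) ℂ), n ^ 2 = Fintype.card V ∧ E 0 = 1 ∧
    (∀ x y, E x * E y = b x y • E (x + y)) ∧ (∀ x, x ≠ 0 → (E x).trace = 0) ∧ ∀ A, ∃ a : V → ℂ, A = ∑ x, a x • E x

/-- the Weil representation of a central extension -/
def WR : Prop := ∀ (V : Type u) [AddCommGroup V] [Fintype V] (b : V → V → ℂ) (J : Type u) [Group J] [Finite J]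
  [DistribMulAction J V],
  (∀ x y z, b (x + y) z = b x z * b y z) → (∀ x y z, b x (y + z) = b x y * b x z) → (∀ x y, b x y ≠ 0) →
  (∀ x, x ≠ 0 → ∃ y, b x y ≠ b y x) → (∀ (g : J) x y, b (g • x) (g • y) = b x y) →
  ∃ (n : ℕ) (Γ : Type u) (_ : Group Γ) (_ : Fintype Γ) (π : Γ →* J) (ρ : Γ →* Matrix (Fin n) (Fin n) ℂ),
    n ^ 2 = Fintype.card V ∧ Function.Surjective π ∧
    (∀ z, π z = 1 → z ^ n = 1 ∧ z ∈ Subgroup.center Γ ∧ (∃ ζ : ℂ, ρ z = ζ • 1) ∧ (ρ z = 1 → z = 1)) ∧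
    (∀ x, (∀ v : V, π x • v = v → v = 0) → ‖(ρ x).trace‖ = 1) ∧
    ∀ Φ : V → ℂ, (∀ (g : J) v, Φ (g • v) = Φ v) → ∃ A, (∀ x, A * ρ x = ρ x * A) ∧ ∀ x, (∀ v : V, π x • v = v → v = 0) →
      (A * ρ x).trace = (ρ x).trace * ∑ v, Φ (v - π x • v) * b (v - π x • v) (π x • v)

/-- exceptional characters -/
def EX : Prop := ∀ (Γ : Type u) [Group Γ] [Fintype Γ] (n : ℕ) (ρ : Γ →* Matrix (Fin n) (Fin n) ℂ) (Z0 Zs N : Subgroup Γ)
  (c y : Γ) (s t g : ℕ), XH ρ Z0 Zs N c y s t g →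
  (∃ Y : Subgroup Γ, Y.Normal ∧ Zs ≤ Y ∧ Y ⊓ Subgroup.zpowers c = ⊥ ∧ Nat.card Γ = 7 * (7 * t + 1) * Nat.card Y) ∨
  ∀ A, (∀ x, A * ρ x = ρ x * A) → ∀ z ∈ Zs, ∀ a ∈ Subgroup.zpowers c, ∀ a' ∈ Subgroup.zpowers c, a ≠ 1 → a' ≠ 1 →
    (A * ρ (z * a)).trace = (A * ρ (z * a')).trace

/-- Gauss sums of invariant functions -/
def DD : Prop := ∀ (F K : Type u) [Field F] [Fintype F] [Field K] [Fintype K] [Algebra F K] (q : ℕ)
  (J : Subgroup (K ≃ₗ[F] K)) (ψ : AddChar F ℂ) (Φ : K → ℂ), Fd F K q → Hy q J → (∃ a, a ^ q = a ∧ ψ a ≠ 1) →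
  (∀ g ∈ J, ∀ x, Φ (g x) = Φ x) → Iv F q (Gs q ψ Φ)

/-- Stepanov's upper bound -/
def ST : Prop := ∀ D m : ℕ, 0 < m → ∃ C : ℕ, ∀ (L : Type u) [Field L] [Fintype L] (M : ℕ) (f : L[X]) (ζ : L),
  Fintype.card L = M ^ 2 → m ∣ Fintype.card L - 1 → f ≠ 0 → f.natDegree ≤ D →
  (∀ d, (∀ a, m ∣ d * f.rootMultiplicity a) → m ∣ d) → ζ ^ m = 1 →
  m * {x | f.eval x ^ ((Fintype.card L - 1) / m) = ζ}.ncard ≤ Fintype.card L + C * M

/-- `L`-functions of multiplicative functions on a polynomial ring -/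
def LF : Prop := ∀ (k : Type u) [Field k] [Fintype k] (l : k[X] →* ℂ) (D r : ℕ) (C R : ℝ), 2 ≤ D → 0 < r → 1 ≤ R →
  (∀ d, D ≤ d → ∑ᶠ f : {f : k[X] // f.Monic ∧ f.natDegree = d}, l f = 0) →
  (∑ d ∈ range D, ∑ᶠ f : {f : k[X] // f.Monic ∧ f.natDegree = d}, l f = 0) →
  (∀ j, 0 < j → ∃ (L : Type u) (_ : Field L) (_ : Fintype L) (_ : Algebra k L), finrank k L = r * j ∧
    ‖∑ x : L, l (minpoly k x) ^ (r * j / (minpoly k x).natDegree)‖ ≤ C * R ^ (r * j)) →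
  ‖1 + ∑ a : k, l (X - Polynomial.C a)‖ ≤ ((D : ℝ) - 2) * R

/-- the Weil bound -/
def WB : Prop := ∀ (k K : Type u) [Field k] [Fintype k] [Field K] [Fintype K] [Algebra k K] (s : ℕ) (α : Fin s → K)
  (χ : Fin s → MulChar K ℂ), 2 ≤ finrank k K → (∀ i, (minpoly k (α i)).natDegree = finrank k K) →
  (Function.Injective fun i => minpoly k (α i)) → (∃ i, χ i ≠ 1) → (∀ a : k, a ≠ 0 → ∏ i, χ i (algebraMap k K a) = 1) →
  ‖1 + ∑ a : k, ∏ i, χ i (α i - algebraMap k K a)‖ ≤ ((s * finrank k K : ℕ) - 2 : ℝ) * √(Fintype.card k)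

/-- assembling the Weil bound -/
def W3 : Prop := ST.{u} → LF.{u} → WB.{u}

/-- seventh powers among the values of a polynomial of degree seven -/
def CVP (q : ℕ) : Prop := ∀ (F : Type u) [Field F] [Fintype F] (a : ℕ → F), Fintype.card F = q ^ 2 → (∀ i, a i ^ q = a i) →
  ∃ κ : F, κ ^ q ≠ κ ∧ (κ ^ 7 + ∑ i ∈ range 7, a i * κ ^ i) ^ ((q ^ 2 - 1) / 7) = 1

/-- every element is covered -/
def CV : Prop := ∀ (F K : Type u) [Field F] [Fintype F] [Field K] [Fintype K] [Algebra F K] (q : ℕ) (γ : K),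
  Fd F K q → Ek q γ → ∃ κ : F, κ ^ q ≠ κ ∧ ((γ + algebraMap F K κ) ^ NN q) ^ (q + 1) = 1

/-- covering from the Weil bound and two computations -/
def CW : Prop := WB.{u} → CVP.{u} 13 → CVP.{u} 27 → CV.{u}

/-- connectedness -/
def CN : Prop := ∀ (F K : Type u) [Field F] [Fintype F] [Field K] [Fintype K] [Algebra F K] (q : ℕ) (G : K → ℂ),
  Fd F K q → 3 ≤ q → Iv F q G → Cn q G

/-- connectedness from the Weil bound -/
def CO : Prop := WB.{u} → CV.{u} → CN.{u}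

/-- the case `q = 2` -/
def Q2 : Prop := ∀ (F K : Type u) [Field F] [Fintype F] [Field K] [Fintype K] [Algebra F K] (ψ : AddChar F ℂ)
  (S : Finset K), Fd F K 2 → ψ 1 ≠ 1 → (∀ y ∈ S, y ^ 2 ^ 7 = y) →
  Iv F 2 (fun γ => ∑ y ∈ S, ψ (Algebra.trace F K (γ * y))) → Cn 2 fun γ => ∑ y ∈ S, ψ (Algebra.trace F K (γ * y))

/-- the orbits on vectors -/
def OB : Prop := ∀ (F K : Type u) [Field F] [Fintype F] [Field K] [Fintype K] [Algebra F K] (q : ℕ)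
  (J : Subgroup (K ≃ₗ[F] K)), Fd F K q → Hy q J → ∀ x, x ≠ 0 →
  (fm F q x x ≠ 0 → q ^ 6 ∣ (orb J x).ncard) ∧
  (fm F q x x = 0 → {y : K | y ≠ 0 ∧ fm F q y y = 0}.ncard ≤ gg q * (orb J x).ncard)

/-- Fourier inversion -/
def ON : Prop := DD.{u} → CN.{u} → Q2.{u} → OB.{u}

/-- unipotent groups with long orbits contain transvections -/
def PG : Prop := ∀ (F K : Type u) [Field F] [Fintype F] [Field K] [Fintype K] [Algebra F K] (q : ℕ)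
  (U : Subgroup (K ≃ₗ[F] K)), Fd F K q → (∀ g ∈ U, Iso F q g) → IsPGroup (ringChar F) U →
  (∀ x, fm F q x x ≠ 0 → q ^ 6 ≤ (orb U x).ncard) → ∃ t ∈ U, Tv F q t

/-- the endgame -/
def FN : Prop := ∀ (F K : Type u) [Field F] [Fintype F] [Field K] [Fintype K] [Algebra F K] (q : ℕ)
  (J : Subgroup (K ≃ₗ[F] K)), Fd F K q → Hy q J → (∃ t ∈ J, Tv F q t) →
  (∀ x, x ≠ 0 → fm F q x x = 0 → {y : K | y ≠ 0 ∧ fm F q y y = 0}.ncard ≤ gg q * (orb J x).ncard) →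
  ∀ t, Iso F q t → Tv F q t → t ∈ J

/-- all transvections lie in the overgroup -/
def MN : Prop := ∀ (F K : Type u) [Field F] [Fintype F] [Field K] [Fintype K] [Algebra F K] (q : ℕ)
  (J : Subgroup (K ≃ₗ[F] K)), Fd F K q → Hy q J → ∀ t, Iso F q t → Tv F q t → t ∈ J

/-- the goal -/
def C3U : Prop := ∀ (F : Type u) [Field F] [Fintype F] (q : ℕ), Fintype.card F = q ^ 2 →
  ∀ K : Subalgebra F (Matrix (Fin 7) (Fin 7) F), Cfsg.Geo.IsFieldSubalgebra 7 K →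
  Cfsg.Geo.IsAdjointClosedFor (Cfsg.hermForm 7 F q) K →
  Cfsg.Geo.IsMaximalIn (Cfsg.GU 7 F q ⊓ Cfsg.Geo.specialLinear (Fin 7) F)
    (Cfsg.Geo.subalgebraNormalizer K ⊓ (Cfsg.GU 7 F q ⊓ Cfsg.Geo.specialLinear (Fin 7) F))

/-- transport -/
def AS : Prop := AR → MN.{u} → C3U.{u}

/-- the extraspecial normaliser -/
def C6U : Prop := ∀ (F : Type u) [Field F] [Fintype F] (q : ℕ), Fintype.card F = q ^ 2 →
  ∀ (p : ℕ) (R : Subgroup (Matrix.GeneralLinearGroup (Fin 7) F)), p.Prime → CharP F p →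
  ((q = p ∧ p % 7 = 6) ∨ (q = p ^ 3 ∧ (p % 7 = 3 ∨ p % 7 = 5))) → Cfsg.Geo.IsSymplecticTypeGroup 7 R →
  Cfsg.Geo.ActsAbsolutelyIrreducibly (Cfsg.Geo.matrixSet R) → R ≤ Cfsg.Geo.similarityGroup (Cfsg.hermForm 7 F q) →
  Nat.card R = 343 → Nat.card (Subgroup.center R) = 7 →
  Cfsg.Geo.IsMaximalIn (Cfsg.GU 7 F q ⊓ Cfsg.Geo.specialLinear (Fin 7) F)
    (Cfsg.Geo.subgroupNormalizer R ⊓ (Cfsg.GU 7 F q ⊓ Cfsg.Geo.specialLinear (Fin 7) F))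

theorem mn_of (ob : OB.{u}) (pg : PG.{u}) (fn : FN.{u}) : MN.{u} := fun F K _ _ _ _ _ q J fd hy => by
  refine fn F K q J fd hy ?_ fun x x0 => (ob F K q J fd hy x x0).2
  haveI : Fact (ringChar F).Prime := ⟨CharP.char_is_prime F _⟩
  haveI : Finite (K ≃ₗ[F] K) := Finite.of_injective _ DFunLike.coe_injective
  obtain ⟨P⟩ : Nonempty (Sylow (ringChar F) J) := inferInstance
  obtain ⟨t, ⟨t, -, rfl⟩, h⟩ := pg F K q (P.1.map J.subtype) fd (by rintro _ ⟨g, -, rfl⟩; exact hy.iso _ g.2)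
    (P.isPGroup'.map _) fun x hx => by
      have x0 : x ≠ 0 := by rintro rfl; simp [fm] at hx
      have h1 := (ob F K q J fd hy x x0).1 hx
      have e1 : orb J x = MulAction.orbit J x := Set.ext fun y =>
        ⟨fun ⟨g, hg, e⟩ => ⟨⟨g, hg⟩, e⟩, fun ⟨g, e⟩ => ⟨g, g.2, e⟩⟩
      have e2 : orb (P.1.map J.subtype) x = MulAction.orbit P.1 x := Set.ext fun y =>
        ⟨fun ⟨_, ⟨g, hg, rfl⟩, e⟩ => ⟨⟨g, hg⟩, e⟩, fun ⟨g, e⟩ => ⟨_, ⟨g, g.2, rfl⟩, e⟩⟩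
      rw [e1, ← MulAction.index_stabilizer] at h1
      rw [e2, ← MulAction.index_stabilizer]
      obtain ⟨k, -, hk⟩ := FiniteField.card F (ringChar F)
      obtain ⟨j, -, hj⟩ := (Nat.dvd_prime_pow Fact.out).1 (hk ▸ fd.hF ▸ dvd_pow_self q two_ne_zero : q ∣ ringChar F ^ k.1)
      have h3 : (MulAction.stabilizer P.1 x).index = (MulAction.stabilizer J x).relIndex P.1 := rfl
      have h4 : q ^ 6 ∣ (MulAction.stabilizer J x).relIndex P.1 * P.1.index := by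
        rw [← Subgroup.inf_relIndex_right, Subgroup.relIndex_mul_index inf_le_right]
        exact h1.trans (Subgroup.index_dvd_of_le inf_le_left)
      rw [h3]
      refine Nat.le_of_dvd (Nat.pos_of_ne_zero Subgroup.index_ne_zero_of_finite) (Nat.Coprime.dvd_of_dvd_mul_right ?_ h4)
      rw [hj, ← pow_mul]
      exact ((Nat.Prime.coprime_iff_not_dvd Fact.out).2 P.not_dvd_index).pow_left _
  exact ⟨_, t.2, h⟩

end H4.US
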