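/-
S5806, chunk TVo: groups generated by transvections in dimension six (port of `H21/Sp11`).
-/
import Cfsg.Agent.H11.SP2
import Cfsg.Agent.S0801
import Cfsg.Agent.S0765
import Cfsg.Agent.H11.Bridge

set_option autoImplicit false
set_option linter.unusedSectionVars false

namespace H4.SP
open Matrix Cfsg Cfsg.Geo H27.Asch Subgroup Module H6.SP H11.SP
open scoped MatrixGroups

section
variable {F : Type*} [Field F] {P : Subgroup (G6 F)} {u v w x y z : V6 F} {a b c s : F}

/-- the underlying matrix -/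
def mv (x : SL(2, F)) : Matrix (Fin 2) (Fin 2) F := x.1
@[simp] theorem mv_mul (x y : SL(2, F)) : mv (x * y) = mv x * mv y := rfl
@[simp] theorem mv_one : mv (1 : SL(2, F)) = 1 := rfl
@[simp] theorem mv_neg (x : SL(2, F)) : mv (-x) = -mv x := rfl
@[simp] theorem mv_pow (x : SL(2, F)) (n : ℕ) : mv (x ^ n) = mv x ^ n := Matrix.SpecialLinearGroup.coe_pow x n
theorem mv_inj {x y : SL(2, F)} : x = y ↔ mv x = mv y := Subtype.ext_iff
theorem ch2 (x : SL(2, F)) : mv x * mv x = (mv x 0 0 + mv x 1 1) • mv x - 1 := by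
  have : mv x 0 0 * mv x 1 1 - mv x 0 1 * mv x 1 0 = 1 := by rw [← det_fin_two]; exact x.2
  ext i j; fin_cases i <;> fin_cases j <;> simp [mul_apply, Fin.sum_univ_two] <;> first | ring1 | linear_combination -this

theorem eq_zero_of_neg [h2 : NeZero (2 : F)] {V : Type*} [AddCommGroup V] [Module F V] {x : V} (h : x = -x) : x = 0 := by
  have : (2 : F) • x = 0 := by rw [two_smul]; nth_rw 2 [h]; simp
  exact (smul_eq_zero.1 this).resolve_left h2.1

/-- symplectic transvections -/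
def tv (u : V6 F) (c : F) : G6 F := (spΦ 3 F).tv (spΦ_alt u) c
theorem tv_mv (u : V6 F) (c : F) (x : V6 F) : (tv u c).val *ᵥ x = x + (c * fm x u) • u := Frm.tv_mulVec ..
theorem gl_ext {g h : G6 F} (e : ∀ x, g.val *ᵥ x = h.val *ᵥ x) : g = h := Units.ext (ext_mulVec e)
theorem tv_conj {g : G6 F} (hg : g ∈ S6 F) (u : V6 F) (c : F) : g * tv u c * g⁻¹ = tv (g.val *ᵥ u) c :=
  gl_ext fun x => by
    rw [Units.val_mul, Units.val_mul, ← mulVec_mulVec, ← mulVec_mulVec, tv_mv, tv_mv, mulVec_add, mulVec_smul,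
      mulVec_inv_mulVec, ← mem_S6.1 hg, mulVec_inv_mulVec]

theorem tv_add (u : V6 F) (a b : F) : tv u a * tv u b = tv u (a + b) := gl_ext fun x => by
  simp only [Units.val_mul, ← mulVec_mulVec, tv_mv, fm_add_l, fm_smul_l, fm_self]; module
theorem tv_zero (u : V6 F) : tv u 0 = 1 := gl_ext fun x => by simp [tv_mv]
theorem tv_zero' (c : F) : tv 0 c = 1 := gl_ext fun x => by simp [tv_mv]
theorem tv_inv (u : V6 F) (a : F) : (tv u a)⁻¹ = tv u (-a) :=
  inv_eq_of_mul_eq_one_right (by rw [tv_add, add_neg_cancel, tv_zero])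
theorem tv_smul (l : F) (u : V6 F) (c : F) : tv (l • u) c = tv u (l ^ 2 * c) := gl_ext fun x => by
  simp only [tv_mv, fm_smul_r]; module

theorem E_mv (u v x : V6 F) : E u v *ᵥ x = fm x v • u := Frm.E_mulVec ..

/-- `SL₂` acting on a hyperbolic plane -/
def emb (s : F) (u v : V6 F) (m : Matrix (Fin 2) (Fin 2) F) : M6 F :=
  1 + s • ((m 0 0 - 1) • E u v - m 0 1 • E u u + m 1 0 • E v v - (m 1 1 - 1) • E v u)

theorem em_mv (m : Matrix (Fin 2) (Fin 2) F) (x : V6 F) : emb s u v m *ᵥ x = x + (s * ((m 0 0 - 1) * fm x v - m 0 1 * fm x u)) • u +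
    (s * (m 1 0 * fm x v - (m 1 1 - 1) * fm x u)) • v := by
  simp only [emb, add_mulVec, sub_mulVec, smul_mulVec, one_mulVec, E_mv]; module

theorem em_mul (h : s * fm u v = 1) (m n : Matrix (Fin 2) (Fin 2) F) : emb s u v (m * n) = emb s u v m * emb s u v n :=
  ext_mulVec fun x => by
    simp only [← mulVec_mulVec, em_mv, fm_add_l, fm_smul_l, fm_self, fm_swap v u, mul_apply, Fin.sum_univ_two]
    match_scalars
    · rfl
    · linear_combination (-s * ((m 0 0 - 1) * ((n 0 0 - 1) * fm x v - n 0 1 * fm x u) +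
        m 0 1 * (n 1 0 * fm x v - (n 1 1 - 1) * fm x u))) * h
    · linear_combination (-s * (m 1 0 * ((n 0 0 - 1) * fm x v - n 0 1 * fm x u) +
        (m 1 1 - 1) * (n 1 0 * fm x v - (n 1 1 - 1) * fm x u))) * h

/-- the corresponding homomorphism -/
def emH (h : s * fm u v = 1) : SL(2, F) →* G6 F :=
  MonoidHom.toHomUnits ⟨⟨fun m => emb s u v (mv m), by simp [emb]⟩, fun m n => by simp only [mv_mul, em_mul h]⟩

theorem emH_val (h : s * fm u v = 1) (m : SL(2, F)) : (emH h m).val = emb s u v (mv m) := rfl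

theorem emH_up (h : s * fm u v = 1) {m : SL(2, F)} (e : mv m = !![1, c; 0, 1]) : emH h m = tv u (-s * c) :=
  gl_ext fun x => by rw [emH_val, e, em_mv, tv_mv]; simp; module

theorem emH_lo (h : s * fm u v = 1) {m : SL(2, F)} (e : mv m = !![1, 0; c, 1]) : emH h m = tv v (s * c) :=
  gl_ext fun x => by rw [emH_val, e, em_mv, tv_mv]; simp; module

theorem closure_sub (l : F) :
    Subfield.closure {(⟨l, Subfield.subset_closure rfl⟩ : Subfield.closure ({l} : Set F))} = ⊤ := by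
  refine eq_top_iff.2 fun ⟨x, hx⟩ _ => ?_
  induction hx using Subfield.closure_induction with
  | mem x hx => exact Subfield.subset_closure (Subtype.ext hx)
  | one => exact one_mem _
  | add x y _ _ h h' => exact add_mem (h trivial) (h' trivial)
  | neg x _ h => exact neg_mem (h trivial)
  | inv x _ h => exact inv_mem (h trivial)
  | mul x y _ _ h h' => exact mul_mem (h trivial) (h' trivial)

variable [Fintype F] [h2 : NeZero (2 : F)]

theorem star0 (ha : tv u a ∈ P) (hb : tv v b ∈ P) (k : ¬ ((3 : F) = 0 ∧ (a * b * fm u v ^ 2) ^ 2 = -1)) :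
    tv u (a ^ 2 * b * fm u v ^ 2) ∈ P := by
  classical
  by_cases h0 : a * b * fm u v ^ 2 = 0
  · rw [show a ^ 2 * b * fm u v ^ 2 = 0 by linear_combination a * h0, tv_zero]; exact one_mem _
  have b0 : b ≠ 0 := fun e => h0 (by simp [e])
  have f0 : fm u v ≠ 0 := fun e => h0 (by simp [e])
  set l := -(a * b * fm u v ^ 2) with hl
  have h : (b * fm u v ^ 2)⁻¹ * fm u ((b * fm u v) • v) = 1 := by rw [fm_smul_r]; field_simp
  set K := Subfield.closure ({l} : Set F)
  set l' : K := ⟨l, Subfield.subset_closure rfl⟩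
  set φ := (emH h).comp (SpecialLinearGroup.map K.subtype)
  rcases Cfsg.Agent.S0801.result (F := K) (fun e => h2.1 (congrArg Subtype.val e)) l'
    (fun e => h0 (neg_eq_zero.1 (congrArg Subtype.val e))) (closure_sub l) with ⟨e, -⟩ | ⟨e, e', -⟩
  · have : (⊤ : Subgroup SL(2, K)) ≤ P.comap φ := by
      rw [← e, closure_le]
      rintro g (hg | hg)
      · change emH h _ ∈ P
        rw [emH_lo h (c := 1) (by ext i j; fin_cases i <;> fin_cases j <;> simp [mv, hg]), tv_smul]
        convert hb using 2; field_simp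
      · change emH h _ ∈ P
        rw [emH_up h (c := l) (by ext i j; fin_cases i <;> fin_cases j <;> simp [mv, hg, l'])]
        convert ha using 2; rw [hl]; field_simp
    have := this (mem_top ⟨!![1, -l' ^ 2; 0, 1], by simp⟩)
    change emH h _ ∈ P at this
    rw [emH_up h (c := -l ^ 2) (by ext i j; fin_cases i <;> fin_cases j <;> rfl)] at this
    convert this using 2; rw [hl]; field_simp
  · refine (k ⟨?_, ?_⟩).elim
    · have := FiniteField.cast_card_eq_zero K
      rw [e] at this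
      have : (3 : F) ^ 2 = 0 := by simpa using (by norm_num : (3 : F) ^ 2 = 9).trans (congrArg Subtype.val this)
      simpa using this
    · have : l ^ 2 = -1 := congrArg Subtype.val e'
      rwa [hl, neg_sq] at this

omit h2 in
theorem exc_z (h : s * fm u v = 1) (ha : tv u a ∈ P) (hb : tv v b ∈ P) (h3 : (3 : F) = 0)
    (k : (a * b * fm u v ^ 2) ^ 2 = -1) :
    ∃ g ∈ P, ∀ x, g.val *ᵥ x = x - (2 * s * fm x v) • u + (2 * s * fm x u) • v := by
  set f := fm u v
  let x : SL(2, F) := ⟨!![1, -a * f; 0, 1], by simp⟩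
  let y : SL(2, F) := ⟨!![1, 0; b * f, 1], by simp⟩
  have hx : emH h x = tv u a := by rw [emH_up h (c := -a * f) rfl]; congr 1; linear_combination a * h
  have hy : emH h y = tv v b := by rw [emH_lo h (c := b * f) rfl]; congr 1; linear_combination b * h
  have t : mv (x * y) 0 0 + mv (x * y) 1 1 = 2 - a * b * f ^ 2 := by
    rw [mv_mul, show mv x = !![1, -a * f; 0, 1] from rfl, show mv y = !![1, 0; b * f, 1] from rfl]; simp; ring
  have e : (x * y) ^ 5 = -1 := by
    have c := ch2 (x * y)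
    rw [mv_inj, mv_pow, mv_neg, mv_one]
    rw [t] at c
    generalize mv (x * y) = m at c
    generalize a * b * f ^ 2 = l at c k
    have c' : m * m = (2 - l) • m - 1 := c
    have : m ^ 5 = m * m * (m * m) * m := by simp [pow_succ, mul_assoc]
    rw [this, c']
    simp only [sub_mul, mul_sub, smul_mul_assoc, mul_smul_comm, one_mul, mul_one, c', smul_sub]
    match_scalars
    · linear_combination (l ^ 2 - 8 * l + 20) * k + (-5 - 4 * l) * h3
    · linear_combination (l - 6) * k + (1 + 3 * l) * h3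
  refine ⟨emH h (-1), e ▸ by rw [map_pow, map_mul, hx, hy]; exact pow_mem (mul_mem ha hb) _, fun x => ?_⟩
  rw [emH_val, em_mv]; simp; module

omit h2 in
theorem heis (hw : fm w y = 0) (hx : fm x y = 0) (h1 : tv (w + y) c ∈ P) (h3 : tv (-w + y) c ∈ P)
    (h4 : tv (x + y) c ∈ P) (h5 : tv (-x + y) c ∈ P) : tv y (8 * c ^ 2 * fm x w) ∈ P := by
  have e : ∀ {w}, fm w y = 0 → ∀ z, (tv (w + y) c * (tv (-w + y) c)⁻¹).val *ᵥ z =
      z + (2 * c * fm z y) • w + (2 * c * fm z w) • y := fun {w} hw z => by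
    simp only [tv_inv, Units.val_mul, ← mulVec_mulVec, tv_mv, fm_add_l, fm_add_r, fm_smul_l, fm_neg_l,
      fm_neg_r, fm_self, fm_swap y w, hw]
    module
  have m1 := mul_mem h1 (inv_mem h3)
  have m2 := mul_mem h4 (inv_mem h5)
  have e1 := e hw
  have e2 := e hx
  generalize tv (w + y) c * (tv (-w + y) c)⁻¹ = g at m1 e1
  generalize tv (x + y) c * (tv (-x + y) c)⁻¹ = k at m2 e2
  have : tv y (8 * c ^ 2 * fm x w) * (k * g) = g * k := gl_ext fun z => by
    simp only [Units.val_mul, ← mulVec_mulVec, tv_mv, e1, e2, fm_add_l, fm_smul_l, fm_self, hw, hx,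
      fm_swap y w, fm_swap y x, fm_swap w x]
    module
  rw [eq_mul_inv_of_mul_eq this]
  exact mul_mem (mul_mem m1 m2) (inv_mem (mul_mem m2 m1))

omit h2 in
theorem not_span2 (u v : V6 F) : Submodule.span F {u, v} ≠ ⊤ := fun h => by
  classical
  have := finrank_span_finset_le_card (R := F) {u, v}
  rw [Set.finrank, Finset.coe_pair, h, finrank_top] at this
  have := this.trans Finset.card_le_two
  simp at this

/-- centres of transvections -/
def Ce (P : Subgroup (G6 F)) (v : V6 F) : Prop := v ≠ 0 ∧ ∃ c ≠ 0, tv v c ∈ P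

/-- irreducible groups generated by transvections -/
structure TG (P : Subgroup (G6 F)) : Prop where
  sp : P ≤ S6 F
  irr : Irr P
  gen : ∀ A : AddSubgroup (V6 F), (∀ u c, Ce P u → tv u c ∈ P → ∀ x ∈ A, x + (c * fm x u) • u ∈ A) →
    ∀ g ∈ P, ∀ x ∈ A, g.val *ᵥ x ∈ A

theorem rk_tv {g : G6 F} (hg : g ∈ S6 F) (r : rk g = 1) : ∃ u c, g = tv u c ∧ u ≠ 0 ∧ c ≠ 0 := by
  obtain ⟨⟨u, m⟩, u0, hu⟩ := finrank_eq_one_iff'.1 r
  have u0 : u ≠ 0 := fun e => u0 (Subtype.ext e)
  have hu : ∀ x, ∃ c : F, g.val *ᵥ x = x + c • u := fun x => by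
    obtain ⟨c, e⟩ := hu ⟨_, x, rfl⟩
    have e : c • u = (g.val - 1) *ᵥ x := congrArg Subtype.val e
    exact ⟨c, by rw [e, sub_mulVec, one_mulVec]; abel⟩
  choose f hf using hu
  have k : ∀ x y, f y * fm x u = f x * fm y u := fun x y => by
    have := mem_S6.1 hg x y
    rw [hf, hf] at this
    simp only [fm_add_l, fm_add_r, fm_smul_l, fm_smul_r, fm_self, fm_swap u y] at this
    linear_combination this
  obtain ⟨y, hy⟩ : ∃ y, fm y u ≠ 0 := by
    by_contra! H
    exact u0 (fm_nd fun x => by rw [fm_swap, H, neg_zero])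
  have e : g = tv u (f y / fm y u) := gl_ext fun x => by
    rw [hf, tv_mv]; congr 2; field_simp; linear_combination -k x y
  refine ⟨u, _, e, u0, fun c0 => ?_⟩
  rw [c0, tv_zero] at e
  simp [e, rk] at r

theorem tg {G : Type*} [Group G] {π : P →* G} (h : Rq P π) (m : tv u c ∈ P) (u0 : u ≠ 0) (c0 : c ≠ 0) : TG P := by
  refine ⟨h.sp, irr_of_alg h.top, fun A hA g hg => ?_⟩
  set S : Set P := {g | ∃ u c, g.1 = tv u c}
  have hA' : ∀ u c, tv u c ∈ P → ∀ x ∈ A, (tv u c).val *ᵥ x ∈ A := fun u c m x hx => by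
    rw [tv_mv]
    by_cases h0 : u = 0
    · simpa [h0] using hx
    by_cases h1 : c = 0
    · simpa [h1] using hx
    exact hA u c ⟨h0, c, h1, m⟩ m x hx
  have key : ∀ g ∈ closure S, ∀ x ∈ A, g.1.val *ᵥ x ∈ A := fun g hg => by
    induction hg using closure_induction'' with
    | one => simp
    | mem g h => obtain ⟨u, c, e⟩ := h; exact e ▸ hA' u c (e ▸ g.2)
    | inv_mem g h =>
      obtain ⟨u, c, e⟩ := h
      rw [Subgroup.coe_inv, e, tv_inv]; exact hA' u _ (tv_inv u c ▸ inv_mem (e ▸ g.2))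
    | mul _ _ _ _ h h' => intro x hx; rw [Subgroup.coe_mul, Units.val_mul, ← mulVec_mulVec]; exact h _ (h' x hx)
  have n : (closure (π '' S)).Normal := by
    refine ⟨fun x hx y => ?_⟩
    obtain ⟨y, rfl⟩ := h.sur y
    refine (closure_le ((closure (π '' S)).comap (MulAut.conj (π y)).toMonoidHom)).2 ?_ hx
    rintro _ ⟨x, ⟨u, c, e⟩, rfl⟩
    exact subset_closure ⟨y * x * y⁻¹, ⟨_, c, by rw [← tv_conj (h.sp y.2), ← e]; rfl⟩, by simp⟩
  have := h.simp
  rcases n.eq_bot_or_eq_top with e | e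
  · have : π ⟨_, m⟩ ∈ closure (π '' S) := subset_closure ⟨_, ⟨u, c, rfl⟩, rfl⟩
    rw [e, mem_bot, h.ker] at this
    obtain ⟨y, hy⟩ : ∃ y, fm y u ≠ 0 := by
      by_contra! H
      exact u0 (fm_nd fun x => by rw [fm_swap, H, neg_zero])
    rcases this with e' | e'
    · have := tv_mv u c y
      rw [show tv u c = 1 from e'] at this
      simp [c0, hy, u0] at this
    · have := tv_mv u c u
      rw [show tv u c = -1 from e'] at this
      exact (u0 (eq_zero_of_neg (F := F) (by simpa [neg_mulVec] using this.symm))).elim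
  · exact key ⟨g, hg⟩ (gen_top h e ▸ trivial)

namespace TG
variable (h : TG P)
include h

omit h2 in
theorem conj {g : G6 F} (hg : g ∈ P) (m : tv u c ∈ P) : tv (g.val *ᵥ u) c ∈ P :=
  tv_conj (h.sp hg) u c ▸ mul_mem (mul_mem hg m) (inv_mem hg)

omit h2 in
theorem tvc (hv : tv v b ∈ P) (m : tv u c ∈ P) : tv (u + (b * fm u v) • v) c ∈ P := tv_mv v b u ▸ h.conj hv m

omit h2 in
theorem ce (hv : tv v b ∈ P) (m : Ce P u) : Ce P (u + (b * fm u v) • v) := by
  obtain ⟨h0, c, hc, m⟩ := m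
  refine ⟨fun e => h0 ?_, c, hc, h.tvc hv m⟩
  rw [← tv_mv] at e
  rw [← inv_mulVec_mulVec (tv v b) u, e, mulVec_zero]

omit h2 in
theorem irr' {W : Submodule F (V6 F)} (hu : u ∈ W) (h0 : u ≠ 0)
    (hW : ∀ u c, Ce P u → tv u c ∈ P → ∀ x ∈ W, x + (c * fm x u) • u ∈ W) : W = ⊤ :=
  (h.irr W (h.gen W.toAddSubgroup hW)).resolve_left fun e => h0 (by simpa [e] using hu)

omit h2 in
theorem span {S : Set (V6 F)} (hu : u ∈ S) (h0 : u ≠ 0)
    (hW : ∀ u c, Ce P u → tv u c ∈ P → ∀ x ∈ S, u ∈ S ∨ x + (c * fm x u) • u ∈ S) (hv : ∀ x ∈ S, fm x v = 0) :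
    v = 0 := by
  have : Submodule.span F S = ⊤ := h.irr' (Submodule.subset_span hu) h0 fun u c h1 h3 x hx => by
    induction hx using Submodule.span_induction with
    | mem x hx =>
      rcases hW u c h1 h3 x hx with k | k
      · exact add_mem (Submodule.subset_span hx) (Submodule.smul_mem _ _ (Submodule.subset_span k))
      · exact Submodule.subset_span k
    | zero => simp
    | add x y _ _ k k' => convert add_mem k k' using 1; rw [fm_add_l]; module
    | smul a x _ k => convert Submodule.smul_mem _ a k using 1; rw [fm_smul_l]; module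
  refine fm_nd fun x => (fm_swap _ _).trans (neg_eq_zero.2 ?_)
  have hx : x ∈ Submodule.span F S := this ▸ trivial
  induction hx using Submodule.span_induction with
  | mem x hx => exact hv x hx
  | zero => simp
  | add x y _ _ k k' => rw [fm_add_l, k, k', add_zero]
  | smul a x _ k => rw [fm_smul_l, k, mul_zero]

omit h2 in
theorem adj (hu : Ce P u) (hv : v ≠ 0) : ∃ w, Ce P w ∧ fm w u ≠ 0 ∧ fm w v ≠ 0 := by
  obtain ⟨w, hw, e⟩ : ∃ w, Ce P w ∧ fm w u ≠ 0 := by
    by_contra! k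
    exact hu.1 (h.span (S := {x | Ce P x}) hu hu.1 (fun _ _ h _ _ _ => .inl h) k)
  by_contra! k
  refine hv (h.span (S := {x | Ce P x ∧ fm x u ≠ 0}) ⟨hw, e⟩ hw.1 (fun y c h1 h3 x hx => ?_) fun x hx => k x hx.1 hx.2)
  by_cases e : fm y u = 0
  · exact .inr ⟨h.ce h3 hx.1, by simpa [fm_add_l, fm_smul_l, e] using hx.2⟩
  · exact .inl ⟨h1, e⟩

theorem exc (ha : tv u a ∈ P) (hb : tv v b ∈ P) (h3 : (3 : F) = 0) (k : (a * b * fm u v ^ 2) ^ 2 = -1) :
    ∃ y d e, y ≠ 0 ∧ tv y d ∈ P ∧ tv y e ∈ P ∧ d ≠ 0 ∧ e ≠ 0 ∧ e ≠ d ∧ e ≠ -d := by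
  by_contra! H
  have n : a * b * fm u v ^ 2 ≠ 0 := fun e => by simp [e] at k
  have a0 : a ≠ 0 := fun e => n (by simp [e])
  have b0 : b ≠ 0 := fun e => n (by simp [e])
  have f0 : fm u v ≠ 0 := fun e => n (by simp [e])
  obtain ⟨g, hg, eg⟩ := exc_z (inv_mul_cancel₀ f0) ha hb h3 k
  refine not_span2 u v (h.irr' (Submodule.subset_span (.inl rfl)) (fun e => f0 (by simp [e])) fun x c ⟨_, c', c0, hx⟩ _ z hz => ?_)
  obtain ⟨p, r, y, rfl, yu, yv⟩ : ∃ (p r : F) (y : V6 F), x = p • u + r • v + y ∧ fm u y = 0 ∧ fm v y = 0 := by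
    refine ⟨fm x v / fm u v, -fm x u / fm u v, x - ((fm x v / fm u v) • u + (-fm x u / fm u v) • v), by simp, ?_, ?_⟩ <;>
      simp only [fm_sub_r, fm_add_r, fm_smul_r, fm_self, fm_swap v u, fm_swap u x, fm_swap v x] <;>
      field_simp <;> ring
  by_cases y0 : y = 0
  · exact add_mem hz (Submodule.smul_mem _ _ (by simpa [y0] using Submodule.mem_span_pair.2 ⟨p, r, rfl⟩))
  set f := fm u v with hf
  let O : F → F → Prop := fun p r => tv (p • u + r • v + y) c' ∈ P
  have s1 : ∀ p r {a}, tv u a ∈ P → O p r → O (p - a * f * r) r := fun p r a ha k => by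
    convert h.tvc ha k using 2
    simp only [fm_add_l, fm_smul_l, fm_self, fm_swap v u, fm_swap y u, yu, ← hf]; module
  have s2 : ∀ p r, O p r → O p (r + b * f * p) := fun p r k => by
    convert h.tvc hb k using 2
    simp only [fm_add_l, fm_smul_l, fm_self, fm_swap y v, yv, ← hf]; module
  have s3 : ∀ p r, O p r → tv (-(p • u + r • v) + y) c' ∈ P := fun p r k => by
    convert h.conj hg k using 2
    simp only [eg, fm_add_l, fm_smul_l, fm_self, fm_swap v u, fm_swap y u, fm_swap y v, yu, yv, ← hf]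
    match_scalars <;> field_simp <;> ring
  have s4 : ∀ p r p' r', O p r → O p' r' → tv y (8 * c' ^ 2 * (f * (p * r' - r * p'))) ∈ P := fun p r p' r' k k' => by
    convert heis (by simp [fm_add_l, fm_smul_l, yu, yv]) (by simp [fm_add_l, fm_smul_l, yu, yv])
      k' (s3 _ _ k') k (s3 _ _ k) using 3
    simp only [fm_add_l, fm_add_r, fm_smul_l, fm_smul_r, fm_self, fm_swap v u, ← hf]; ring
  have s5 : ∀ p r, O p r → r = 0 := fun p r k1 => by
    have k2 := s1 p r ha k1
    have k3 := s1 p r (tv_inv u a ▸ inv_mem ha) k1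
    have := mul_mem (mul_mem (s4 _ _ _ _ k2 (s2 _ _ k2)) (s4 _ _ _ _ k3 (s2 _ _ k3)))
      (inv_mem (mul_mem (s4 _ _ _ _ k1 (s2 _ _ k1)) (s4 _ _ _ _ k1 (s2 _ _ k1))))
    simp only [tv_add, tv_inv] at this
    have k4 := s4 _ _ _ _ k1 k2
    by_contra r0
    set d := 8 * c' ^ 2 * (f * (p * r - r * (p - a * f * r))) with hd
    have d0 : d ≠ 0 := by
      rw [show d = 2 ^ 3 * c' ^ 2 * a * f ^ 2 * r ^ 2 by rw [hd]; ring]; simp [h2.1, c0, a0, f0, r0]
    have k5 : tv y (2 * (a * b * f ^ 2) * d) ∈ P := by convert this using 2; rw [hd]; ring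
    generalize a * b * f ^ 2 = l at k k5 n
    have := H y d _ y0 k4 k5 d0 (by simp [h2.1, n, d0]) fun e => h2.1 (by
      have : 2 * l = 1 := mul_right_cancel₀ d0 (by rw [e, one_mul])
      linear_combination -(2 * l + 1) * this + 4 * k - h3)
    have : 2 * l = -1 := mul_right_cancel₀ d0 (by rw [this, neg_one_mul])
    exact h2.1 (by linear_combination -(2 * l - 1) * this + 4 * k - h3)
  have r0 := s5 p r hx
  have p0 : p = 0 := by simpa [r0, b0, f0] using s5 _ _ (s2 p r hx)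
  obtain ⟨s, t, rfl⟩ := Submodule.mem_span_pair.1 hz
  simpa [r0, p0, fm_add_l, fm_smul_l, yu, yv] using hz

omit h in
theorem star1 (ha : tv u a ∈ P) (hb : tv v b ∈ P) {d e : F} (hd : tv v d ∈ P) (he : tv v e ∈ P) (d0 : d ≠ 0)
    (e0 : e ≠ 0) (n1 : e ≠ d) (n2 : e ≠ -d) : tv u (a ^ 2 * b * fm u v ^ 2) ∈ P := by
  by_cases k : (3 : F) = 0 ∧ (a * b * fm u v ^ 2) ^ 2 = -1
  swap
  · exact star0 ha hb k
  obtain ⟨h3, k⟩ := k
  obtain ⟨c, hc, c0, m1, m2⟩ : ∃ c, tv v c ∈ P ∧ c ≠ 0 ∧ c ≠ b ∧ c ≠ -b := by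
    by_contra! H
    by_cases k1 : d = b
    · exact n2 (k1 ▸ H e he e0 (k1 ▸ n1))
    · have := H d hd d0 k1
      by_cases k2 : e = b
      · exact n2 (by rw [this, k2, neg_neg])
      · exact n1 (this ▸ H e he e0 k2)
  have key : ∀ c, tv v c ∈ P → c ≠ b → c ≠ -b → tv u (a ^ 2 * c * fm u v ^ 2) ∈ P := fun c hc m1 m2 =>
    star0 ha hc fun ⟨_, k'⟩ => by
      have : (a * fm u v ^ 2) ^ 2 * ((c - b) * (c + b)) = 0 := by linear_combination k' - k
      rcases mul_eq_zero.1 this with e | e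
      · exact one_ne_zero (α := F) (by linear_combination k - b ^ 2 * e)
      · simp [sub_eq_zero, add_eq_zero_iff_eq_neg, m1, m2] at e
  have := mul_mem (key c hc m1 m2) (key (b + -c) (by rw [← tv_add, ← tv_inv]; exact mul_mem hb (inv_mem hc))
    (by simpa using c0) fun e => m2 (by linear_combination -e + b * h3))
  rw [tv_add] at this
  convert this using 2; ring

theorem star (ha : tv u a ∈ P) (hb : tv v b ∈ P) : tv u (a ^ 2 * b * fm u v ^ 2) ∈ P := by
  by_cases k : (3 : F) = 0 ∧ (a * b * fm u v ^ 2) ^ 2 = -1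
  swap
  · exact star0 ha hb k
  obtain ⟨y, d, e, y0, hd, he, d0, e0, n1, n2⟩ := h.exc ha hb k.1 k.2
  have n : a * b * fm u v ^ 2 ≠ 0 := fun e => by simp [e] at k
  have step : ∀ {x y c}, tv x c ∈ P → c ≠ 0 → fm x y ≠ 0 → (∃ d e, tv y d ∈ P ∧ tv y e ∈ P ∧ d ≠ 0 ∧ e ≠ 0 ∧ e ≠ d ∧ e ≠ -d) →
      ∃ d e, tv x d ∈ P ∧ tv x e ∈ P ∧ d ≠ 0 ∧ e ≠ 0 ∧ e ≠ d ∧ e ≠ -d := fun {x y c} hc c0 f0 ⟨d, e, hd, he, d0, e0, n1, n2⟩ =>
    ⟨_, _, star1 hc hd hd he d0 e0 n1 n2, star1 hc he hd he d0 e0 n1 n2, by simp [*], by simp [*], by simp [*],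
      by rw [← neg_mul, ← mul_neg]; simp only [Ne, mul_left_inj' (pow_ne_zero 2 f0), mul_right_inj' (pow_ne_zero 2 c0), n2,
        not_false_iff]⟩
  obtain ⟨w, ⟨-, c, c0, hc⟩, k1, k2⟩ := h.adj ⟨y0, d, d0, hd⟩ (v := v) fun e => n (by simp [e])
  obtain ⟨d, e, hd, he, d0, e0, n1, n2⟩ := step hb (fun e => n (by simp [e])) (by rwa [fm_swap, neg_ne_zero])
    (step hc c0 k1 ⟨d, e, hd, he, d0, e0, n1, n2⟩)
  exact star1 ha hb hd he d0 e0 n1 n2

theorem star_sur (ha : tv u a ∈ P) (a0 : a ≠ 0) (hv : Ce P v) (f0 : fm u v ≠ 0) (hc : tv u c ∈ P) :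
    ∃ b, tv v b ∈ P ∧ c = a ^ 2 * b * fm u v ^ 2 := by
  obtain ⟨-, b, b0, hb⟩ := hv
  let φ : {c // tv v c ∈ P} → {c // tv u c ∈ P} := fun x => ⟨_, h.star ha x.2⟩
  let ψ : {c // tv u c ∈ P} → {c // tv v c ∈ P} := fun x => ⟨_, h.star hb x.2⟩
  have h1 : Function.Injective φ := fun x y e => Subtype.ext (by simpa [φ, a0, f0] using e)
  have h3 : Function.Injective ψ := fun x y e => Subtype.ext (by simpa [ψ, b0, fm_swap v u, f0] using e)
  obtain ⟨x, e⟩ := (Finite.injective_iff_surjective.1 (h1.comp h3)).of_comp ⟨c, hc⟩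
  exact ⟨x, x.2, (congrArg Subtype.val e).symm⟩

/-- the field of definition -/
def fld (ha : tv u a ∈ P) (a0 : a ≠ 0) (u0 : u ≠ 0) : Subfield F :=
  have sq : ∀ {x y}, tv u (a * x) ∈ P → tv u (a * y) ∈ P → tv u (a * (x ^ 2 * y)) ∈ P := fun {x y} hx hy => by
    obtain ⟨w, hw, k, -⟩ := h.adj ⟨u0, a, a0, ha⟩ u0
    obtain ⟨b, hb, e⟩ := h.star_sur ha a0 hw (by rwa [fm_swap, neg_ne_zero]) hy
    convert h.star hx hb using 2
    linear_combination x ^ 2 * e
  have ad : ∀ {x y}, tv u (a * x) ∈ P → tv u (a * y) ∈ P → tv u (a * (x + y)) ∈ P := fun hx hy => by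
    rw [mul_add, ← tv_add]; exact mul_mem hx hy
  have ng : ∀ {x}, tv u (a * x) ∈ P → tv u (a * -x) ∈ P := fun hx => by rw [mul_neg, ← tv_inv]; exact inv_mem hx
  have on : tv u (a * 1) ∈ P := by rwa [mul_one]
  let R : Subring F :=
    { carrier := {x | tv u (a * x) ∈ P}
      mul_mem' := fun {x y} hx hy => by
        have := ad (sq (ad on hx) hy) (ng (ad hy (sq hx hy)))
        have e := sq this on
        obtain ⟨n, hn⟩ : ∃ n : ℕ, (2 : F) * n = 1 := by
          obtain ⟨k, hk⟩ := odd_card_of_two_ne h2.1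
          refine ⟨k + 1, ?_⟩
          have := FiniteField.cast_card_eq_zero F
          rw [hk] at this; push_cast at this ⊢; linear_combination this
        have key : ∀ n : ℕ, tv u (a * (n * (2 * x * y))) ∈ P := fun n => by
          induction n with
          | zero => simpa [tv_zero] using one_mem P
          | succ n ih => convert ad ih this using 3; push_cast; ring
        change tv _ _ ∈ P
        convert key n using 3; linear_combination -x * y * hn
      one_mem' := on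
      add_mem' := ad
      zero_mem' := by simp [tv_zero]
      neg_mem' := ng }
  { R with
    inv_mem' := fun x hx => by
      by_cases x0 : x = 0
      · simp [x0, R, tv_zero]
      · rw [show x⁻¹ = x ^ (Fintype.card F - 2) from (eq_inv_of_mul_eq_one_left (by
          rw [← pow_succ, show Fintype.card F - 2 + 1 = Fintype.card F - 1 by have := Fintype.one_lt_card (α := F); omega,
            FiniteField.pow_card_sub_one_eq_one x x0])).symm]
        exact R.pow_mem hx _ }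

end TG

omit h2 in
theorem real_of {K : Subfield F} (a0 : a ≠ 0) {A : Set (V6 F)} (hA : ∀ x ∈ A, ∀ y ∈ A, a * fm x y ∈ K)
    (hP : ∀ g ∈ P, ∀ x ∈ A, g.val *ᵥ x ∈ A) (sp : Submodule.span F A = ⊤) : RealisableOver K (matrixSet P) := by
  classical
  obtain ⟨s, hs, e, li⟩ := exists_linearIndependent F A
  let b : Basis s F (V6 F) := Basis.mk li (by rw [Subtype.range_coe, e, sp])
  have := FiniteDimensional.fintypeBasisIndex b
  let b' := b.reindex (Fintype.equivOfCardEq (β := I6) (by rw [← finrank_eq_card_basis b]; simp))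
  have hb : ∀ i, b' i ∈ A := fun i => by simp only [b', b, Basis.reindex_apply, Basis.mk_apply]; exact hs (Subtype.prop _)
  let B : M6 F := (Pi.basisFun F I6).toMatrix b'
  have : Invertible B := (Pi.basisFun F I6).invertibleToMatrix b'
  have hB : ∀ j, B *ᵥ Pi.single j 1 = b' j := fun j => by
    ext i; simp [B, Basis.toMatrix_apply]
  let Γ : G6 F → M6 F := fun g => a • (Bᵀ * J _ F * g.val * B)
  have hΓ : ∀ g ∈ P, ∀ i j, Γ g i j ∈ K := fun g hg i j => by
    convert hA _ (hb i) _ (hP g hg _ (hb j)) using 1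
    rw [← hB, ← hB, mulVec_mulVec, mulVec_single_one, mulVec_single_one]
    change _ = a * (_ ⬝ᵥ (J (Fin 3) F *ᵥ _))
    simp only [Γ, Matrix.smul_apply, smul_eq_mul, Matrix.mul_assoc]
    rw [mul_apply]; rfl
  let Γ' : M6 K := fun i j => ⟨_, hΓ 1 (one_mem _) i j⟩
  have eΓ : Γ'.map K.subtype = Γ 1 := rfl
  have d0 : (Γ 1).det ≠ 0 := by
    have : (J (Fin 3) F).det ≠ 0 := (isUnit_det_J (Fin 3) F).ne_zero
    have : B.det ≠ 0 := ((isUnit_iff_isUnit_det B).1 (isUnit_of_invertible B)).ne_zero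
    simp [Γ, *]
  have d1 : Γ'.det ≠ 0 := fun e => d0 (by rw [← eΓ, ← RingHom.mapMatrix_apply, ← RingHom.map_det, e, map_zero])
  have e1 : Γ'⁻¹.map K.subtype * Γ 1 = 1 := by
    rw [← eΓ, ← Matrix.map_mul, nonsing_inv_mul _ d1.isUnit, Matrix.map_one _ (map_zero _) (map_one _)]
  refine ⟨(unitOfInvertible B)⁻¹, ?_⟩
  rintro _ ⟨g, hg, rfl⟩ i j
  have : ((unitOfInvertible B)⁻¹).val * g.val * ((unitOfInvertible B)⁻¹⁻¹).val = Γ'⁻¹.map K.subtype * Γ g := by
    rw [← one_mul (_ * _ * _), ← e1, inv_inv]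
    simp [Γ, Matrix.mul_assoc]
  rw [this, mul_apply]
  exact sum_mem fun k _ => mul_mem (Γ'⁻¹ i k).2 (hΓ g hg k j)

namespace TG
variable (h : TG P)
include h

theorem real (ha : tv u a ∈ P) (a0 : a ≠ 0) (u0 : u ≠ 0) : RealisableOver (h.fld ha a0 u0) (matrixSet P) := by
  set K := h.fld ha a0 u0
  have mK : ∀ x, x ∈ K ↔ tv u (a * x) ∈ P := fun _ => .rfl
  let N : Set (V6 F) := {y | Ce P y ∧ fm u y ≠ 0 ∧ a * fm u y ∈ K}
  have n1 : ∀ y ∈ N, ∀ c, tv y (a * c) ∈ P ↔ c ∈ K := fun y ⟨h1, h3, h4⟩ c => by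
    have k : (a * fm u y) ^ 2 ∈ K := pow_mem h4 2
    constructor <;> intro hc
    · have : (a * fm u y) ^ 2 * c ∈ K := by rw [mK]; convert h.star ha hc using 2; ring
      simpa [a0, h3] using mul_mem (inv_mem k) this
    · obtain ⟨b, hb, e⟩ := h.star_sur ha a0 h1 h3 ((mK _).1 (mul_mem k hc))
      convert hb using 2
      exact mul_left_cancel₀ (pow_ne_zero 2 (mul_ne_zero a0 h3)) (by linear_combination e)
  have n2 : ∀ y ∈ N, ∀ z ∈ N, a * fm y z ∈ K := fun y hy z hz => by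
    have s : ∀ z, tv z a ∈ P → (a * fm y z) ^ 2 ∈ K := fun z hz => by
      rw [← n1 y hy]; convert h.star ((n1 y hy 1).2 (one_mem _)) hz using 2; ring
    have hz' : tv z a ∈ P := by simpa using (n1 z hz 1).2 (one_mem _)
    have k1 := s z hz'
    have k2 := s _ (h.tvc ha hz')
    have k3 := mul_mem hy.2.2 hz.2.2
    have k4 : a * fm u y * (a * fm u z) ≠ 0 := by simp [a0, hy.2.1, hz.2.1]
    have := div_mem (sub_mem (sub_mem k2 k1) (pow_mem k3 2)) (add_mem k3 k3)
    convert this using 1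
    rw [eq_div_iff (by rw [← two_mul]; exact mul_ne_zero h2.1 k4), fm_add_r, fm_smul_r, fm_swap z u, fm_swap y u]
    ring
  have n3 : ∀ y ∈ N, ∀ k ∈ K, k ≠ 0 → k • y ∈ N := fun y ⟨⟨h1, c, c0, hc⟩, h3, h4⟩ k hk k0 =>
    ⟨⟨smul_ne_zero k0 h1, c / k ^ 2, by simp [*], by rw [tv_smul]; convert hc using 2; field_simp⟩,
      by simp [fm_smul_r, *], by rw [fm_smul_r, mul_left_comm]; exact mul_mem hk h4⟩
  have n4 : ∀ y, Ce P y → fm u y ≠ 0 → (a * fm u y)⁻¹ • y ∈ N := fun y ⟨h1, c, c0, hc⟩ h3 =>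
    ⟨⟨smul_ne_zero (by simp [*]) h1, c * (a * fm u y) ^ 2, by simp [*], by rw [tv_smul]; convert hc using 2; field_simp⟩,
      by simp [fm_smul_r, *], by rw [fm_smul_r]; convert one_mem K; field_simp⟩
  set A := AddSubgroup.closure N
  have sA : ∀ k ∈ K, ∀ x ∈ A, k • x ∈ A := fun k hk x hx => by
    induction hx using AddSubgroup.closure_induction with
    | mem x hx => by_cases k0 : k = 0; simp [k0]; exact AddSubgroup.subset_closure (n3 x hx k hk k0)
    | zero => simp
    | add x y _ _ h h' => rw [smul_add]; exact add_mem h h'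
    | neg x _ h => rw [smul_neg]; exact neg_mem h
  have fA : ∀ x ∈ A, ∀ y ∈ A, a * fm x y ∈ K := fun x hx y hy => by
    induction hx using AddSubgroup.closure_induction with
    | mem x hx =>
      induction hy using AddSubgroup.closure_induction with
      | mem y hy => exact n2 x hx y hy
      | zero => simp
      | add y z _ _ h h' => rw [fm_add_r, mul_add]; exact add_mem h h'
      | neg y _ h => rw [fm_neg_r, mul_neg]; exact neg_mem h
    | zero => simp
    | add y z _ _ h h' => rw [fm_add_l, mul_add]; exact add_mem h h'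
    | neg y _ h => rw [fm_neg_l, mul_neg]; exact neg_mem h
  have iA := h.gen A fun x c hx hc y hy => by
    by_cases e : fm u x = 0
    · induction hy using AddSubgroup.closure_induction with
      | mem y hy => exact AddSubgroup.subset_closure ⟨h.ce hc hy.1, by simpa [fm_add_r, fm_smul_r, e] using hy.2⟩
      | zero => simp
      | add y z _ _ h h' => convert add_mem h h' using 1; rw [fm_add_l]; module
      | neg y _ h => convert neg_mem h using 1; rw [fm_neg_l]; module
    · have m := n4 x hx e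
      have m' : (a * fm u x)⁻¹ • x ∈ A := AddSubgroup.subset_closure m
      have k : a * fm u x ^ 2 * c ∈ K := by rw [mK]; convert h.star ha hc using 2; ring
      convert add_mem hy (sA _ (mul_mem k (fA y hy _ m')) _ m') using 2
      rw [fm_smul_r, smul_smul]; congr 1; field_simp
  have sp : ∀ v ≠ 0, ∃ y ∈ A, fm y v ≠ 0 := fun v v0 => by
    obtain ⟨w, hw, k1, k2⟩ := h.adj ⟨u0, a, a0, ha⟩ v0
    have k1' : fm u w ≠ 0 := by rwa [fm_swap, neg_ne_zero]
    exact ⟨_, AddSubgroup.subset_closure (n4 w hw k1'), by simp [fm_smul_l, *]⟩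
  refine real_of a0 fA iA (by_contra fun k => ?_)
  obtain ⟨φ, φ0, hφ⟩ := Submodule.exists_le_ker_of_lt_top _ (lt_top_iff_ne_top.2 k)
  obtain ⟨v, rfl⟩ : ∃ v, φ = fl v := by
    have : Function.Injective (⟨⟨fl, fun a b => by ext; simp⟩, fun a b => by ext; simp⟩ : V6 F →ₗ[F] Dual F (V6 F)) :=
      (injective_iff_map_eq_zero _).2 fun v e => fm_nd fun u => LinearMap.congr_fun e u
    obtain ⟨v, e⟩ := (LinearMap.injective_iff_surjective_of_finrank_eq_finrank (by simp)).1 this φ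
    exact ⟨v, e.symm⟩
  obtain ⟨y, hy, e⟩ := sp v fun e => φ0 (by ext; simp [e])
  exact e (by rw [fm_swap]; exact neg_eq_zero.2 (hφ (Submodule.subset_span hy)))

theorem full (hr : ∀ K : Subfield F, K ≠ ⊤ → ¬ RealisableOver K (matrixSet P)) (hu : Ce P u) (c : F) : tv u c ∈ P := by
  obtain ⟨u0, a, a0, ha⟩ := hu
  have : c / a ∈ h.fld ha a0 u0 := (by_contra fun k => hr _ k (h.real ha a0 u0) : h.fld ha a0 u0 = ⊤) ▸ trivial
  have : tv u (a * (c / a)) ∈ P := this
  rwa [mul_div_cancel₀ _ a0] at this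

theorem all (hr : ∀ K : Subfield F, K ≠ ⊤ → ¬ RealisableOver K (matrixSet P)) (hu : Ce P u) : S6 F ≤ P := by
  have s1 : ∀ {x} (c : F), Ce P x → c ≠ 0 → Ce P (c • x) := fun {x} c hx c0 =>
    ⟨smul_ne_zero c0 hx.1, 1, one_ne_zero, tv_smul c x 1 ▸ h.full hr hx _⟩
  have s2 : ∀ {x y} (c : F), Ce P x → Ce P y → fm x y ≠ 0 → Ce P (x + c • y) := fun {x y} c hx hy e => by
    simpa [e] using h.ce (h.full hr hy (c / fm x y)) hx
  have s3 : ∀ {x y w} (c d : F), Ce P x → Ce P y → Ce P w → fm w x ≠ 0 → fm w y ≠ 0 → fm x y = 0 →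
      fm w (c • x + d • y) ≠ 0 → Ce P (c • x + d • y) := fun {x y w} c d hx hy hw h1 h3 h4 h5 => by
    have := s2 (-1) (s2 d (s2 c hw hx h1) hy (by simpa [fm_add_l, fm_smul_l, h4])) hw (by
      rwa [add_assoc, fm_add_l, fm_self, zero_add, fm_swap, neg_ne_zero])
    convert this using 1; module
  have s4 : ∀ x y, Ce P x → Ce P y → x + y ≠ 0 → Ce P (x + y) := fun x y hx hy e => by
    by_cases k : fm x y = 0
    swap
    · simpa using s2 1 hx hy k
    obtain ⟨w, hw, h1, h3⟩ := h.adj hx hy.1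
    by_cases k1 : fm w (x + y) = 0
    swap
    · simpa using s3 1 1 hx hy hw h1 h3 k (by simpa using k1)
    obtain ⟨z, hz, h4, h5⟩ := h.adj hx e
    by_cases k2 : fm z y = 0
    · have e1 : fm w y = -fm w x := by rw [fm_add_r] at k1; linear_combination k1
      have := s3 1 (-1) hx hy hw h1 h3 k (by
        rw [fm_add_r, fm_smul_r, fm_smul_r, e1]; simpa [← two_mul] using ⟨h2.1, h1⟩)
      have := s3 2 (-1) hx this hz h4 (by simpa [fm_add_r, fm_smul_r, fm_neg_r, k2])
        (by simp [fm_add_r, fm_neg_r, k]) (by convert h5 using 2; module)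
      convert this using 1; module
    · simpa using s3 1 1 hx hy hz h4 k2 k (by simpa using h5)
  let W : Submodule F (V6 F) :=
    { carrier := {x | x = 0 ∨ Ce P x}
      zero_mem' := .inl rfl
      add_mem' := by
        rintro x y (rfl | hx) (rfl | hy)
        exacts [.inl (add_zero _), .inr (by rwa [zero_add]), .inr (by rwa [add_zero]),
          (em' (x + y = 0)).elim (fun e => .inr (s4 x y hx hy e)) .inl]
      smul_mem' := by
        rintro c x (rfl | hx)
        exacts [.inl (smul_zero _), (em' (c = 0)).elim (fun e => .inr (s1 c hx e)) fun e => .inl (by simp [e])] }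
  have hW : W = ⊤ := h.irr' (.inr hu) hu.1 fun u c hu _ x hx => add_mem hx (W.smul_mem _ (.inr hu))
  rw [S6, ← H11.range_spToGL, MonoidHom.range_eq_map, ← Cfsg.Agent.S0765.result 3, map_le_iff_le_comap, closure_le]
  rintro g ⟨w, c, e⟩
  have : H11.spToGL g = tv w c := gl_ext fun x => by
    rw [H11.spToGL_coe, e, tv_mv, sympTransvection, add_mulVec, smul_mulVec, vecMulVec_mulVec, one_mulVec, dotProduct_comm,
      op_smul_eq_smul, smul_smul]; rfl
  change _ ∈ P
  rw [this]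
  rcases (hW ▸ trivial : w ∈ W) with rfl | hw
  exacts [tv_zero' c ▸ one_mem _, h.full hr hw c]

end TG

end

universe u

theorem tvo : TVo.{u} := fun F G _ _ _ P π h2 h hr => by
  have : NeZero (2 : F) := ⟨h2⟩
  refine (em (NoTv P)).imp_right fun k => ?_
  obtain ⟨g, hg, r⟩ : ∃ g ∈ P, rk g = 1 := by simpa [NoTv] using k
  obtain ⟨u, c, rfl, u0, c0⟩ := rk_tv (h.sp hg) r
  exact (tg h hg u0 c0).all hr ⟨u0, c, c0, hg⟩

end H4.SP
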