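/-
S5806: kit (transport, tori, lifts) and the alternating groups (A6 A7 A7t).
-/
import Cfsg.Agent.H4.SPa

set_option autoImplicit false
set_option linter.unusedSectionVars false

namespace H4.SP
open Matrix Cfsg Cfsg.Geo H27.Asch Subgroup Module H6.SP Equiv
open H11.SP hiding dg
universe u v

section
variable {k : Type*} [Field k] {G G' : Type*} [Group G] [Group G'] {H P : Subgroup (G6 k)} {π : P →* G}

theorem rq_tr (h : Rq P π) (e : G ≃* G') : Rq P (e.toMonoidHom.comp π) :=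
  have := h.simp
  have := h.fin
  ⟨h.sp, h.top, h.perf, e.surjective.comp h.sur, fun x => by simp [h.ker], e.symm.isSimpleGroup,
    fun c => h.nab ⟨⟨fun a b => e.injective (by simp [c.1.1 (e a)])⟩⟩, Finite.of_equiv _ e.toEquiv⟩
theorem rp_tr (h : Rp P π) (e : G ≃* G') : Rp P (e.toMonoidHom.comp π) := ⟨rq_tr h.1 e, h.ntv, h.nq⟩
theorem st_tr (h : St H P π) (e : G ≃* G') : St H P (e.toMonoidHom.comp π) :=
  ⟨rp_tr h.1 e, h.max, h.le, h.nrm, h.cen, h.fld⟩
theorem gn_tr {x y : P} (g : Gn π x y) (e : G ≃* G') : Gn (e.toMonoidHom.comp π) x y := by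
  have := congrArg (map e.toMonoidHom) g
  rwa [MonoidHom.map_closure, Set.image_pair, map_top_of_surjective _ e.surjective] at this
/-- the quotient in the universe of the field -/
noncomputable def qe (h : Rq P π) : G ≃* P ⧸ π.ker := (QuotientGroup.quotientKerEquivOfSurjective π h.sur).symm

theorem rk_conj (g x : G6 k) : rk (g * x * g⁻¹) = rk x := by
  have : (g * x * g⁻¹).val - 1 = g.val * (x.val - 1) * (g⁻¹).val := by simp [mul_sub, sub_mul]
  rw [rk, this, rank_mul_eq_left_of_isUnit_det _ _ (isUnits_det_units _), rank_mul_eq_right_of_isUnit_det _ _ (isUnits_det_units _), rk]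
theorem T_conj (g x : G6 k) : T (g * x * g⁻¹) = T x := by
  simp only [T, Units.val_mul]; rw [trace_mul_comm, ← mul_assoc]; simp
theorem T_neg (x : G6 k) : T (-x) = -T x := by simp [T]
theorem T_one : T (1 : G6 k) = 6 := by simp [T]
open Polynomial in
theorem chp_pow {n : Type} [Fintype n] [DecidableEq n] [Nonempty n] (p : ℕ) [hp : Fact p.Prime] [CharP k p] (M : Matrix n n k) :
    (M ^ p).charpoly = M.charpoly.map (frobenius k p) := by
  apply expand_injective hp.out.pos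
  rw [show expand k p (M.charpoly.map (frobenius k p)) = M.charpoly ^ p by rw [← map_expand, map_frobenius_expand]]
  unfold charpoly
  rw [AlgHom.map_det, ← coe_detMonoidHom, ← (detMonoidHom : Matrix n n k[X] →* k[X]).map_pow]
  apply congr_arg det
  refine matPolyEquiv.injective ?_
  rw [map_pow, matPolyEquiv_charmatrix, sub_pow_char_of_commute _ (C M).commute_X, ← C_pow]
  exact (id (matPolyEquiv_eq_X_pow_sub_C p M) :)
theorem T_pow (p : ℕ) [hp : Fact p.Prime] [CharP k p] (x : G6 k) : T (x ^ p) = T x ^ p := by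
  rw [T, T, Units.val_pow_eq_pow_val, trace_eq_neg_charpoly_coeff, trace_eq_neg_charpoly_coeff, chp_pow, Polynomial.coeff_map,
    ← frobenius_def, map_neg]
theorem T_inv {x : G6 k} (h : x ∈ S6 k) : T x⁻¹ = T x := by
  rw [T, ← mem_ad.1 h, T]; exact Frm.trace_adj _ _
theorem rk_le (x : G6 k) : rk x ≤ 6 := (rank_le_card_width _).trans (by simp)
theorem rk_zero {x : G6 k} (h : rk x = 0) : x = 1 := Units.ext (sub_eq_zero.1 (by
  rwa [rk, rank, Submodule.finrank_eq_zero, LinearMap.range_eq_bot, ← toLin'_apply', map_eq_zero_iff _ toLin'.injective] at h))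
theorem rk_lt {x : G6 k} {n : ℕ} (h : (x.val - 1) ^ n = 0) : rk x < 6 := by
  by_contra! H
  have : IsUnit (x.val - 1) := by
    rw [← mulVec_surjective_iff_isUnit, ← coe_mulVecLin, ← LinearMap.range_eq_top]
    exact Submodule.eq_top_of_finrank_eq (le_antisymm (Submodule.finrank_le _) (by simpa [rk, rank] using H))
  simpa [h] using this.pow n
theorem sub_pow (p : ℕ) [hp : Fact p.Prime] [CharP k p] (x : G6 k) (n : ℕ) : (x.val - 1) ^ p ^ n = (x ^ p ^ n).val - 1 := by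
  rw [sub_pow_char_pow_of_commute _ _ (Commute.one_right _), one_pow, Units.val_pow_eq_pow_val]

theorem pm (h : Rq P π) {x : P} {n : ℕ} (e : π x ^ n = 1) : x.1 ^ n = 1 ∨ x.1 ^ n = -1 := (h.ker (x ^ n)).1 (by simpa)
theorem ne_pm (h : Rq P π) {x : P} (e : π x ≠ 1) : x.1 ≠ 1 ∧ x.1 ≠ -1 := not_or.1 (mt (h.ker x).2 e)
theorem cj_pm (h : Rq P π) {x y : P} (e : IsConj (π x) (π y)) : ∃ g : P, y.1 = g * x * g.1⁻¹ ∨ y.1 = -(g * x * g.1⁻¹) := by
  obtain ⟨c, e⟩ := isConj_iff.1 e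
  obtain ⟨g, rfl⟩ := h.sur c
  exact ⟨g, lift_eq h (x := y) (y := g * x * g⁻¹) (by simp [e])⟩
theorem cj_odd (h : Rq P π) {n : ℕ} (hn : Odd n) {x y : P} (e : IsConj (π x) (π y)) (hx : x ^ n = 1) (hy : y ^ n = 1) :
    ∃ g : P, y = g * x * g⁻¹ := by
  obtain ⟨c, e⟩ := isConj_iff.1 e
  obtain ⟨g, rfl⟩ := h.sur c
  exact ⟨g, lift_odd h hn (by simp [e]) hy (by rw [conj_pow, hx]; simp)⟩
theorem cm_odd (h : Rq P π) {n : ℕ} (hn : Odd n) {x y : P} (e : π x * π y = π y * π x) (hx : x ^ n = 1) : x * y = y * x := by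
  have := lift_odd h hn (x := y * x * y⁻¹) (y := x) (by simp [← e]) (by rw [conj_pow, hx]; simp) hx
  exact (mul_inv_eq_iff_eq_mul.1 this).symm

/-- the diagonal torus -/
def dgG : (Fin 3 → kˣ) →* G6 k := MonoidHom.toHomUnits
  ⟨⟨dg, by rw [dg, ← diagonal_one]; congr 1; ext (i | i) <;> simp⟩, fun a b => by
    simp only [dg, diagonal_mul_diagonal]; congr 1; ext (i | i) <;> simp [mul_comm]⟩

/-- a maximal torus -/
structure Tor (φ : (Fin 3 → kˣ) →* G6 k) : Prop where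
  cj : ∃ B ∈ S6 k, ∀ d, (φ d).val = B.val * dg d * (B⁻¹).val
  inj : Function.Injective φ
  neg : ∀ d, φ (-d) = -φ d
  rk : ∀ d, ∀ [DecidablePred fun i => d i ≠ 1], rk (φ d) = 2 * (Finset.univ.filter fun i => d i ≠ 1).card
  T : ∀ d, T (φ d) = ∑ i, ((d i : k) + (d i : k)⁻¹)

theorem ex_tor [IsAlgClosed k] (S : Set (G6 k)) (hS : ∀ a ∈ S, a ∈ S6 k) (hc : ∀ a ∈ S, ∀ b ∈ S, a * b = b * a)
    (he : ∀ a ∈ S, ∃ n : ℕ, (n : k) ≠ 0 ∧ a ^ n = 1) : ∃ φ, Tor φ ∧ ∀ a ∈ S, ∃ d, φ d = a := by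
  obtain ⟨B, hB, h⟩ := dg' S hS hc he
  refine ⟨(MulAut.conj B).toMonoidHom.comp dgG, ⟨⟨B, hB, fun _ => rfl⟩, (MulAut.conj B).injective.comp fun a b e => ?_, fun d => ?_,
    fun d _ => (rk_conj B _).trans ?_, fun d => (T_conj B _).trans ?_⟩, fun a ha => (h a ha).imp fun d e => ?_⟩
  · exact funext fun i => Units.ext (congrFun (diagonal_injective (congrArg Units.val e)) (.inl i))
  · have : dgG (-d) = -dgG d := Units.ext (by
      change dg _ = -dg _
      rw [dg, dg, diagonal_neg]; congr 1; ext (i | i) <;> simp [inv_neg])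
    simp [this]
  · classical
    change (dg d - 1).rank = _
    rw [dg, ← diagonal_one, diagonal_sub, rank_diagonal, Fintype.card_subtype, Finset.card_filter, Fintype.sum_sum_type,
      Finset.card_filter, two_mul]
    simp [sub_eq_zero]
  · change (dg d).trace = _
    simp [dg, Finset.sum_add_distrib]
  · have : dgG d = B⁻¹ * a * B := Units.ext e.symm
    simp [this, mul_assoc]

theorem tor2 [IsAlgClosed k] {x y : G6 k} (hx : x ∈ S6 k) (hy : y ∈ S6 k) (c : x * y = y * x) {m n : ℕ} (hm : (m : k) ≠ 0)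
    (hn : (n : k) ≠ 0) (ex : x ^ m = 1) (ey : y ^ n = 1) : ∃ φ d e, Tor φ ∧ φ d = x ∧ φ e = y := by
  obtain ⟨φ, h, h'⟩ := ex_tor {x, y} (by rintro _ (rfl | rfl) <;> assumption) (by rintro _ (rfl | rfl) _ (rfl | rfl) <;> simp [c])
    (by rintro _ (rfl | rfl); exacts [⟨m, hm, ex⟩, ⟨n, hn, ey⟩])
  obtain ⟨d, hd⟩ := h' x (by simp)
  obtain ⟨e, he⟩ := h' y (by simp)
  exact ⟨φ, d, e, h, hd, he⟩

theorem Tor.pw {φ : (Fin 3 → kˣ) →* G6 k} (h : Tor φ) {d : Fin 3 → kˣ} {n : ℕ} (e : φ d ^ n = 1) (i : Fin 3) : d i ^ n = 1 :=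
  congrFun (h.inj (a₁ := d ^ n) (a₂ := 1) (by simp [e])) i
theorem Tor.pw' {φ : (Fin 3 → kˣ) →* G6 k} (h : Tor φ) {d : Fin 3 → kˣ} {n : ℕ} (e : φ d ^ n = -1) (i : Fin 3) : d i ^ n = -1 :=
  congrFun (h.inj (a₁ := d ^ n) (a₂ := -1) (by simp [e, h.neg])) i

theorem cube {s t : kˣ} (hs : s ^ 3 = 1) (ht : t ^ 3 = 1) (s1 : s ≠ 1) (t1 : t ≠ 1) : t = s ∨ t = s⁻¹ := by
  have a : ∀ {s : kˣ}, s ^ 3 = 1 → s ≠ 1 → (s : k) ^ 2 + s + 1 = 0 := fun {s} hs s1 =>
    mul_left_cancel₀ (sub_ne_zero.2 (mt Units.val_eq_one.1 s1)) (by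
      have : (s : k) ^ 3 = 1 := by simpa using congrArg Units.val hs
      linear_combination this)
  have : ((t : k) - s) * (s * t - 1) = 0 := by linear_combination (s : k) * a ht t1 - (t : k) * a hs s1
  rcases mul_eq_zero.1 this with e | e
  · exact .inl (Units.ext (sub_eq_zero.1 e))
  · exact .inr (eq_inv_of_mul_eq_one_right (Units.ext (sub_eq_zero.1 e)))

/-- the ranks on a subgroup `3² : 4` -/
theorem r33 [IsAlgClosed k] (h3 : (3 : k) ≠ 0) (h : Rq P π) {a b n : G} (a1 : a ≠ 1) (a3 : a ^ 3 = 1) (c : a * b = b * a)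
    (e1 : n * a * n⁻¹ = b) (e2 : n * b * n⁻¹ = a⁻¹) : ∃ r s, (r = 2 ∧ s = 4 ∨ r = 4 ∧ s = 2) ∧
    (∀ x : P, x ^ 3 = 1 → IsConj a (π x) → rk x.1 = r) ∧ ∀ x : P, x ^ 3 = 1 → IsConj (a * b) (π x) → rk x.1 = s := by
  classical
  have o : Odd 3 := by decide
  have R : ∀ {x y : P}, x ^ 3 = 1 → y ^ 3 = 1 → IsConj (π x) (π y) → rk y.1 = rk x.1 := fun hx hy e => by
    obtain ⟨g, rfl⟩ := cj_odd h o e hx hy
    exact rk_conj ..
  obtain ⟨x, rfl, hx⟩ := ex_odd h o a3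
  obtain ⟨y, rfl, hy⟩ := ex_odd h o (a := b) (by rw [← e1, conj_pow, a3]; simp)
  have c : Commute x y := cm_odd h o c hx
  have h1 : (x * y) ^ 3 = 1 := by rw [c.mul_pow, hx, hy, one_mul]
  have h2 : (x⁻¹ * y) ^ 3 = 1 := by rw [c.inv_left.mul_pow, inv_pow, hx, hy]; simp
  refine ⟨_, _, ?_, fun z hz => R hx hz, fun z hz e => R h1 hz (by rwa [map_mul])⟩
  have r1 := R hx hy (isConj_iff.2 ⟨n, e1⟩)
  have r2 := R h1 h2 (isConj_iff.2 ⟨n, by
    rw [map_mul, map_mul, map_inv, ← map_mul, c.eq, map_mul, ← conj_mul, e1, e2]⟩)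
  obtain ⟨φ, d, e, t, hd, he⟩ := tor2 (h.sp x.2) (h.sp y.2) (congrArg Subtype.val c.eq) (m := 3) (n := 3) h3 h3
    (congrArg Subtype.val hx) (congrArg Subtype.val hy)
  have r0 : rk x.1 ≠ 0 := fun e => (ne_pm h a1).1 (rk_zero e)
  simp only [coe_mul, coe_inv, ← hd, ← he, ← map_mul, ← map_inv, t.rk, Finset.card_filter, Fin.sum_univ_three] at r0 r1 r2 ⊢
  have k : ∀ i, ∃ m ≤ 1, (if d i ≠ 1 then 1 else 0) + (if e i ≠ 1 then 1 else 0) + (if (d * e) i ≠ 1 then 1 else 0) +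
      (if (d⁻¹ * e) i ≠ 1 then 1 else 0) = 3 * m ∧ (if d i ≠ 1 then 1 else 0) ≤ m ∧ (if (d * e) i ≠ 1 then 1 else 0) ≤ m := fun i => by
    have d3 := t.pw (n := 3) (d := d) (by rw [hd]; exact congrArg Subtype.val hx) i
    have e3 := t.pw (n := 3) (d := e) (by rw [he]; exact congrArg Subtype.val hy) i
    by_cases d1 : d i = 1 <;> by_cases e1 : e i = 1
    · exact ⟨0, by simp [d1, e1]⟩
    · exact ⟨1, by simp [d1, e1]⟩
    · exact ⟨1, by simp [d1, e1]⟩
    have q : d i * d i ≠ 1 := fun q => d1 (by rw [← d3, pow_three, q, mul_one])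
    rcases cube d3 e3 d1 e1 with q' | q'
    · exact ⟨1, by simp [d1, q', q]⟩
    · exact ⟨1, by simp [d1, q', show (d i)⁻¹ * (d i)⁻¹ ≠ 1 by rwa [← mul_inv, inv_ne_one]]⟩
  obtain ⟨m0, k0⟩ := k 0
  obtain ⟨m1, k1⟩ := k 1
  obtain ⟨m2, k2⟩ := k 2
  omega

/-- an element of order three and rank two centralises no quaternion group -/
theorem no_q8 [IsAlgClosed k] (h2 : (2 : k) ≠ 0) (h3 : (3 : k) ≠ 0) {c i j : G6 k} (hc : c ∈ S6 k) (hi : i ∈ S6 k) (c3 : c ^ 3 = 1)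
    (r : rk c = 2) (i2 : i ^ 2 = -1) (ci : c * i = i * c) (cj : c * j = j * c) (ij : j * i = -(i * j)) : False := by
  classical
  have := NeZero.mk h2
  have z : T (c * i) = 0 := eq_zero_of_neg (F := k) (by
    rw [← T_neg, ← T_conj j, ← mul_assoc, ← cj, mul_assoc c, ij]; simp [mul_assoc])
  obtain ⟨φ, d, e, t, rfl, rfl⟩ := tor2 hc hi ci (m := 3) (n := 4) h3 (by have := mul_ne_zero h2 h2; norm_num at this ⊢; exact this) c3
    (by rw [show 4 = 2 * 2 from rfl, pow_mul, i2]; simp)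
  rw [t.rk] at r
  obtain ⟨a, ha⟩ := Finset.card_eq_one.1 (by omega : (Finset.univ.filter fun i => d i ≠ 1).card = 1)
  have ha : ∀ i, d i ≠ 1 ↔ i = a := fun i => by simpa using Finset.ext_iff.1 ha i
  have e2 : ∀ i, (e i : k)⁻¹ = -e i := fun i => inv_eq_of_mul_eq_one_right (by
    have : (e i : k) ^ 2 = -1 := by simpa using congrArg Units.val (t.pw' i2 i)
    linear_combination -this)
  rw [← map_mul, t.T, Finset.sum_eq_single a (fun b _ hb => by simp [not_not.1 (mt (ha b).1 hb), e2]) (by simp)] at z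
  simp only [Pi.mul_apply, Units.val_mul, mul_inv, e2] at z
  have : d a = (d a)⁻¹ := Units.ext (mul_right_cancel₀ (e a).ne_zero (by rw [Units.val_inv_eq_inv_val]; linear_combination z))
  exact (ha a).2 rfl (by rw [← t.pw c3 a, pow_three]; nth_rw 2 [this]; simp)
end

section
variable {k : Type u} [Field k] {G : Type*} [Group G] {H P : Subgroup (G6 k)} {π : P →* G}

theorem sc1 (sc : SC.{u}) (h : Rq P π) {x y : P} (g : Gn π x y) : 12 ≤ rk x.1 + rk y.1 + rk (x * y).1 :=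
  (sc _ _ _ _ (rq_tr h (qe h)) x y (gn_tr g _)).1

/-- Scott's lemma on `sp₆` with lower bounds -/
theorem sc3 (sc : SC.{u}) (h2 : (2 : k) ≠ 0) (h : Rq P π) {x y : P} (g : Gn π x y) : cs x.1 + cs y.1 + cs (x * y).1 ≤ 21 :=
  (sc _ _ _ _ (rq_tr h (qe h)) x y (gn_tr g _)).2.2.1 h2

theorem cs_odd (C : CS.{u}) [IsAlgClosed k] (h2 : (2 : k) ≠ 0) (h : Rq P π) {x : P} :
    (π x ^ 5 = 1 → 5 ≤ cs x.1) ∧ (π x ^ 7 = 1 → 3 ≤ cs x.1) := by
  have a := C k h2 x (h.sp x.2)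
  have b := C k h2 (-x.1) (by simpa using mul_mem neg_mem_S6 (h.sp x.2))
  constructor <;> intro e <;> rcases pm h e with e | e
  · exact a.2.2.2.2.2.2.2.1 e
  · exact a.1 ▸ b.2.2.2.2.2.2.2.1 (by rw [Odd.neg_pow (by decide), e, neg_neg])
  · exact a.2.2.2.2.2.2.2.2.1 e
  · exact a.1 ▸ b.2.2.2.2.2.2.2.2.1 (by rw [Odd.neg_pow (by decide), e, neg_neg])

/-- a `(2,4,7)`-triple with fused involutions -/
theorem t247 (sc : SC.{u}) (C : CS.{u}) [IsAlgClosed k] (h2 : (2 : k) ≠ 0) (h : Rq P π) {x y : P} (g : Gn π x y) (x1 : π x ≠ 1)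
    (x2 : π x ^ 2 = 1) (c : IsConj (π x) (π y ^ 2)) (z7 : (π x * π y) ^ 7 = 1) : x.1 ^ 2 = -1 ∧ y.1 ^ 4 = -1 := by
  obtain ⟨t, e⟩ := cj_pm h (y := y ^ 2) (by simpa using c)
  have e4 : y.1 ^ 4 = t * x.1 ^ 2 * t.1⁻¹ := by
    rw [← conj_pow, show 4 = 2 * 2 from rfl, pow_mul]
    rcases e with e | e <;> rw [show y.1 ^ 2 = _ from e]
    simp
  rcases pm h x2 with e2 | e2
  · have s := sc3 sc h2 h g
    have a := (C k h2 x (h.sp x.2)).2.1 e2 (ne_pm h x1).1 (ne_pm h x1).2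
    have b := (C k h2 y (h.sp y.2)).2.2.2.2.2.1 (by simp [e4, e2]) (ne_pm h (x := y ^ 2) fun e => x1 (by
      rw [map_pow] at e; simpa [e] using c)).2
    have c := (cs_odd C h2 h (x := x * y)).2 (by simpa)
    omega
  · exact ⟨e2, by simp [e4, e2]⟩
end

/-! ### alternating groups -/

theorem alt_le {α : Type*} [Fintype α] [DecidableEq α] {H : Subgroup (Perm α)} {p q : α}
    (t1 : ∀ a, a ≠ q → swap a q * swap p q ∈ H) (hp : p ≠ q) : alternatingGroup α ≤ H := by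
  have t2 : ∀ a b, a ≠ q → b ≠ q → swap a q * swap b q ∈ H := fun a b ha hb => by
    simpa [mul_assoc] using mul_mem (t1 a ha) (inv_mem (t1 b hb))
  have t3 : ∀ a b, a ≠ b → swap a b * swap p q ∈ H := fun a b hab => by
    by_cases ha : a = q
    · subst ha; rw [Equiv.swap_comm]; exact t1 b hab.symm
    by_cases hb : b = q
    · subst hb; exact t1 a ha
    have e : swap a b = swap a q * swap b q * swap a q := by
      have := swap_apply_apply (swap a q) b q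
      rw [swap_inv, swap_apply_right, swap_apply_of_ne_of_ne hab.symm hb] at this
      rw [← this, Equiv.swap_comm]
    rw [e, mul_assoc]; exact mul_mem (t2 a b ha hb) (t1 a ha)
  have key : ∀ σ : Perm α, (Perm.sign σ = 1 → σ ∈ H) ∧ (Perm.sign σ = -1 → swap p q * σ ∈ H) := fun σ => by
    induction σ using Perm.swap_induction_on with
    | one => exact ⟨fun _ => one_mem _, fun h => by simp at h⟩
    | swap_mul f a b hab ih =>
      rw [Perm.sign_mul, Perm.sign_swap hab]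
      refine ⟨fun h1 => ?_, fun h1 => ?_⟩
      · simpa [mul_assoc] using mul_mem (t3 a b hab) (ih.2 (by rw [← neg_neg (Perm.sign f), ← h1]; simp))
      · simpa [mul_assoc] using mul_mem (inv_mem (t3 a b hab)) (ih.1 (by simpa using h1))
  exact fun σ hσ => (key σ).1 hσ

/-- positive words in two letters, written in binary -/
def wd {M : Type*} [Monoid M] (x y : M) (l : List ℕ) : M := (l.map fun b => if b = 1 then x else y).prod

theorem wd_mem {M : Type*} [Group M] {H : Subgroup M} {x y : M} (hx : x ∈ H) (hy : y ∈ H) (l : List ℕ) : wd x y l ∈ H :=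
  list_prod_mem (by simp only [List.mem_map]; rintro _ ⟨b, -, rfl⟩; split_ifs <;> assumption)

abbrev An (n : ℕ) := alternatingGroup (Fin n)
/-- even permutations as products of cycles -/
def al {n : ℕ} (l : List (List (Fin n))) (h : Perm.sign (l.map List.formPerm).prod = 1 := by decide +kernel) : An n := ⟨_, h⟩

theorem alt_gen {n : ℕ} (x y : An (n + 2)) (w : Fin (n + 2) → List ℕ) (h : ∀ i, i ≠ 0 → wd x.1 y.1 (w i) = swap i 0 * swap 1 0) :
    closure {x, y} = ⊤ := eq_top_iff.2 fun g _ => by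
  obtain ⟨g', h1, h2⟩ := alt_le (H := (closure {x, y}).map (Subgroup.subtype _)) (p := 1) (q := 0) (fun a ha => by
    rw [← h a ha]
    exact wd_mem (mem_map_of_mem _ (subset_closure (.inl rfl))) (mem_map_of_mem _ (subset_closure (.inr rfl))) _) (by simp) g.2
  exact (Subtype.ext h2 : g' = g) ▸ h1

theorem cj {M : Type*} [Group M] {a b : M} (c : M) (h : c * a * c⁻¹ = b) : IsConj a b := isConj_iff.2 ⟨c, h⟩

theorem chr {k : Type*} [Field k] {p : ℕ} [hp : Fact p.Prime] [CharP k p] {q : ℕ} (hq : q.Prime) (h : p ≠ q) : (q : k) ≠ 0 :=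
  fun e => h ((Nat.prime_dvd_prime_iff_eq hp.out hq).1 ((CharP.cast_eq_zero_iff k p q).1 e))

theorem a6 (sc : SC.{u}) (C : CS.{u}) : A6.{u} := fun K G _ _ _ p _ _ P π h p3 ⟨e⟩ => by
  have h := rq_tr h.1 e
  generalize e.toMonoidHom.comp π = π at h
  have h3 : (3 : K) ≠ 0 := chr Nat.prime_three p3
  obtain ⟨r, s, k, k1, k2⟩ := r33 h3 h (a := al [[0, 1, 2]]) (b := al [[3, 4, 5]]) (n := al [[0, 3, 1, 4], [2, 5]])
    (by decide +kernel) (by decide +kernel) (by decide +kernel) (by decide +kernel) (by decide +kernel)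
  obtain ⟨x, ex, hx⟩ := ex_odd h (n := 3) (by decide) (a := al [[0, 1, 2]]) (by decide +kernel)
  have rx := k1 x hx (ex ▸ IsConj.refl _)
  by_cases p2 : p = 2
  · subst p2
    obtain ⟨y, ey, hy⟩ := ex_odd h (n := 3) (by decide) (a := al [[0, 3, 5], [1, 2, 4]]) (by decide +kernel)
    have ry := k2 y hy (ey ▸ cj (al [[0, 1, 2, 4, 3]]) (by decide +kernel))
    have := sc1 sc h (x := x) (y := y) (by
      rw [Gn, ex, ey]; exact alt_gen _ _ ![[], [], [1], [0, 1, 1, 0, 0, 1, 0, 1, 0, 0], [0, 1, 0, 0, 1, 0, 1, 1, 0, 0], [1, 0, 1, 1, 0, 1, 0, 0, 1, 0, 0]] (by decide +kernel))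
    have : rk (x * y).1 < 6 := rk_lt (n := 2 ^ 3) (by
      rw [sub_pow, show 2 ^ 3 = 4 * 2 from rfl, pow_mul]
      rcases pm h (x := x * y) (n := 4) (by rw [map_mul, ex, ey]; decide +kernel) with e | e <;> rw [e] <;> simp)
    omega
  have h2 : (2 : K) ≠ 0 := chr Nat.prime_two p2
  obtain ⟨y, ey, hy⟩ := ex_odd h (n := 3) (by decide) (a := al [[0, 2, 4], [1, 3, 5]]) (by decide +kernel)
  have ry := k2 y hy (ey ▸ cj (al [[0, 1, 3], [2, 5, 4]]) (by decide +kernel))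
  have := sc3 sc h2 h (x := x) (y := y) (by
    rw [Gn, ex, ey]; exact alt_gen _ _ ![[], [], [1], [0, 1, 0, 0, 1, 0, 1, 1, 0, 0], [0, 1, 1, 0, 0, 1, 0, 1, 0, 0], [1, 0, 1, 0, 0, 1, 0, 1, 0]] (by decide +kernel))
  have := (cs_odd C h2 h (x := x * y)).1 (by rw [map_mul, ex, ey]; decide +kernel)
  obtain ⟨-, -, -, a, a', -⟩ := C K h2 x (h.sp x.2)
  obtain ⟨-, -, -, b, b', -⟩ := C K h2 y (h.sp y.2)
  have a := a (congrArg Subtype.val hx)
  have b := b (congrArg Subtype.val hy)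
  have a' := fun r => a' (congrArg Subtype.val hx) r h3
  have b' := fun r => b' (congrArg Subtype.val hy) r h3
  omega

theorem a7_247 (sc : SC.{u}) (C : CS.{u}) {K : Type u} [Field K] [IsAlgClosed K] (h2 : (2 : K) ≠ 0) {P : Subgroup (G6 K)}
    {π : P →* An 7} (h : Rq P π) {x y : P} (ex : π x = al [[3, 4], [5, 6]]) (ey : π y = al [[0, 3, 1, 2], [4, 5]]) :
    x.1 ^ 2 = -1 ∧ y.1 ^ 4 = -1 := by
  refine t247 sc C h2 h ?_ ?_ ?_ ?_ ?_ <;> simp only [Gn, ex, ey]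
  exacts [alt_gen _ _ ![[], [], [1, 0, 1, 0, 0, 0, 1, 0, 1, 0, 0, 0, 1, 0], [0, 1, 0, 1, 0, 0, 0, 1, 0, 1, 0, 0, 0, 1, 0, 0], [1, 0, 1, 0, 1, 0, 0, 0, 1, 0, 1, 0, 0, 0, 1, 0, 0, 1], [0, 1, 0, 0, 1, 0], [1, 0, 1, 0, 0, 1, 0, 1]]
    (by decide +kernel), by decide +kernel, by decide +kernel, cj (al [[0, 4, 1, 5, 2, 6, 3]]) (by decide +kernel), by decide +kernel]

theorem a7 (sc : SC.{u}) (C : CS.{u}) (w7 : W7.{u}) : A7.{u} := fun K G _ _ _ p _ _ P π h' ⟨e⟩ => by_contra fun p3 => by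
  have h' := rp_tr h' e
  generalize e.toMonoidHom.comp π = π at h'
  have h := h'.1
  have h3 : (3 : K) ≠ 0 := chr Nat.prime_three p3
  obtain ⟨r, s, k, k1, k2⟩ := r33 h3 h (a := al [[0, 1, 2]]) (b := al [[3, 4, 5]]) (n := al [[0, 3, 1, 4], [2, 5]])
    (by decide +kernel) (by decide +kernel) (by decide +kernel) (by decide +kernel) (by decide +kernel)
  obtain ⟨rfl, rfl⟩ : r = 2 ∧ s = 4 := k.resolve_right fun k => by
    obtain ⟨x, ex, hx⟩ := ex_odd h (n := 3) (by decide) (a := al [[0, 1, 2], [3, 4, 5]]) (by decide +kernel)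
    obtain ⟨y, ey, hy⟩ := ex_odd h (n := 3) (by decide) (a := al [[0, 3, 1], [4, 6, 5]]) (by decide +kernel)
    have := k2 x hx (ex ▸ cj 1 (by decide +kernel))
    have := k2 y hy (ey ▸ cj (al [[1, 3, 4, 6, 2]]) (by decide +kernel))
    have := sc1 sc h (x := x) (y := y) (by
      rw [Gn, ex, ey]; exact alt_gen _ _ ![[], [], [1, 1, 0, 1, 0, 1, 1, 0, 0, 1, 1, 0, 1, 0], [1, 0, 1, 0, 0, 1, 1, 0, 0, 1, 0, 1, 0], [1, 0, 0, 1, 0, 1, 0, 1, 1, 0, 1, 1, 0, 1, 0], [0, 1, 1, 0, 1, 0, 1, 1, 0, 1, 0, 0, 1, 0, 0], [0, 1, 0, 0, 1, 0]] (by decide +kernel))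
    have := rk_le (x * y).1
    omega
  obtain ⟨x, ex, hx⟩ := ex_odd h (n := 3) (by decide) (a := al [[0, 1, 2]]) (by decide +kernel)
  have rx := k1 x hx (ex ▸ IsConj.refl _)
  by_cases p2 : p = 2
  · subst p2
    obtain ⟨y, ey, hy⟩ := ex_odd h (n := 3) (by decide) (a := al [[0, 3, 5], [1, 4, 6]]) (by decide +kernel)
    have ry := k2 y hy (ey ▸ cj (al [[0, 1, 4, 3], [2, 6]]) (by decide +kernel))
    have z : (x * y) ^ 7 = 1 := Subtype.ext ((pm h (x := x * y) (n := 7) (by rw [map_mul, ex, ey]; decide +kernel)).elim id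
      fun e => e.trans (Units.ext (by ext i j; simp [CharTwo.neg_eq])))
    have o : ∀ {x : P} {n}, Odd n → x ^ n = 1 → Odd (orderOf x) := fun o e => o.of_dvd_nat (orderOf_dvd_of_pow_eq_one e)
    have := w7 _ _ _ _ (rp_tr h' (qe h)) x y (gn_tr (by
      rw [Gn, ex, ey]; exact alt_gen _ _ ![[], [], [1], [0, 1, 0, 0, 1, 0, 1, 1, 0, 0], [0, 1, 1, 0, 0, 1, 0, 1, 0, 0], [0, 0, 1, 0, 1, 0, 0, 1, 1, 0], [0, 0, 1, 1, 0, 1, 0, 0, 1, 0]] (by decide +kernel)) _)
      (o (by decide) hx) (o (by decide) hy) (o (by decide) z)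
    have := rk_le (x * y).1
    omega
  have h2 : (2 : K) ≠ 0 := chr Nat.prime_two p2
  obtain ⟨i, ei⟩ := h.sur (al [[3, 4], [5, 6]])
  obtain ⟨j, ej⟩ := h.sur (al [[3, 5], [4, 6]])
  obtain ⟨y, ey⟩ := h.sur (al [[0, 3, 1, 2], [4, 5]])
  have i2 := (a7_247 sc C h2 h ei ey).1
  have q : ∀ {j : P}, IsConj (π i) (π j) → j.1 ^ 2 = -1 := fun e => by
    obtain ⟨g, e | e⟩ := cj_pm h e <;> simp [e, conj_pow, i2]
  have j2 := q (j := j) (by rw [ei, ej]; exact cj (al [[4, 5, 6]]) (by decide +kernel))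
  have k2 := q (j := i * j) (by rw [map_mul, ei, ej]; exact cj (al [[4, 6, 5]]) (by decide +kernel))
  refine no_q8 h2 h3 (h.sp x.2) (h.sp i.2) (congrArg Subtype.val hx) rx i2
    (congrArg Subtype.val (cm_odd h (by decide) (by rw [ex, ei]; decide +kernel) hx))
    (congrArg Subtype.val (cm_odd h (y := j) (by decide) (by rw [ex, ej]; decide +kernel) hx)) ?_
  rw [sq] at i2 j2 k2
  calc j.1 * i = -(i.1 * i) * j * i * -(j.1 * j) := by simp [i2, j2]
    _ = i.1 * ((i * j).1 * (i * j).1) * j := by simp [mul_assoc]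
    _ = _ := by rw [k2]; simp

theorem a7_ord (σ : An 7) : σ ^ 12 = 1 ∨ σ ^ 5 = 1 ∨ σ ^ 7 = 1 := by
  have h1 : σ.1.cycleType.sum ≤ 7 := by simpa using σ.1.sum_cycleType_le
  have h2 := fun n => @Perm.two_le_of_mem_cycleType _ _ _ σ.1 n
  have h3 : Even (σ.1.cycleType.sum + σ.1.cycleType.card) := by
    have := (Perm.sign_of_cycleType σ.1).symm.trans σ.2
    exact (neg_one_pow_eq_one_iff_even (by decide)).1 this
  have h4 : ∀ n, (∀ m ∈ σ.1.cycleType, m ∣ n) → σ ^ n = 1 := fun n h =>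
    Subtype.ext (orderOf_dvd_iff_pow_eq_one.1 (σ.1.lcm_cycleType ▸ Multiset.lcm_dvd.2 h))
  generalize σ.1.cycleType = m at h1 h2 h3 h4
  have k : ∀ a, 5 ≤ a → Odd a → a ∈ m → ∀ b ∈ m, b ∣ a := fun a a5 o h => by
    obtain ⟨t, rfl⟩ := Multiset.exists_cons_of_mem h
    rcases t.empty_or_exists_mem with rfl | ⟨b, hb⟩
    · simp
    obtain ⟨t, rfl⟩ := Multiset.exists_cons_of_mem hb
    have b2 := h2 b (by simp)
    rcases t.empty_or_exists_mem with rfl | ⟨c, hc⟩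
    · simp [Nat.even_iff, Nat.odd_iff] at h1 h3 o; omega
    have := h2 c (by simp [hc])
    have := Multiset.single_le_sum (fun _ _ => Nat.zero_le _) c hc
    simp at h1; omega
  by_cases h5 : 5 ∈ m
  · exact .inr (.inl (h4 _ (k 5 le_rfl (by decide) h5)))
  by_cases h7 : 7 ∈ m
  · exact .inr (.inr (h4 _ (k 7 (by decide) (by decide) h7)))
  refine .inl (h4 _ fun a ha => ?_)
  have := h2 a ha
  have := (Multiset.single_le_sum (fun _ _ => Nat.zero_le _) a ha).trans h1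
  interval_cases a <;> first | decide | contradiction

theorem syl {G : Type*} [Group G] [Finite G] {p m : ℕ} [hp : Fact p.Prime] (hG : Nat.card G = p * m) (hm : ¬ p ∣ m) {g h : G}
    (g1 : g ≠ 1) (hg : g ^ p = 1) (hh : h ^ p = 1) : ∃ k, ∃ i : ℕ, h = k * g ^ i * k⁻¹ := by
  have m0 : m ≠ 0 := fun e => hm (e ▸ dvd_zero p)
  let P : Sylow p G := Sylow.ofCard (zpowers g) (by
    rw [Nat.card_zpowers, orderOf_eq_prime hg g1, hG, Nat.factorization_mul hp.out.ne_zero m0]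
    simp [Nat.factorization_eq_zero_of_not_dvd hm, hp.out.factorization])
  obtain ⟨Q, hQ⟩ := (IsPGroup.of_card (G := zpowers h) (p := p) (n := (orderOf h).factorization p) (by
    rw [Nat.card_zpowers]
    rcases (Nat.dvd_prime hp.out).1 (orderOf_dvd_of_pow_eq_one hh) with e | e <;> simp [e, hp.out.factorization])).exists_le_sylow
  obtain ⟨k, rfl⟩ := MulAction.exists_smul_eq G P Q
  obtain ⟨x, hx, e⟩ := hQ (mem_zpowers h)
  obtain ⟨i, rfl⟩ := mem_powers_iff_mem_zpowers.2 hx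
  exact ⟨k, i, e.symm⟩

/-- the elements fixed by a power of the Frobenius map -/
def fx (F : Type*) [Field F] (p n : ℕ) [Fact p.Prime] [CharP F p] : Subfield F := (iterateFrobenius F p n).eqLocusField (RingHom.id F)
theorem mem_fx {F : Type*} [Field F] {p n : ℕ} [Fact p.Prime] [CharP F p] {x : F} : x ∈ fx F p n ↔ x ^ p ^ n = x := by
  rw [← iterateFrobenius_def]; rfl
theorem card_fx {F : Type*} [Field F] [Fintype F] {p n : ℕ} [hp : Fact p.Prime] [CharP F p] (n0 : n ≠ 0) (h : fx F p n = ⊤) :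
    ∃ m, m ∣ n ∧ Fintype.card F = p ^ m := by
  obtain ⟨m, -, e⟩ := FiniteField.card F p
  refine ⟨m, ?_, e⟩
  have := (FiniteField.forall_pow_eq_one_iff (K := F) (p ^ n - 1)).1 fun x => Units.ext (mul_right_cancel₀ x.ne_zero (by
    rw [Units.val_pow_eq_pow_val, ← pow_succ, Nat.sub_add_cancel (Nat.one_le_pow _ _ hp.out.pos), Units.val_one, one_mul]
    exact mem_fx.1 (h ▸ trivial)))
  rw [e, ← Nat.gcd_eq_left_iff_dvd, Nat.pow_sub_one_gcd_pow_sub_one] at this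
  have h1 := Nat.one_le_pow (Nat.gcd m n) _ hp.out.pos
  have h2 := Nat.one_le_pow m _ hp.out.pos
  exact Nat.gcd_eq_left_iff_dvd.1 (Nat.pow_right_injective hp.out.two_le (show p ^ _ = p ^ _ by omega))

theorem a7t (sc : SC.{u}) (C : CS.{u}) (r2 : R2.{u}) : A7t.{u} := fun F G _ _ _ p _ _ H P π h' p3 ⟨e⟩ => by
  subst p3
  have h := rq_tr h'.1.1 e
  generalize e.toMonoidHom.comp π = π at h
  have h2 : (2 : F) ≠ 0 := chr Nat.prime_two (by decide : 3 ≠ 2)
  have T9 : ∀ x : G6 F, T (x ^ 9) = T x ^ 9 := fun x => by rw [show 9 = 3 * 3 from rfl, pow_mul, pow_mul, T_pow, T_pow]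
  obtain ⟨m, hm, q⟩ := card_fx two_ne_zero ((te.{u, 0} F).1 P h.top h'.fld (fx F 3 2) fun x hx => by
    lift x to P using hx
    have : T (x.1 ^ 81) = T (x.1 ^ 9) := by
      have sq : ∀ {n}, π x ^ n = 1 → x.1 ^ (n * 2) = 1 := fun e => by rw [pow_mul]; rcases pm h e with e | e <;> simp [e]
      rcases a7_ord (π x) with e | e | e
      · rw [pow_eq_pow_mod _ (sq e)]
      · rw [pow_eq_pow_mod _ (sq e), ← T_inv (pow_mem (h.sp x.2) _), eq_inv_of_mul_eq_one_left (show x.1 ^ 9 * x.1 ^ 1 = 1 by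
          rw [← pow_add]; exact sq e)]
      · have := Fact.mk (by norm_num : Nat.Prime 7)
        obtain ⟨k, i, e'⟩ := syl (p := 7) (m := 360) (by rw [nat_card_alternatingGroup]; simp [Nat.factorial]) (by decide)
          (g := al [[0, 1, 2, 3, 4, 5, 6]]) (by decide +kernel) (by decide +kernel) e
        have s : (x ^ 2) ^ 7 = 1 := Subtype.ext (by rw [← pow_mul]; exact sq e)
        obtain ⟨g, e2⟩ := cj_odd h (n := 7) (by decide) (x := x ^ 2) (y := (x ^ 2) ^ 2) (cj (k * al [[1, 2, 4], [3, 6, 5]] * k⁻¹) (by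
          have : al [[1, 2, 4], [3, 6, 5]] * al [[0, 1, 2, 3, 4, 5, 6]] * (al [[1, 2, 4], [3, 6, 5]])⁻¹ =
            (al [[0, 1, 2, 3, 4, 5, 6]] : An 7) ^ 2 := by decide +kernel
          simp only [map_pow, e', conj_pow, ← pow_mul]
          rw [show i * (2 * 2) = 2 * (i * 2) by ring, pow_mul _ 2, ← this, conj_pow]; group)) s (by rw [pow_right_comm, s, one_pow])
        have e3 : T (x.1 ^ 4) = T (x.1 ^ 2) := by
          have := congrArg (T ·.1) e2
          simpa [← pow_mul, T_conj] using this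
        rw [show 81 = 7 * 11 + 4 from rfl, show 9 = 7 + 2 from rfl, pow_add, pow_add, pow_mul]
        rcases pm h e with e | e <;> simp [e, e3, T_neg, Odd.neg_one_pow (by decide : Odd 11)]
    rw [show 81 = 9 * 9 from rfl, pow_mul, T9] at this
    rw [mem_fx]
    exact (iterateFrobenius F 3 2).injective (by simpa [iterateFrobenius_def, T9] using this))
  rcases (Nat.dvd_prime Nat.prime_two).1 hm with rfl | rfl
  swap
  · exact q
  obtain ⟨x, ex⟩ := h.sur (al [[3, 4], [5, 6]])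
  obtain ⟨y, ey⟩ := h.sur (al [[0, 3, 1, 2], [4, 5]])
  let σ := algebraMap F (AlgebraicClosure F)
  obtain ⟨π', k, k'⟩ := upq σ h
  have := (a7_247 sc C (map_ofNat σ 2 ▸ (map_ne_zero σ).2 h2) k ((k' x).trans ex) ((k' y).trans ey)).2
  obtain ⟨s, hs⟩ := (r2 F h2 y (h.sp y.2)).1 (gm_inj σ (by rw [map_pow, gm_neg, map_one]; exact this))
  have s3 : s ^ 3 = s := by simpa [q] using FiniteField.pow_card s
  have s0 : s ≠ 0 := fun e => h2 (by simp [hs, e])
  exact (one_ne_zero (α := F) (mul_left_cancel₀ s0 (by linear_combination s3 + s * hs))).elim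

end H4.SP
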