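import Cfsg.Agent.H15.BX0

/-! S5590: the pieces PH and HB. -/

set_option autoImplicit false
set_option linter.unusedSectionVars false
set_option maxRecDepth 100000

namespace H4.BX
open Cfsg H15 H19 H0 H0.Mo H0.Y H1.RB H1.RC Subgroup Function Module H15.BX
open scoped commutatorElement Pointwise

universe u v

theorem U'_ne : -lU' ≠ lU' := by decide +kernel

theorem ph1 : Hb ≤ N(EE ⊓ H0) := fun g m => mem_normalizer_fintype fun e he =>
  ⟨conj_EE (Hb_NN m) he.1, sCo2.mul_mem (sCo2.mul_mem (Hb_le m) he.2.1) (sCo2.inv_mem (Hb_le m)), by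
    have a : e • lU' = lU' := he.2.2
    have : e • g⁻¹ • lU' = g⁻¹ • lU' := by rcases (inv_mem m).2 with h | h <;> simp [h, a, co_neg]
    change (_ * _ * _) • lU' = lU'
    rw [mul_smul, mul_smul, this, smul_inv_smul]⟩

theorem ph2 : #(EE ⊓ H0 : Subgroup Co0) = 1024 := by
  have := card_mono (EE ⊓ H0 : Subgroup Co0) (fun g hg => EE_le hg.1) ⊥ bot_le
    {c | c ∈ cw ∧ pt 23 ∉ c ∧ pt 0 ∉ c} (fun _ h => h.1) fun σ hσ c hc => ⟨fun h => ⟨by
      have h := h.1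
      rw [mono_eq ⟨σ, hσ⟩] at h
      exact congrArg Subtype.val (eq_one_of_prmH
        ((mul_mem_cancel_left (show sgn hc ∈ EE from ⟨c, hc, rfl⟩)).1 h)), hc, ((mono_H0 _ _).1 h.2).1.2,
        ((mono_H0 _ _).1 h.2).2.2⟩,
      fun h => by obtain rfl := mem_bot.1 h.1; exact ⟨⟨c, hc, rfl⟩, sgn_H0 hc h.2.2.1 h.2.2.2⟩⟩
  rw [show ({c | c ∈ cw ∧ pt 23 ∉ c ∧ pt 0 ∉ c} : Set (Finset GolayPt)).ncard = 1024 from
    (ncard_cw (fun m => band (!tb m 23) (!tb m 0)) (fun _ h => h.1) fun m hm => by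
      simp [S_mem_cw hm, pt_mem_S, tb_eq]).trans (by decide +kernel), card_bot] at this
  exact this

theorem ph3 : H0 ≤ ⁅H0, H0⁆ ⊔ EE ⊓ H0 := fun g m => by
  obtain ⟨τ, hτ, c, hc, rfl⟩ := exists_mono (Hb_NN (H0_le m))
  rw [mono_H0] at m
  let φ : Spor.M22 →* Co0 := prmH.comp (inclusion M22_le)
  have p : φ.range ≤ H0 := by
    rintro _ ⟨x, rfl⟩
    exact (mono_H0 (M22_le x.2) cw_empty).2 ⟨⟨(mem_M22.1 x.2).1.2, by simp⟩, (mem_M22.1 x.2).2, by simp⟩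
  have : (⊤ : Subgroup Spor.M22) ≤ ⁅⊤, ⊤⁆ := have := simple_M22
    perfect topEquiv.isSimpleGroup (by rw [card_top, card_M22]; norm_num)
  rw [mono_eq ⟨τ, hτ⟩]
  refine mul_mem (mem_sup_right ⟨⟨c, hc, rfl⟩, sgn_H0 hc m.1.2 m.2.2⟩) (mem_sup_left (commutator_mono p p ?_))
  rw [φ.range_eq_map, ← map_commutator]
  exact ⟨⟨τ, mem_M22.2 ⟨⟨hτ, m.1.1⟩, m.2.1⟩⟩, this trivial, rfl⟩

theorem ph4 : (H0 : Subgroup Co0).relIndex Hb = 2 := by
  obtain ⟨τ, m', f⟩ := m24_trans2 (a := pa) (b := pb) (a' := pb) (b' := pa) (by decide) (by decide)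
  have mτ := prm_Hb (σ := ⟨τ, m'⟩) (.inr f)
  have e : prmH ⟨τ, m'⟩ • lU' = -lU' := by rw [U'_vw, prm_vw, f.1, f.2]; decide +kernel
  refine index_eq_two_iff.2 ⟨⟨_, mτ⟩, fun b => ?_⟩
  have k : ∀ x : Hb, x ∈ H0.subgroupOf Hb ↔ x.1 • lU' = lU' := fun x => ⟨fun h => h.2, fun h => ⟨x.2.1, h⟩⟩
  rw [k, k, coe_mul, mul_smul, e, co_neg]
  rcases b.2.2 with h | h <;> simp [h, U'_ne]

theorem ph : PH := ⟨ph1, ph2, ph3, ph4⟩

variable {F V : Type u} [Field F] [NeZero (2 : F)] [AddCommGroup V] [Module F V] [FiniteDimensional F V]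

theorem nsq (h : (3 : F) ≠ 0) : ¬ ringChar F ^ 2 ∣ 1024 * 443520 := fun e => by
  rcases CharP.char_is_prime_or_zero F (ringChar F) with p | p
  · have a : ∀ q : ℕ, (q : F) ≠ 0 → ringChar F ≠ q := fun q n e => n (e ▸ CharP.cast_eq_zero F _)
    have a2 := a 2 (by simpa using NeZero.ne (2 : F))
    have a3 := a 3 (by simpa using h)
    generalize ringChar F = q at *
    have d : q ∣ 2 ^ 17 * (3 ^ 2 * (5 * (7 * 11))) := (dvd_pow_self q two_ne_zero).trans e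
    simp only [p.dvd_mul] at d
    rcases d with d | d | d | d | d
    · exact a2 ((Nat.prime_dvd_prime_iff_eq p Nat.prime_two).1 (p.dvd_of_dvd_pow d))
    · exact a3 ((Nat.prime_dvd_prime_iff_eq p Nat.prime_three).1 (p.dvd_of_dvd_pow d))
    all_goals obtain rfl := (Nat.prime_dvd_prime_iff_eq p (by norm_num)).1 d; norm_num at e
  · rw [p] at e; norm_num at e

theorem hb (k1 : K1.{u,v} F V) (k3 : K3.{u,v} F V) (k7 : K7.{u,v} F V) (nc : NC F V) (ph : PH) : HB.{u,v} F V :=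
  fun X _ κ π T d h3 c h => by
  have n2 : (2 : F) ≠ 0 := NeZero.ne _
  have nN : (#(EE ⊓ H0 : Subgroup Co0) : F) ≠ 0 := by
    rw [ph.2.1, show (1024 : ℕ) = 2 ^ 10 by norm_num, Nat.cast_pow]; exact pow_ne_zero _ (by simpa using n2)
  refine k1 _ X κ H0 Hb π d h H0_le (by rw [ph.2.2.2]; simpa using n2) ?_
  refine k3 _ X κ (EE ⊓ H0) H0 π d (h.mono H0_le) inf_le_right (H0_le.trans ph.1) nN fun d' h' f _ => ?_
  refine k7 _ X κ (EE ⊓ H0) H0 π d' h' inf_le_right nN ph.2.2.1 inferInstance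
    (by rw [card_stab_UU']; exact nsq h3) fun a e g m => ?_
  refine nc π T c _ (h'.fix e) g (H0_le m) (fun j ja jb => .inr ?_) (.inl m.2)
  obtain ⟨C, hC, p, q⟩ := pat (i := j) [pa, pb] (by simp) (by simp [ja, jb])
  have s := sgn_H0 hC (q _ (by simp)) (q _ (by simp))
  exact ⟨_, H0_le s, f a e _ ⟨⟨C, hC, rfl⟩, s⟩, by rw [sgn_e8, if_pos p]⟩

end H4.BX
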