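/-
S3130, chunk `BR`: the standing hypotheses.
-/
import Cfsg.Agent.H4.OM3
import Cfsg.Agent.S2096
import Cfsg.Agent.S2097
import Cfsg.Agent.S2099
import Cfsg.Agent.S0205
import Cfsg.Agent.H1.SR0
import Cfsg.Agent.H1.LB7

set_option autoImplicit false
set_option linter.unusedSectionVars false

namespace H4.OM
open Cfsg H12 Module Subgroup H19 H1.OD H1.OD.Geo
open scoped commutatorElement

universe u

theorem solv_cyc {X : Type*} [Group X] [Finite X] (P : Sylow 2 X) (hP : IsCyclic P) : Group.IsSolvable X := by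
  rcases Nat.even_or_odd (Nat.card X) with h | h
  swap
  · exact Agent.S0205.result h
  have hm : (Nat.card X).minFac = 2 := (Nat.minFac_eq_two_iff _).2 h.two_dvd
  have hc := hP.isComplement' hm
  have h1 : Odd (Nat.card (MonoidHom.transferSylow P (hP.normalizer_le_centralizer hm)).ker) := by
    rw [← hc.index_eq_card, ← Nat.not_even_iff_odd, even_iff_two_dvd]
    exact P.not_dvd_index
  haveI := Agent.S0205.result h1
  letI := hP.commGroup
  exact Group.isSolvable_of_ker_le_range (MonoidHom.transferSylow P _).ker.subtype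
    (MonoidHom.transferSylow P (hP.normalizer_le_centralizer hm)) (by simp)

theorem br0 {G : Type u} [Group G] [Finite G] (hF : IsSimpleGroup (generalizedFittingSubgroup G))
    (hF' : ¬ IsMulCommutative (generalizedFittingSubgroup G)) (L : Subgroup G) (hL : IsStandardSubgroup L)
    (hR : ∀ R : Sylow 2 C(L), IsCyclic (R : Subgroup C(L))) {O : Geo} (ι : (L ⧸ oddCore L) ≃* O.Om)
    (hs : HasCyclicSchurMultiplier O.Om 1) : ∃ (ψ : O.Om →* G) (t : G), St ψ t ∧
      (∃ g, g * t * g⁻¹ ≠ t ∧ g * t * g⁻¹ * t = t * (g * t * g⁻¹)) ∧ ψ.range ≤ generalizedFittingSubgroup G := by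
  obtain ⟨t, tt, t1, tK, nor, r1⟩ := H1.SR.setup hL hR
  set M := generalizedFittingSubgroup G
  have k : ∀ N : Subgroup G, N.Normal → ¬ M ≤ N → N ≤ C(M) := fun N _ a =>
    cents_of_norms_disjoint le_normalizer_of_normal le_normalizer_of_normal (by
      rcases (inferInstance : (N.subgroupOf M).Normal).eq_bot_or_eq_top with h | h
      · exact disjoint_iff.1 (subgroupOf_eq_bot.1 h)
      · exact absurd (subgroupOf_eq_top.1 h) a)
  have hc : C(M) = ⊥ := by
    rcases (inferInstance : (C(M).subgroupOf M).Normal).eq_bot_or_eq_top with h | h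
    · exact (inf_eq_left.2 H1.centralizer_gf_le).symm.trans (disjoint_iff.1 (subgroupOf_eq_bot.1 h))
    · exact absurd ⟨⟨fun a b => Subtype.ext (subgroupOf_eq_top.1 h b.2 a a.2)⟩⟩ hF'
  have hO : oddCore G = ⊥ := eq_bot_iff.2 (hc ▸ k _ inferInstance fun q => by
    have := H20.sol_of_odd ((Nat.coprime_two_right.1 H1.pPrimeCore_coprime).of_dvd_nat (card_dvd_of_le q))
    exact hF' ⟨⟨IsSimpleGroup.comm_iff_isSolvable.2 this⟩⟩)
  have hLM : L ≤ M := (H1.pLayer_eq_layer (p := 2) hO ▸ H1.pc_le_pLayer (by rw [pow_two, tt])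
    (H1.Std.pc hL tK (H1.SR.ord2 tt t1))).trans H1.layer_le_gf
  obtain ⟨per, nt, qs⟩ := H1.isQuasisimple_iff.1 hL.1
  have hZ : oddCore L ≤ center L := (qs _ inferInstance).resolve_left fun r => by
    have h1 : Odd (Nat.card (oddCore L)) := Nat.coprime_two_right.1 H1.pPrimeCore_coprime
    rw [r, card_top] at h1
    have := Agent.S0205.result h1
    exact Group.IsSolvable.commutator_lt_top_of_nontrivial L |>.ne per.commutator_eq_top
  let ξ : L →* O.Om := ι.toMonoidHom.comp (QuotientGroup.mk' _)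
  have hξ : ξ.ker = oddCore L := by
    rw [MonoidHom.ker_comp_of_injective _ _ ι.injective, QuotientGroup.ker_mk']
  obtain ⟨η, hη⟩ := H23.exists_lift_of_schur_one ⟨top_perfect⟩ hs ξ (ι.surjective.comp (QuotientGroup.mk'_surjective _))
    (hξ ▸ hZ) (.id _)
  have hη' : ∀ e, ξ (η e) = e := DFunLike.congr_fun hη
  have hr : η.range = ⊤ := by
    have h1 : ∀ a, ∃ e z, z ∈ center L ∧ a = η e * z := fun a =>
      ⟨ξ a, (η (ξ a))⁻¹ * a, hZ (hξ ▸ by rw [MonoidHom.mem_ker, map_mul, map_inv, hη', inv_mul_cancel]), by group⟩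
    refine eq_top_iff.2 (per.commutator_eq_top.ge.trans (commutator_le.2 fun a _ b _ => ?_))
    obtain ⟨e, z, hz, rfl⟩ := h1 a
    obtain ⟨e', z', hz', rfl⟩ := h1 b
    refine ⟨e * e' * e⁻¹ * e'⁻¹, ?_⟩
    simp only [map_mul, map_inv, commutatorElement_def, _root_.mul_inv_rev]
    rw [show η e * z * (η e' * z') * (z⁻¹ * (η e)⁻¹) * (z'⁻¹ * (η e')⁻¹) =
      η e * (z * (η e' * z') * z⁻¹) * (η e)⁻¹ * z'⁻¹ * (η e')⁻¹ by group, ← mem_center_iff.1 hz, mul_inv_cancel_right,
      ← mul_assoc, mul_assoc _ z', ← mem_center_iff.1 hz']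
    group
  have hψ : (L.subtype.comp η).range = L := by rw [MonoidHom.range_comp, hr, ← MonoidHom.range_eq_map, range_subtype]
  refine ⟨L.subtype.comp η, t, ⟨au O, Subtype.val_injective.comp (Function.LeftInverse.injective hη'), tt, t1, hψ.symm ▸ tK,
    hψ.symm ▸ nor, fun k h1 h2 h3 => r1 k (hψ ▸ h2) h3 (mem_cent1.1 h1), ?_⟩, (H1.SR.alt tt t1 nor).resolve_left fun h => ?_,
    hψ.symm ▸ hLM⟩
  · rw [hψ]
    exact sol_mono (solv_cyc _ (hR default)) inf_le_right
  · rw [hO, sup_bot_eq] at h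
    have h1 : M ≤ L := by_contra fun a => nt.to_nonempty.elim fun _ =>
      (nontrivial_iff_ne_bot L).1 nt (eq_bot_iff.2 (hc ▸ k L h a))
    exact t1 (mem_bot.1 (hc ▸ cent_mono h1 tK))

theorem br : BR.{u} := by
  intro G _ _ hF hF' L hL hR k n hk hn hex F _ _ hq h
  haveI : CharP F 2 := charP_of_card_eq_prime_pow hq
  have ex : ∀ d, d = 2 * k → 10 ≤ d ∨ ∃ c : F, c ≠ 0 ∧ c ≠ 1 := fun d hd => or_iff_not_imp_left.2 fun h => by
    classical
    by_contra! c
    have h1 := Finset.card_le_card (show Finset.univ ⊆ ({0, 1} : Finset F) from fun x _ => by simpa [or_iff_not_imp_left] using c x)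
    have := Finset.card_le_two (a := (0 : F)) (b := 1)
    have : 2 ^ 2 ≤ 2 ^ n := Nat.pow_le_pow_right two_pos (by omega)
    rw [Finset.card_univ] at h1
    omega
  have fin : ∀ {ι : Type} [Fintype ι] [DecidableEq ι] (Q : QuadraticForm F (ι → F)) (q : (ι → F) → F), ⇑Q = q → QNondeg Q →
      Fintype.card ι = 2 * k → HasCyclicSchurMultiplier (POmega F q) 1 → ((L ⧸ oddCore L) ≃* POmega F q) →
      ∃ (O : Geo) (ψ : O.Om →* G) (t : G), St ψ t ∧ (∃ g, g * t * g⁻¹ ≠ t ∧ g * t * g⁻¹ * t = t * (g * t * g⁻¹)) ∧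
        ψ.range ≤ generalizedFittingSubgroup G ∧ finrank O.F O.V = 2 * k ∧ Nat.card O.F = 2 ^ n := fun {ι} _ _ Q q e nd d s i => by
    let O : Geo := { F := F, V := ι → F, Q := Q, nd := nd, dim := by simp; omega, ex := ex _ (by simpa) }
    let E : POmega F q ≃* O.Om := (H11.pomegaEquiv Q e).trans (pomE O)
    obtain ⟨ψ, t, a1, a2, a3⟩ := br0 hF hF' L hL hR (i.trans E) (H23.schur_congr_left s E)
    exact ⟨O, ψ, t, a1, a2, a3, by simpa [O], Nat.card_eq_fintype_card.trans hq⟩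
  obtain ⟨j, hj⟩ : ∃ j, (2 ^ n) ^ k = 4 * (j + 1) := by
    obtain ⟨m, hm⟩ := Nat.exists_eq_add_of_le (show 2 ≤ n * k by nlinarith)
    exact ⟨2 ^ m - 1, by rw [← pow_mul, hm, pow_add, Nat.sub_add_cancel Nat.one_le_two_pow]; rfl⟩
  rcases h with ⟨⟨i⟩⟩ | ⟨a, b, h, ⟨i⟩⟩
  · refine fin _ _ (H11.coe_qPlus k) (H11.qPlus_nondeg k) (by simp [two_mul]) ?_ i
    rcases k.even_or_odd with e | e
    · have := Agent.S2097.result hq k hk e fun c => hex ⟨c.1, Nat.pow_right_injective le_rfl (c.2.trans (pow_one 2).symm)⟩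
      rw [hj, Nat.gcd_rec, show (4 * (j + 1) - 1) % 2 = 1 by omega, Nat.gcd_one_left] at this
      haveI uq : Unique (Multiplicative (ZMod 1 × ZMod 1)) := ⟨⟨1⟩, by decide⟩
      haveI uq' : Unique (Multiplicative (ZMod 1)) := inferInstanceAs (Unique (Fin 1))
      exact H23.schur_congr_right this MulEquiv.ofUnique
    · have := Agent.S2096.result hq k (by rcases e with ⟨_, _⟩; omega) e
      rwa [hj, Nat.gcd_rec, show (4 * (j + 1) - 1) % 4 = 3 by omega] at this
  · refine fin _ _ (H11.coe_qMinus _ a b) (H11.qMinus_nondeg _ (H11.disc_ne_zero_of_aniso h)) (by simp; omega) ?_ i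
    have := Agent.S2099.result hq k hk a b h
    rwa [hj, Nat.gcd_rec, show (4 * (j + 1) + 1) % 4 = 1 by omega] at this

end H4.OM
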