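import Mathlib

/-! S5810: transitive groups of unitriangular affine maps with scattered translations. -/

set_option autoImplicit false
set_option linter.unusedSectionVars false

namespace H4.US.PA

theorem cnt {I W S' : Type*} [AddCommGroup W] [Finite W] [Finite S'] (X : AddSubgroup W) (S : Set S') (r : I → W) (φ : I → S')
    (hS : ∀ i, φ i ∈ S) (h : ∀ i j, φ i = φ j → r i - r j ∈ X) (inj : ∀ i j, φ i = φ j → r i = r j → i = j) :
    Nat.card I ≤ Nat.card X * S.ncard := by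
  rw [← Nat.card_coe_set_eq, ← Nat.card_prod]
  have k : ∀ i, ∃ j, φ j = φ i := fun i => ⟨i, rfl⟩
  refine Nat.card_le_card_of_injective (fun i => (⟨r i - r (k i).choose, h _ _ (k i).choose_spec.symm⟩, ⟨φ i, hS i⟩))
    fun i j e => ?_
  have e2 : φ i = φ j := congrArg (·.2.1) e
  have e1 : r i - r (k i).choose = r j - r (k j).choose := congrArg (·.1.1) e
  simp only [e2, sub_left_inj] at e1
  exact inj i j e2 e1

variable {F : Type*} [Field F] [Fintype F] {σ : F →+* F} {q : ℕ} {U : Type*} [Group U]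

theorem sq {V : Type*} [AddCommGroup V] [Module F V] [Finite V] {l : F} (hl : σ l ≠ l) (X : AddSubgroup V)
    (h : ∀ x ∈ X, ∀ l : F, l • x ∈ X → σ l = l ∨ x = 0) {n : ℕ} (hn : Nat.card V = n ^ 2) : Nat.card X ≤ n := by
  refine (Nat.pow_le_pow_iff_left two_ne_zero).1 ?_
  rw [← hn, _root_.sq, ← Nat.card_prod]
  refine Nat.card_le_card_of_injective (fun x => x.1.1 + l • x.2.1) fun x y e => ?_
  have e2 : x.2.1 - y.2.1 = 0 := (h _ (sub_mem x.2.2 y.2.2) l (by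
    rw [show l • (x.2.1 - y.2.1) = y.1.1 - x.1.1 by linear_combination (norm := module) e]; exact sub_mem y.1.2 x.1.2)).resolve_left hl
  rw [sub_eq_zero] at e2
  exact Prod.ext (Subtype.ext (by simpa [e2] using e)) (Subtype.ext e2)

/-- the entries of unitriangular matrices of size four -/
structure UT (σ : F →+* F) (q : ℕ) (a b d x y z : U → F) : Prop where
  hF : Fintype.card F = q ^ 2
  q2 : 2 ≤ q
  ex : ∃ l, σ l ≠ l
  ma : ∀ g h, a (g * h) = a g + a h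
  md : ∀ g h, d (g * h) = d g + d h
  mz : ∀ g h, z (g * h) = z g + z h
  mb : ∀ g h, b (g * h) = b g + b h + a g * d h
  my : ∀ g h, y (g * h) = y g + y h + d g * z h
  mx : ∀ g h, x (g * h) = x g + x h + a g * y h + b g * z h
  tr : ∀ v : F × F × F, ∃ g, (x g, y g, z g) = v
  sc : ∀ g h (l : F), a g = 0 → b g = 0 → d g = 0 → a h = 0 → b h = 0 → d h = 0 → (x h, y h, z h) = l • (x g, y g, z g) →
    σ l = l ∨ (x g, y g, z g) = 0
  two : (2 : F) = 0 → ∀ g, a g = 0 → b g = 0 → d g = 0 → (x g, y g, z g) = 0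

variable {a b d x y z : U → F}

namespace UT
variable (h : UT σ q a b d x y z)
include h

theorem one : a 1 = 0 ∧ b 1 = 0 ∧ d 1 = 0 ∧ x 1 = 0 ∧ y 1 = 0 ∧ z 1 = 0 := by
  have h1 := h.ma 1 1; have h2 := h.md 1 1; have h3 := h.mz 1 1; have h4 := h.mb 1 1; have h5 := h.my 1 1
  have h6 := h.mx 1 1
  simp only [mul_one, left_eq_add] at h1 h2 h3
  simp_all

theorem ia (g : U) : a g⁻¹ = -a g := by linear_combination h.one.1 - h.ma g g⁻¹ + congrArg a (mul_inv_cancel g)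
theorem id (g : U) : d g⁻¹ = -d g := by linear_combination h.one.2.2.1 - h.md g g⁻¹ + congrArg d (mul_inv_cancel g)
theorem iz (g : U) : z g⁻¹ = -z g := by linear_combination h.one.2.2.2.2.2 - h.mz g g⁻¹ + congrArg z (mul_inv_cancel g)
theorem ib (g : U) : b g⁻¹ = -b g + a g * d g := by
  linear_combination h.one.2.1 - h.mb g g⁻¹ + congrArg b (mul_inv_cancel g) - a g * h.id g
theorem iy (g : U) : y g⁻¹ = -y g + d g * z g := by
  linear_combination h.one.2.2.2.2.1 - h.my g g⁻¹ + congrArg y (mul_inv_cancel g) - d g * h.iz g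
theorem ix (g : U) : x g⁻¹ = -x g + a g * y g + b g * z g - a g * d g * z g := by
  linear_combination h.one.2.2.2.1 - h.mx g g⁻¹ + congrArg x (mul_inv_cancel g) - a g * h.iy g - b g * h.iz g

/-- the translations -/
def T : AddSubgroup (F × F × F) where
  carrier := {v | ∃ g, a g = 0 ∧ b g = 0 ∧ d g = 0 ∧ (x g, y g, z g) = v}
  zero_mem' := ⟨1, by simp [h.one]⟩
  add_mem' := by
    rintro _ _ ⟨g, h1, h2, h3, rfl⟩ ⟨k, k1, k2, k3, rfl⟩
    exact ⟨g * k, by simp [h.ma, h.mb, h.md, h.mx, h.my, h.mz, *]⟩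
  neg_mem' := by
    rintro _ ⟨g, h1, h2, h3, rfl⟩
    exact ⟨g⁻¹, by simp [h.ia, h.ib, h.id, h.ix, h.iy, h.iz, *]⟩

theorem mT (g : U) {v : F × F × F} (h1 : a g = 0) (h2 : b g = 0) (h3 : d g = 0) (h4 : x g = v.1) (h5 : y g = v.2.1)
    (h6 : z g = v.2.2) : v ∈ h.T := ⟨g, h1, h2, h3, by rw [h4, h5, h6]⟩

theorem scT : ∀ v ∈ h.T, ∀ l : F, l • v ∈ h.T → σ l = l ∨ v = 0 := by
  rintro _ ⟨g, h1, h2, h3, rfl⟩ l ⟨k, k1, k2, k3, e⟩
  exact h.sc g k l h1 h2 h3 k1 k2 k3 e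

theorem sub {g k : U} (h1 : a g = a k) (h2 : b g = b k) (h3 : d g = d k) : (x g, y g, z g) - (x k, y k, z k) ∈ h.T := by
  refine h.mT (g * k⁻¹) ?_ ?_ ?_ ?_ ?_ ?_ <;>
    simp only [h.ma, h.mb, h.md, h.mx, h.my, h.mz, h.ia, h.ib, h.id, h.ix, h.iy, h.iz, h1, h2, h3, Prod.fst_sub,
      Prod.snd_sub] <;> ring

theorem cj {v : F × F × F} (hv : v ∈ h.T) (g : U) : (a g * v.2.1 + b g * v.2.2, d g * v.2.2, (0 : F)) ∈ h.T := by
  obtain ⟨k, h1, h2, h3, rfl⟩ := hv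
  refine h.mT (g * k * g⁻¹ * k⁻¹) ?_ ?_ ?_ ?_ ?_ ?_ <;>
    simp only [h.ma, h.mb, h.md, h.mx, h.my, h.mz, h.ia, h.ib, h.id, h.ix, h.iy, h.iz, h1, h2, h3] <;> ring

theorem cF : Nat.card F = q ^ 2 := Nat.card_eq_fintype_card.trans h.hF

theorem c3 : Nat.card h.T ≤ q ^ 3 :=
  let ⟨_, hl⟩ := h.ex; sq hl _ h.scT (by simp only [Nat.card_prod, h.cF]; ring)

/-- translations in the first direction -/
def L : AddSubgroup F := h.T.comap (AddMonoidHom.inl F (F × F))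

theorem mL {c : F} : c ∈ h.L ↔ (c, 0, 0) ∈ h.T := Iff.rfl

theorem c1 : (h.L : Set F).ncard ≤ q :=
  let ⟨_, hl⟩ := h.ex; sq hl _ (fun c hc l k => (h.scT _ (h.mL.1 hc) l (by simpa using h.mL.1 k)).imp_right
    (congrArg Prod.fst)) h.cF

/-- translations in a plane -/
def P (v : F × F) : AddSubgroup (F × F) := h.T.comap
  ((LinearMap.fst F F F).prod ((LinearMap.snd F F F).smulRight v)).toAddMonoidHom

theorem mP {v w : F × F} : w ∈ h.P v ↔ (w.1, w.2 • v) ∈ h.T := Iff.rfl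

theorem c2 {v : F × F} (hv : v ≠ 0) : Nat.card (h.P v) ≤ q ^ 2 :=
  let ⟨_, hl⟩ := h.ex; sq hl _ (fun c hc l k => (h.scT _ (h.mP.1 hc) l (by simpa [mul_smul] using h.mP.1 k)).imp_right
    fun e => Prod.ext (congrArg (·.1) e) (by simpa [hv] using congrArg (·.2) e)) (by simp only [Nat.card_prod, h.cF]; ring)

theorem c2' {v : F × F} (hv : v ≠ 0) (k : ∀ w ∈ h.T, ∃ c : F, w.2 = c • v) : Nat.card h.T ≤ q ^ 2 := by
  choose! c hc using k
  refine le_trans (Nat.card_le_card_of_injective (fun w => ⟨(w.1.1, c w), h.mP.2 (by simp [← hc _ w.2])⟩) fun w u e => ?_)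
    (h.c2 hv)
  simp only [Subtype.mk.injEq, Prod.mk.injEq] at e
  exact Subtype.ext (Prod.ext e.1 (by rw [hc _ w.2, hc _ u.2, e.2]))

theorem cl {S' : Type*} [Finite S'] (S : Set S') (φ : U → S') (hS : ∀ g, φ g ∈ S)
    (k : ∀ g g', φ g = φ g' → a g = a g' ∧ b g = b g' ∧ d g = d g') : q ^ 6 ≤ Nat.card h.T * S.ncard := by
  choose g hg using h.tr
  have := cnt h.T S _root_.id (fun v => φ (g v)) (fun _ => hS _) (fun v w e => by
    obtain ⟨e1, e2, e3⟩ := k _ _ e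
    simpa [hg] using h.sub e1 e2 e3) fun _ _ _ e => e
  simp only [Nat.card_prod, h.cF] at this
  exact le_of_eq_of_le (by ring) this

theorem no {m n i j : ℕ} (e : q ^ 6 ≤ m * n) (h1 : m ≤ q ^ i) (h2 : n ≤ q ^ j) (k : i + j < 6) : False := by
  have := e.trans (Nat.mul_le_mul h1 h2)
  rw [← pow_add, Nat.pow_le_pow_iff_right h.q2] at this
  omega

theorem caseD (hd : ∀ g, d g = 0) : False := by
  have key : ∀ v w : F × F, v.1 * w.2 - v.2 * w.1 ≠ 0 → ∀ A B : Set F, (∀ g, a g * v.1 + b g * v.2 ∈ A) →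
      (∀ g, a g * w.1 + b g * w.2 ∈ B) → q ^ 6 ≤ Nat.card h.T * (A.ncard * B.ncard) := fun v w n A B hA hB => by
    rw [← Set.ncard_prod]
    refine h.cl _ (fun g => (a g * v.1 + b g * v.2, a g * w.1 + b g * w.2)) (fun g => ⟨hA g, hB g⟩) fun g k e => ?_
    obtain ⟨e1, e2⟩ := Prod.mk.inj e
    exact ⟨mul_right_cancel₀ n (by linear_combination w.2 * e1 - v.2 * e2),
      mul_right_cancel₀ n (by linear_combination v.1 * e2 - w.1 * e1), by rw [hd, hd]⟩
  have mL : ∀ v ∈ h.T, ∀ g, a g * v.2.1 + b g * v.2.2 ∈ (h.L : Set F) := fun v hv g => h.mL.2 (by simpa [hd] using h.cj hv g)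
  have u2 : (Set.univ : Set F).ncard = q ^ 2 := by rw [Set.ncard_univ, h.cF]
  obtain ⟨v, hv, v0⟩ : ∃ v ∈ h.T, v.2 ≠ 0 := by
    by_contra! n
    refine h.no (key (1, 0) (0, 1) (by simp) _ _ (fun _ => Set.mem_univ _) fun _ => Set.mem_univ _) (i := 1) (j := 4)
      (le_trans (Nat.card_le_card_of_injective (β := h.L) (fun w => ⟨w.1.1, h.mL.2 (by
        convert w.2 using 1; exact Prod.ext rfl (n _ w.2).symm)⟩) fun w u e => Subtype.ext (Prod.ext (congrArg Subtype.val e)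
          (by rw [n _ w.2, n _ u.2]))) ((pow_one q).symm ▸ h.c1)) (by rw [u2, ← pow_add]) (by norm_num)
  by_cases k : ∃ w ∈ h.T, v.2.1 * w.2.2 - v.2.2 * w.2.1 ≠ 0
  · obtain ⟨w, hw, n⟩ := k
    exact h.no (key _ _ n _ _ (mL v hv) (mL w hw)) h.c3 (j := 2) (by rw [_root_.sq]; exact Nat.mul_le_mul h.c1 h.c1) (by norm_num)
  push Not at k
  have : ∃ w : F × F, v.2.1 * w.2 - v.2.2 * w.1 ≠ 0 ∧ ∀ u : F × F, v.2.1 * u.2 - v.2.2 * u.1 = 0 → ∃ c : F, u = c • v.2 := by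
    by_cases e : v.2.1 = 0
    · have e' : v.2.2 ≠ 0 := fun z => v0 (Prod.ext e z)
      exact ⟨(1, 0), by simpa, fun u hu => ⟨u.2 / v.2.2, Prod.ext (by simpa [e, e'] using hu) (by simp [e'])⟩⟩
    · exact ⟨(0, 1), by simpa, fun u hu => ⟨u.1 / v.2.1, Prod.ext (by simp [e]) (by
        simp only [Prod.smul_snd, smul_eq_mul]; field_simp; linear_combination hu)⟩⟩
  obtain ⟨w, n, hw⟩ := this
  exact h.no (key _ _ n _ _ (mL v hv) fun _ => Set.mem_univ _) (h.c2' v0 fun u hu => hw _ (k u hu)) (j := 3)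
    (by rw [u2, pow_succ' q 2]; exact Nat.mul_le_mul_right _ h.c1) (by norm_num)

theorem caseB {B : Set F} (hB : B.ncard ≤ q) (h1 : ∀ g, d g = 0 → a g = 0 ∧ b g ∈ B) (h2 : ∀ g, a g = 0 → d g = 0) : False := by
  have k : ∀ g, ∃ k, d k = d g := fun g => ⟨g, rfl⟩
  have key : q ^ 6 ≤ Nat.card h.T * ((Set.range d).ncard * B.ncard) := by
    rw [← Set.ncard_prod]
    have d0 : ∀ g, d (g * (k g).choose⁻¹) = 0 := fun g => by rw [h.md, h.id, (k g).choose_spec, add_neg_cancel]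
    refine h.cl _ (fun g => (d g, b (g * (k g).choose⁻¹))) (fun g => ⟨⟨g, rfl⟩, (h1 _ (d0 g)).2⟩) fun g g' e => ?_
    obtain ⟨e1, e2⟩ := Prod.mk.inj e
    have e3 := (h1 (g * g'⁻¹) (by rw [h.md, h.id, e1, add_neg_cancel])).1
    rw [h.ma, h.ia, add_neg_eq_zero] at e3
    simp only [h.mb, e1, e3, add_left_inj] at e2
    exact ⟨e3, e2, e1⟩
  by_cases n : ∃ v ∈ h.T, v.2.2 ≠ 0
  swap
  · push Not at n
    exact h.no key (h.c2' (v := (1, 0)) (by simp) fun w hw => ⟨w.2.1, Prod.ext (by simp) (by simp [n w hw])⟩) (j := 3) (by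
      rw [pow_succ, ← h.cF]; exact Nat.mul_le_mul (Set.ncard_le_card _) hB) (by norm_num)
  obtain ⟨v, hv, v0⟩ := n
  refine h.no key h.c3 (j := 2) (by
    rw [_root_.sq]; refine Nat.mul_le_mul (le_trans ?_ h.c1) hB
    by_cases e : ∃ g, a g ≠ 0
    · obtain ⟨g, hg⟩ := e
      refine Set.ncard_le_ncard_of_injOn (fun c => a g * (c * v.2.2)) ?_ fun c _ c' _ e => by simpa [hg, v0] using e
      rintro _ ⟨k, rfl⟩
      exact h.mL.2 (by simpa using h.cj (h.cj hv k) g)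
    · push Not at e
      refine Set.ncard_le_ncard ?_
      rintro _ ⟨k, rfl⟩
      rw [h2 k (e k)]; exact zero_mem h.L) (by norm_num)

theorem caseA {A : Set F} (hA : A.ncard ≤ q) (h1 : ∀ g, a g ∈ A) : False := by
  have q2 := h.q2
  have s1 : ∀ g k, a g = 0 → z g = 0 → a k = 0 → (z k * b g, z k * d g, (0 : F)) ∈ h.T := fun g k e1 e2 e3 => by
    refine h.mT (g * k * g⁻¹ * k⁻¹) ?_ ?_ ?_ ?_ ?_ ?_ <;>
      simp only [h.ma, h.mb, h.md, h.mx, h.my, h.mz, h.ia, h.ib, h.id, h.ix, h.iy, h.iz, e1, e2, e3] <;> ring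
  choose G hG using h.tr
  have Gz : ∀ u v w, z (G (u, v, w)) = w := fun u v w => congrArg (·.2.2) (hG _)
  have c4 : ∀ (S : Set F) (φ : U → F), S.ncard ≤ q → (∀ g, z g = 0 → φ g ∈ S) → (∀ g g', z g = 0 → z g' = 0 → φ g = φ g' →
      a g = a g' ∧ b g = b g' ∧ d g = d g') → False := fun S φ hS k1 k2 => by
    have := cnt (h.P (1, 0)) S _root_.id (fun v : F × F => φ (G (v.1, v.2, 0))) (fun _ => k1 _ (Gz ..)) (fun v w e => by
      obtain ⟨e1, e2, e3⟩ := k2 _ _ (Gz ..) (Gz ..) e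
      simpa [hG, h.mP] using h.sub e1 e2 e3) fun _ _ _ e => e
    replace this := this.trans (Nat.mul_le_mul (h.c2 (by simp)) hS)
    simp only [Nat.card_prod, h.cF, ← pow_succ, ← pow_add, Nat.pow_le_pow_iff_right h.q2] at this
    omega
  obtain ⟨g0, g1, g2, g3⟩ : ∃ g, a g = 0 ∧ z g = 0 ∧ (b g, d g, (0 : F)) ≠ 0 := by
    by_contra! n
    refine c4 A a hA (fun g _ => h1 g) fun g k e1 e2 e => ?_
    have := n (g * k⁻¹) (by rw [h.ma, h.ia, e, add_neg_cancel]) (by rw [h.mz, h.iz, e1, e2, add_neg_cancel])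
    simp only [h.mb, h.md, h.ib, h.id, e, Prod.mk_eq_zero] at this
    exact ⟨e, by linear_combination this.1, by linear_combination this.2.1⟩
  let R : AddSubgroup F :=
    { carrier := {r | ∃ k, a k = 0 ∧ z k = r}
      zero_mem' := ⟨1, by simp [h.one]⟩
      add_mem' := by rintro _ _ ⟨g, e, rfl⟩ ⟨k, e', rfl⟩; exact ⟨g * k, by simp [h.ma, h.mz, *]⟩
      neg_mem' := by rintro _ ⟨g, e, rfl⟩; exact ⟨g⁻¹, by simp [h.ia, h.iz, *]⟩ }
  have sR : ∀ r ∈ R, ∀ l : F, l • r ∈ R → σ l = l ∨ r = 0 := by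
    rintro _ ⟨k, e, rfl⟩ l ⟨k', e', e2⟩
    refine (h.scT _ (s1 g0 k g1 g2 e) l (by simpa [e2, mul_assoc] using s1 g0 k' g1 g2 e')).imp_right fun e => ?_
    exact by_contra fun n => g3 (by simpa [n] using e)
  obtain ⟨l, hl⟩ := h.ex
  have cR := sq hl R sR h.cF
  have dR : ∀ g k, a g = a k → z g - z k ∈ R := fun g k e =>
    ⟨g * k⁻¹, by rw [h.ma, h.ia, e, add_neg_cancel], by rw [h.mz, h.iz, sub_eq_add_neg]⟩
  have za : ∀ g, z g = 0 → a g = 0 := fun g e => by_contra fun n => by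
    have := cnt R A (fun v : F × Bool => v.1) (fun v => a (G (0, 0, v.1) * if v.2 then g else 1)) (fun _ => h1 _)
      (fun v w e' => by
        convert dR _ _ e' using 1
        simp only [h.mz, Gz, apply_ite z, e, h.one, ite_self, add_zero]) (by
      rintro ⟨v, i⟩ ⟨w, j⟩ e' (rfl : v = w)
      cases i <;> cases j <;> simp_all [h.ma, h.one])
    replace this := this.trans (Nat.mul_le_mul cR hA)
    simp only [Nat.card_prod, h.cF, Nat.card_eq_fintype_card (α := Bool), Fintype.card_bool] at this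
    nlinarith
  obtain ⟨_, ⟨k0, k1, rfl⟩, r0⟩ : ∃ r ∈ R, r ≠ 0 := by
    by_contra! n
    have := cnt R A _root_.id (fun v => a (G (0, 0, v))) (fun _ => h1 _) (fun v w e' => by simpa [Gz] using dR _ _ e')
      fun _ _ _ e => e
    rw [(AddSubgroup.eq_bot_iff_forall R).2 n, h.cF, AddSubgroup.card_bot] at this
    nlinarith
  have two : (2 : F) ≠ 0 := fun e => by
    obtain ⟨k, e1, e2, e3, e4⟩ := s1 g0 k0 g1 g2 k1
    exact g3 (by simpa [r0] using e4.symm.trans (h.two e k e1 e2 e3))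
  obtain ⟨g, gz, gd⟩ : ∃ g, z g = 0 ∧ d g ≠ 0 := by
    by_contra! n
    exact c4 h.L (fun g => z k0 * b g) h.c1 (fun g e => h.mL.2 (by simpa [n g e] using s1 g k0 (za g e) e k1))
      fun g k e1 e2 e => ⟨by rw [za g e1, za k e2], mul_left_cancel₀ r0 e, by rw [n g e1, n k e2]⟩
  have ga := za g gz
  obtain ⟨k, kz⟩ : ∃ k, z k = l * z k0 := ⟨_, Gz 0 0 _⟩
  have ka : a k ≠ 0 := fun e => (sR _ ⟨k0, k1, rfl⟩ l ⟨k, e, kz⟩).elim hl r0
  obtain ⟨c, c1, c2, c3, c4, c5⟩ : ∃ c, a c = 0 ∧ b c = -(a k * d g) ∧ d c = 0 ∧ y c = z k * d g ∧ z c = 0 := by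
    refine ⟨(k * g)⁻¹ * (g * k), ?_, ?_, ?_, ?_, ?_⟩ <;>
      simp only [h.ma, h.mb, h.md, h.my, h.mz, h.ia, h.ib, h.id, h.iy, h.iz, ga, gz] <;> ring
  have t1 := s1 c k0 c1 c5 k1
  rcases h.scT _ t1 (2 * l) (by
    refine h.mT ((k * c)⁻¹ * (c * k)) ?_ ?_ ?_ ?_ ?_ ?_ <;>
      simp only [h.ma, h.mb, h.md, h.mx, h.my, h.mz, h.ia, h.ib, h.id, h.ix, h.iy, h.iz, c1, c2, c3, c4, c5, kz,
        Prod.smul_fst, Prod.smul_snd, smul_eq_mul] <;> ring) with e | e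
  · exact hl (mul_left_cancel₀ two (by simpa [map_ofNat] using e))
  · simp [c2, r0, ka, gd] at e
end UT

end H4.US.PA
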