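import Cfsg.Agent.H4.US1
import Cfsg.Agent.H4.US2

/-! S5810: unipotent unitary groups with long orbits contain transvections. -/

set_option autoImplicit false
set_option linter.unusedSectionVars false

open Module

namespace H4.US
namespace PB

variable {F : Type*} [Field F] [Fintype F] {σ : F →+* F} {q : ℕ} {V : Type*} [AddCommGroup V] [Module F V] [Finite V]

theorem fix {p : ℕ} [Fact p.Prime] [CharP F p] {U : Subgroup (V ≃ₗ[F] V)} (hU : IsPGroup p U) {S T : Submodule F V}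
    (hS : ∀ g ∈ U, ∀ x ∈ S, g x ∈ S) (hT : ∀ g ∈ U, ∀ x ∈ T, g x ∈ T) (h : ¬ T ≤ S) :
    ∃ v ∈ T, v ∉ S ∧ ∀ g ∈ U, g v - v ∈ S := by
  letI : MulAction U (T.map S.mkQ) :=
    { smul g y := ⟨S.mapQ S g.1.toLinearMap (hS g g.2) y, by
        obtain ⟨_, y, hy, rfl⟩ := y; exact ⟨_, hT g g.2 y hy, rfl⟩⟩
      one_smul := by rintro ⟨_, y, hy, rfl⟩; rfl
      mul_smul := by rintro a b ⟨_, y, hy, rfl⟩; rfl }
  haveI : Finite (V ⧸ S) := Finite.of_surjective _ S.mkQ_surjective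
  obtain ⟨⟨_, v, hv, rfl⟩, h1, h2⟩ := hU.exists_fixed_point_of_prime_dvd_card_of_fixed_point (T.map S.mkQ) (by
    rw [Module.natCard_eq_pow_finrank (K := F), Nat.card_eq_fintype_card]
    refine dvd_pow ((CharP.cast_eq_zero_iff F p _).1 (FiniteField.cast_card_eq_zero F)) fun e => h ?_
    simpa [← LinearMap.le_ker_iff_map] using Submodule.finrank_eq_zero.1 e) (a := 0) fun g => Subtype.ext (map_zero _)
  exact ⟨v, hv, fun e => h2 (Subtype.ext ((Submodule.Quotient.mk_eq_zero S).2 e).symm),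
    fun g hg => (Submodule.Quotient.eq S).1 (congrArg Subtype.val (h1 ⟨g, hg⟩))⟩

variable (F) in
/-- the span of three vectors -/
def lm (a b c : V) : F × F × F →ₗ[F] V :=
  (LinearMap.toSpanSingleton F V a).coprod ((LinearMap.toSpanSingleton F V b).coprod (LinearMap.toSpanSingleton F V c))

theorem lm_apply (a b c : V) (x : F × F × F) : lm F a b c x = x.1 • a + x.2.1 • b + x.2.2 • c := (add_assoc ..).symm

/-- the products with three vectors -/
def pm (f : V →ₗ[F] V →ₛₗ[σ] F) (a b c : V) : V →ₗ[F] F × F × F := (f.flip a).prod ((f.flip b).prod (f.flip c))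

theorem pm_apply (f : V →ₗ[F] V →ₛₗ[σ] F) (a b c x : V) : pm f a b c x = (f x a, f x b, f x c) := rfl

/-- the setting -/
structure HS (q : ℕ) (f : V →ₗ[F] V →ₛₗ[σ] F) (U : Subgroup (V ≃ₗ[F] V)) : Prop where
  hF : Fintype.card F = q ^ 2
  q2 : 2 ≤ q
  ex : ∃ l, σ l ≠ l
  hk : {c | σ c = c}.ncard ≤ q
  ss : ∀ c, σ (σ c) = c
  sy : ∀ x y, f y x = σ (f x y)
  nd : ∀ x, (∀ y, f x y = 0) → x = 0
  dim : finrank F V = 7
  iso : ∀ g ∈ U, ∀ x y, f (g x) (g y) = f x y
  pg : IsPGroup (ringChar F) U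
  big : ∀ x, f x x ≠ 0 → q ^ 6 ≤ {y | ∃ g ∈ U, g x = y}.ncard
  nt : ∀ t ∈ U, ∀ e (l : F), f e e = 0 → (∀ x, t x = x + (l * f x e) • e) → e = 0 ∨ l = 0

variable {f : V →ₗ[F] V →ₛₗ[σ] F} {U : Subgroup (V ≃ₗ[F] V)}

namespace HS
variable (h : HS q f U)
include h

theorem z' {x y : V} (e : f x y = 0) : f y x = 0 := by rw [h.sy, e, map_zero]

theorem sep {S : Submodule F V} {w : V} (hw : w ∉ S) : ∃ y, (∀ x ∈ S, f x y = 0) ∧ f w y = 1 := by
  obtain ⟨φ, h1, h2⟩ := Submodule.exists_le_ker_of_notMem hw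
  obtain ⟨y, hy⟩ := (Finite.injective_iff_surjective_of_equiv (f := fun y => f.flip y)
    (finBasis F V).toDualEquiv.toEquiv).1 (fun y y' e => sub_eq_zero.1 (h.nd _ fun x => h.z' (by
      rw [map_sub, sub_eq_zero]; exact LinearMap.congr_fun e x))) ((φ w)⁻¹ • φ)
  exact ⟨y, fun x hx => (LinearMap.congr_fun hy x).trans (by simpa using .inr (h2 hx)),
    (LinearMap.congr_fun hy w).trans (by simp [h1])⟩

theorem step {a b c : V} (hi : LinearMap.range (lm F a b c) ≤ LinearMap.ker (pm f a b c))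
    (hS : ∀ g ∈ U, ∀ x ∈ LinearMap.range (lm F a b c), g x ∈ LinearMap.range (lm F a b c)) :
    ∃ v, pm f a b c v = 0 ∧ v ∉ LinearMap.range (lm F a b c) ∧ (∀ g ∈ U, ∃ x : F × F × F, g v = v + lm F a b c x) ∧
      (c = 0 → f v v = 0) := by
  haveI : Fact (ringChar F).Prime := ⟨CharP.char_is_prime F _⟩
  have k : ∀ x, pm f a b c x = 0 ↔ ∀ y ∈ LinearMap.range (lm F a b c), f x y = 0 := fun x =>
    ⟨by rintro e _ ⟨y, rfl⟩; simp_all [pm_apply, lm_apply], fun e => by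
      simpa [pm_apply, lm_apply] using And.intro (e _ ⟨(1, 0, 0), rfl⟩) (And.intro (e _ ⟨(0, 1, 0), rfl⟩) (e _ ⟨(0, 0, 1), rfl⟩))⟩
  obtain ⟨v, h1, h2, h3⟩ := fix h.pg hS (T := LinearMap.ker (pm f a b c)) (fun g hg x hx => (k _).2 fun y hy => by
    rw [← (k x).1 hx _ (hS _ (inv_mem hg) y hy), ← h.iso g hg x]; simp) fun e => by
      have h1 := Submodule.finrank_mono e
      have h2 := (pm f a b c).finrank_range_add_finrank_ker
      have h3 := (lm F a b c).finrank_range_le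
      have h4 := (LinearMap.range (pm f a b c)).finrank_le
      simp only [finrank_prod, finrank_self, h.dim] at h2 h3 h4
      omega
  replace h3 : ∀ g ∈ U, ∃ x : F × F × F, g v = v + lm F a b c x := fun g hg =>
    (h3 g hg).imp fun x e => by rw [e, add_sub_cancel]
  refine ⟨v, h1, h2, h3, fun c0 => by_contra fun n => ?_⟩
  have := (h.big v n).trans ((Set.ncard_le_ncard (t := (fun x : F × F => v + lm F a b c (x.1, x.2, 0)) '' Set.univ) (by
    rintro _ ⟨g, hg, rfl⟩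
    obtain ⟨x, e⟩ := h3 g hg
    exact ⟨(x.1, x.2.1), trivial, by simp [e, lm_apply, c0]⟩)).trans (Set.ncard_image_le))
  rw [Set.ncard_univ, Nat.card_prod, Nat.card_eq_fintype_card, h.hF, ← pow_add, Nat.pow_le_pow_iff_right h.q2] at this
  omega
end HS

/-- an invariant flag with dual vectors -/
structure Fl (f : V →ₗ[F] V →ₛₗ[σ] F) (U : Subgroup (V ≃ₗ[F] V)) (e1 e2 e3 u y1 y2 y3 : V) : Prop where
  p1 : pm f e1 e2 e3 e1 = 0
  p2 : pm f e1 e2 e3 e2 = 0
  p3 : pm f e1 e2 e3 e3 = 0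
  pu : pm f e1 e2 e3 u = 0
  d1 : pm f e1 e2 e3 y1 = (1, 0, 0)
  d2 : pm f e1 e2 e3 y2 = (0, 1, 0)
  d3 : pm f e1 e2 e3 y3 = (0, 0, 1)
  nu : f u u ≠ 0
  pp : ∀ v, pm f e1 e2 e3 v = 0 → ∃ (x : F × F × F) (w : F), v = lm F e1 e2 e3 x + w • u
  g1 : ∀ g ∈ U, g e1 = e1
  g2 : ∀ g ∈ U, ∃ a : F, g e2 = e2 + a • e1
  g3 : ∀ g ∈ U, ∃ b d : F, g e3 = e3 + b • e1 + d • e2
  gu : ∀ g ∈ U, ∃ x y z : F, g u = u + x • e1 + y • e2 + z • e3

theorem HS.fl (h : HS q f U) : ∃ e1 e2 e3 u y1 y2 y3, Fl f U e1 e2 e3 u y1 y2 y3 := by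
  obtain ⟨e1, -, n1, g1, i1⟩ := h.step (a := 0) (b := 0) (c := 0) (fun x _ => by simp [pm_apply])
    (by rintro g - _ ⟨x, rfl⟩; exact ⟨0, by simp [lm_apply]⟩)
  replace g1 : ∀ g ∈ U, g e1 = e1 := fun g hg => by simpa [lm_apply] using g1 g hg
  obtain ⟨e2, p2, n2, g2, i2⟩ := h.step (a := e1) (b := 0) (c := 0) (by rintro _ ⟨x, rfl⟩; simp [pm_apply, lm_apply, i1])
    (by rintro g hg _ ⟨x, rfl⟩; exact ⟨x, by simp [lm_apply, g1 g hg]⟩)
  replace g2 : ∀ g ∈ U, ∃ a : F, g e2 = e2 + a • e1 := fun g hg => by simpa [lm_apply] using g2 g hg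
  simp only [pm_apply, Prod.mk_eq_zero] at p2
  obtain ⟨e3, p3, n3, g3, i3⟩ := h.step (a := e1) (b := e2) (c := 0)
    (by rintro _ ⟨x, rfl⟩; simp [pm_apply, lm_apply, i1, i2, p2, h.z' p2.1]) (by
      rintro g hg _ ⟨x, rfl⟩
      obtain ⟨a, e⟩ := g2 g hg
      exact ⟨(x.1 + x.2.1 * a, x.2), by simp only [lm_apply, map_add, map_smul, g1 g hg, e, map_zero]; module⟩)
  replace g3 : ∀ g ∈ U, ∃ b d : F, g e3 = e3 + b • e1 + d • e2 := fun g hg => by simpa [lm_apply, add_assoc] using g3 g hg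
  simp only [pm_apply, Prod.mk_eq_zero] at p3
  have P1 : pm f e1 e2 e3 e1 = 0 := by simp [pm_apply, i1, h.z' p2.1, h.z' p3.1]
  have P2 : pm f e1 e2 e3 e2 = 0 := by simp [pm_apply, i2, p2.1, h.z' p3.2.1]
  have P3 : pm f e1 e2 e3 e3 = 0 := by simp [pm_apply, i3, p3.1, p3.2.1]
  have PM : ∀ x, pm f e1 e2 e3 (lm F e1 e2 e3 x) = 0 := fun x => by simp [lm_apply, P1, P2, P3]
  obtain ⟨u, pu, nu, gu, -⟩ := h.step (a := e1) (b := e2) (c := e3) (by rintro _ ⟨x, rfl⟩; exact PM x) (by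
      rintro g hg _ ⟨x, rfl⟩
      obtain ⟨a, e⟩ := g2 g hg
      obtain ⟨b, d, e'⟩ := g3 g hg
      exact ⟨(x.1 + x.2.1 * a + x.2.2 * b, x.2.1 + x.2.2 * d, x.2.2), by
        simp only [lm_apply, map_add, map_smul, g1 g hg, e, e']; module⟩)
  obtain ⟨y3, a3, b3⟩ := h.sep n3
  obtain ⟨y2, a2, b2⟩ := h.sep n2
  obtain ⟨y1, -, b1⟩ := h.sep n1
  have d3 : pm f e1 e2 e3 y3 = (0, 0, 1) := by
    rw [pm_apply, h.z' (a3 _ ⟨(1, 0, 0), by simp [lm_apply]⟩), h.z' (a3 _ ⟨(0, 1, 0), by simp [lm_apply]⟩), h.sy, b3, map_one]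
  have d2 : pm f e1 e2 e3 (y2 - f y2 e3 • y3) = (0, 1, 0) := by
    rw [map_sub, map_smul, d3, pm_apply, h.z' (a2 _ ⟨(1, 0, 0), by simp [lm_apply]⟩), h.sy, b2]; simp
  generalize y2 - f y2 e3 • y3 = y2 at d2
  have d1 : pm f e1 e2 e3 (y1 - f y1 e2 • y2 - f y1 e3 • y3) = (1, 0, 0) := by
    rw [map_sub, map_sub, map_smul, map_smul, d3, d2, pm_apply, h.sy, b1]; ext <;> simp
  generalize y1 - f y1 e2 • y2 - f y1 e3 • y3 = y1 at d1
  have pp : ∀ v, pm f e1 e2 e3 v = 0 → ∃ (x : F × F × F) (w : F), v = lm F e1 e2 e3 x + w • u := by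
    have k : LinearMap.range ((lm F e1 e2 e3).coprod (LinearMap.toSpanSingleton F V u)) = LinearMap.ker (pm f e1 e2 e3) := by
      refine Submodule.eq_of_le_of_finrank_eq (by rintro _ ⟨x, rfl⟩; simp [PM, pu]) ?_
      have h2 := (pm f e1 e2 e3).finrank_range_add_finrank_ker
      rw [LinearMap.range_eq_top.2 fun x => ⟨lm F y1 y2 y3 x, by simp [lm_apply, d1, d2, d3]⟩] at h2
      rw [LinearMap.finrank_range_of_inj ((injective_iff_map_eq_zero _).2 fun x e => ?_)]
      · simp only [finrank_top, finrank_prod, finrank_self, h.dim] at h2 ⊢; omega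
      simp only [LinearMap.coprod_apply, LinearMap.toSpanSingleton_apply] at e
      have x2 : x.2 = 0 := by_contra fun n => nu ⟨-x.2⁻¹ • x.1, by
        rw [map_smul, eq_neg_of_add_eq_zero_left e, neg_smul_neg, inv_smul_smul₀ n]⟩
      simp only [x2, zero_smul, add_zero, lm_apply, pm_apply, Prod.mk.injEq] at e d1 d2 d3
      have k1 := congrArg (f y1) e
      have k2 := congrArg (f y2) e
      have k3 := congrArg (f y3) e
      simp [d1, d2, d3] at k1 k2 k3
      exact Prod.ext (Prod.ext k1 (Prod.ext k2 k3)) x2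
    intro v hv
    obtain ⟨x, e⟩ := k.ge hv
    exact ⟨x.1, x.2, e.symm⟩
  refine ⟨e1, e2, e3, u, y1, y2, y3, P1, P2, P3, pu, d1, d2, d3, fun e => ?_, pp, g1, g2, g3,
    fun g hg => by simpa [lm_apply, add_assoc] using gu g hg⟩
  obtain ⟨y, a, b⟩ := h.sep nu
  obtain ⟨x, w, rfl⟩ := pp y (by
    rw [pm_apply, h.z' (a _ ⟨(1, 0, 0), by simp [lm_apply]⟩), h.z' (a _ ⟨(0, 1, 0), by simp [lm_apply]⟩),
      h.z' (a _ ⟨(0, 0, 1), by simp [lm_apply]⟩)]; rfl)
  simp only [pm_apply, Prod.mk_eq_zero] at pu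
  simp [lm_apply, pu, e] at b

theorem HS.ln (h : HS q f U) {n : F} (n0 : n ≠ 0) : {c | σ (c * n) = c * n}.ncard ≤ q :=
  (Set.ncard_le_ncard_of_injOn (· * n) (fun _ e => e) fun _ _ _ _ e => mul_right_cancel₀ n0 e).trans h.hk

theorem HS.no (h : HS q f U) : False := by
  haveI : Fact (ringChar F).Prime := ⟨CharP.char_is_prime F _⟩
  obtain ⟨e1, e2, e3, u, y1, y2, y3, p1, p2, p3, pu, d1, d2, d3, nu, pp, g1, g2, g3, gu⟩ := h.fl
  simp only [pm_apply, Prod.mk_eq_zero, Prod.mk.injEq] at p1 p2 p3 pu d1 d2 d3 pp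
  have q1 := And.intro (h.z' pu.1) (And.intro (h.z' pu.2.1) (h.z' pu.2.2))
  have MM : ∀ v w : F × F × F, f (lm F e1 e2 e3 v) (lm F e1 e2 e3 w) = 0 := fun v w => by simp [lm_apply, p1, p2, p3]
  have Mu : ∀ v : F × F × F, f (lm F e1 e2 e3 v) u = 0 := fun v => by simp [lm_apply, q1]
  have uM : ∀ v : F × F × F, f u (lm F e1 e2 e3 v) = 0 := fun v => h.z' (Mu v)
  have inj : ∀ v : F × F × F, lm F e1 e2 e3 v = 0 → v = 0 := fun v e => by
    have k1 := congrArg (f y1) e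
    have k2 := congrArg (f y2) e
    have k3 := congrArg (f y3) e
    simp [d1, d2, d3, lm_apply] at k1 k2 k3
    exact Prod.ext k1 (Prod.ext k2 k3)
  choose a ha using fun g : U => g2 g g.2
  choose b d hb using fun g : U => g3 g g.2
  choose x y z hu using fun g : U => gu g g.2
  replace g1 : ∀ g : U, g.1 e1 = e1 := fun g => g1 g g.2
  have hu' : ∀ g : U, g.1 u = u + lm F e1 e2 e3 (x g, y g, z g) := fun g => by rw [hu, lm_apply, add_assoc, add_assoc, add_assoc]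
  have gM : ∀ (g : U) v, g.1 (lm F e1 e2 e3 v) = lm F e1 e2 e3 (v.1 + a g * v.2.1 + b g * v.2.2, v.2.1 + d g * v.2.2, v.2.2) :=
    fun g v => by simp only [lm_apply, map_add, map_smul, g1, ha, hb]; module
  have tr : ∀ v, ∃ g, (x g, y g, z g) = v := fun v => by
    have k : {w | ∃ g ∈ U, g u = w} = (fun v : F × F × F => u + lm F e1 e2 e3 v) '' Set.univ :=
      Set.eq_of_subset_of_ncard_le (by rintro _ ⟨g, hg, rfl⟩; exact ⟨_, trivial, (hu' ⟨g, hg⟩).symm⟩)
        (Set.ncard_image_le (Set.toFinite _) |>.trans (le_of_eq_of_le (by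
          simp only [Set.ncard_univ, Nat.card_eq_fintype_card, Fintype.card_prod, h.hF]; ring) (h.big u nu)))
    obtain ⟨g, hg, e⟩ := k.ge ⟨v, trivial, rfl⟩
    exact ⟨⟨g, hg⟩, sub_eq_zero.1 (inj _ (by rw [map_sub, sub_eq_zero]; exact add_left_cancel ((hu' ⟨g, hg⟩).symm.trans e)))⟩
  have rr : ∀ t : U, a t = 0 → b t = 0 → d t = 0 → (∀ v, t.1 (lm F e1 e2 e3 v) = lm F e1 e2 e3 v) ∧ ∀ v, ∃ m, t.1 v =
      v + lm F e1 e2 e3 m - (f v (lm F e1 e2 e3 (x t, y t, z t)) / f u u) • u := fun t h1 h2 h3 => by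
    have k : ∀ v, t.1 (lm F e1 e2 e3 v) = lm F e1 e2 e3 v := fun v => by simp [gM, h1, h2, h3]
    refine ⟨k, fun v => ?_⟩
    have k2 : ∀ m, f (t.1 v - v) (lm F e1 e2 e3 m) = 0 := fun m => by
      rw [map_sub, LinearMap.sub_apply, ← h.iso _ t.2 v, k, sub_self]
    obtain ⟨m, w, e⟩ := pp (t.1 v - v) (by
      simpa [lm_apply] using And.intro (k2 (1, 0, 0)) (And.intro (k2 (0, 1, 0)) (k2 (0, 0, 1))))
    have k3 := h.iso _ t.2 v u
    rw [sub_eq_iff_eq_add] at e
    rw [e, hu'] at k3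
    simp only [map_add, map_smul, LinearMap.add_apply, LinearMap.smul_apply, MM, Mu, uM, smul_eq_mul] at k3
    refine ⟨m, ?_⟩
    rw [e, show w = -(f v (lm F e1 e2 e3 (x t, y t, z t)) / f u u) by field_simp; linear_combination k3]
    module
  have ut : PA.UT σ q a b d x y z := by
    have E2 : ∀ g k, (a (g * k) - (a g + a k), (0 : F), (0 : F)) = 0 := fun g k => inj _ (by
      have := ha (g * k)
      rw [Subgroup.coe_mul, LinearEquiv.mul_apply, ha, map_add, map_smul, ha, g1] at this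
      rw [lm_apply]; linear_combination (norm := module) -this)
    have E3 : ∀ g k, (b (g * k) - (b g + b k + a g * d k), d (g * k) - (d g + d k), (0 : F)) = 0 := fun g k => inj _ (by
      have := hb (g * k)
      rw [Subgroup.coe_mul, LinearEquiv.mul_apply, hb, map_add, map_add, map_smul, map_smul, ha, hb, g1] at this
      rw [lm_apply]; linear_combination (norm := module) -this)
    have E4 : ∀ g k, (x (g * k) - (x g + x k + a g * y k + b g * z k), y (g * k) - (y g + y k + d g * z k),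
        z (g * k) - (z g + z k)) = 0 := fun g k => inj _ (by
      have := hu (g * k)
      rw [Subgroup.coe_mul, LinearEquiv.mul_apply, hu, map_add, map_add, map_add, map_smul, map_smul, map_smul, ha, hb, hu,
        g1] at this
      rw [lm_apply]; linear_combination (norm := module) -this)
    simp only [Prod.mk_eq_zero, sub_eq_zero] at E2 E3 E4
    refine ⟨h.hF, h.q2, h.ex, fun g k => (E2 g k).1, fun g k => (E3 g k).2.1, fun g k => (E4 g k).2.2, fun g k => (E3 g k).1,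
      fun g k => (E4 g k).2.1, fun g k => (E4 g k).1, tr, fun g k l h1 h2 h3 k1 k2 k3 e => ?_, fun two g h1 h2 h3 => ?_⟩
    · obtain ⟨r1, r2⟩ := rr g h1 h2 h3
      obtain ⟨s1, s2⟩ := rr k k1 k2 k3
      refine ((h.nt _ ((k * g)⁻¹ * (g * k)).2 (lm F e1 e2 e3 (x g, y g, z g)) ((l - σ l) / f u u) (MM _ _) fun v => ?_).imp
        (inj _) fun e => (sub_eq_zero.1 ((div_eq_zero_iff.1 e).resolve_right nu)).symm).symm
      refine (k * g).1.injective ?_
      rw [← LinearEquiv.mul_apply, ← Subgroup.coe_mul, mul_inv_cancel_left]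
      obtain ⟨m, hm⟩ := r2 v
      obtain ⟨n, hn⟩ := s2 v
      simp only [Subgroup.coe_mul, LinearEquiv.mul_apply, map_add, map_smul, r1, s1]
      rw [hn, hm]
      simp only [map_add, map_sub, map_smul, r1, s1, hu', e]
      rw [hn, hm, e]
      simp only [map_smul, map_smulₛₗ, smul_eq_mul, div_eq_mul_inv]
      module
    · obtain ⟨r1, r2⟩ := rr g h1 h2 h3
      refine (h.nt _ (g * g).2 (lm F e1 e2 e3 (x g, y g, z g)) (-1 / f u u) (MM _ _) fun v => ?_).elim (inj _)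
        fun e => by simp [nu] at e
      obtain ⟨m, hm⟩ := r2 v
      rw [Subgroup.coe_mul, LinearEquiv.mul_apply, hm]
      simp only [map_add, map_sub, map_smul, r1, hu']
      rw [hm, div_eq_mul_inv, div_eq_mul_inv]
      linear_combination (norm := module) two • (lm F e1 e2 e3 m - (f v (lm F e1 e2 e3 (x g, y g, z g)) * (f u u)⁻¹) • u)
  haveI : Finite (V ≃ₗ[F] V) := Finite.of_injective _ DFunLike.coe_injective
  haveI : Nontrivial U := by
    obtain ⟨g, e⟩ := tr (1, 0, 0)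
    exact ⟨g, 1, fun k => by simp [k, ut.one] at e⟩
  obtain ⟨⟨c, cz⟩, c1⟩ := @exists_ne _ h.pg.center_nontrivial 1
  replace cz : ∀ (g : U) v, g.1 (c.1 v) = c.1 (g.1 v) := fun g v =>
    congrArg (fun k : U => k.1 v) (Subgroup.mem_center_iff.1 cz g)
  have tw : ∀ m n, ∃ g : U, g.1 (u + lm F e1 e2 e3 m) = u + lm F e1 e2 e3 n := fun m n => by
    obtain ⟨g, rfl⟩ := tr m
    obtain ⟨k, rfl⟩ := tr n
    exact ⟨k * g⁻¹, by rw [← hu', ← hu']; simp⟩
  have kn : ∀ v w, c.1 v = v → f v (c.1 w - w) = 0 := fun v w e => by rw [map_sub, ← h.iso _ c.2 v w, e, sub_self]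
  obtain ⟨cu, cM⟩ : c.1 u = u ∧ ∀ m, c.1 (lm F e1 e2 e3 m) = lm F e1 e2 e3 m := by
    suffices k : ∃ m, c.1 (u + lm F e1 e2 e3 m) = u + lm F e1 e2 e3 m by
      obtain ⟨m, e⟩ := k
      have k : ∀ n, c.1 (u + lm F e1 e2 e3 n) = u + lm F e1 e2 e3 n := fun n => by
        obtain ⟨g, e'⟩ := tw m n
        rw [← e', ← cz, e]
      have k0 : c.1 u = u := by simpa using k 0
      exact ⟨k0, fun n => by simpa [k0] using k n⟩
    by_cases k : u ∈ LinearMap.range (c.1.toLinearMap - LinearMap.id) ⊔ LinearMap.range (lm F e1 e2 e3)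
    · exfalso
      obtain ⟨_, ⟨x0, rfl⟩, _, ⟨m, rfl⟩, e⟩ := Submodule.mem_sup.1 k
      replace e : c.1 x0 - x0 = u + lm F e1 e2 e3 (-m) := by rw [← e, map_neg, add_neg_cancel_right]; rfl
      obtain ⟨n, hn⟩ : ∃ n, c.1 (u + lm F e1 e2 e3 (-m)) = u + lm F e1 e2 e3 (-m) + lm F e1 e2 e3 n :=
        by
        obtain ⟨n, hn⟩ : ∃ n, c.1 (lm F e1 e2 e3 (-m)) = lm F e1 e2 e3 n := ⟨_, gM c _⟩
        exact ⟨(x c, y c, z c) + n - -m, by rw [map_add, hu', hn, map_sub, map_add]; abel⟩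
      have k : ∀ l : F, σ l * f x0 (lm F e1 e2 e3 n) + l * f u u = 0 := fun l => by
        obtain ⟨g, e'⟩ := tw (-m) (-m + l • n)
        have k2 : c.1 (x0 + l • (u + lm F e1 e2 e3 (-m))) - (x0 + l • (u + lm F e1 e2 e3 (-m))) = u + lm F e1 e2 e3 (-m + l • n) := by
          rw [map_add, map_smul, hn, map_add, map_smul]; linear_combination (norm := module) e
        have k3 := kn (x0 + l • (u + lm F e1 e2 e3 (-m)) - g.1 x0) (g.1 x0) (by
          rw [map_sub, ← cz, sub_eq_iff_eq_add.1 k2, sub_eq_iff_eq_add.1 e, map_add g.1, e']; abel)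
        rw [← cz, ← map_sub, map_sub f, LinearMap.sub_apply, h.iso _ g.2, e, e'] at k3
        simp only [map_add, map_smul, map_smulₛₗ, LinearMap.add_apply, LinearMap.smul_apply, MM, Mu, uM, smul_eq_mul] at k3
        linear_combination k3
      obtain ⟨l, hl⟩ := h.ex
      have k1 := k 1
      rw [map_one] at k1
      exact hl (mul_right_cancel₀ nu (by linear_combination σ l * k1 - k l))
    · obtain ⟨v, h1, h2⟩ := h.sep k
      have h3 : ∀ m, f v (lm F e1 e2 e3 m) = 0 := fun m => h.z' (h1 _ (Submodule.mem_sup_right ⟨m, rfl⟩))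
      have h4 : c.1 v = v := sub_eq_zero.1 (h.nd _ fun w => by
        have := h.z' (h1 _ (Submodule.mem_sup_left ⟨c.1⁻¹ w, rfl⟩))
        rw [map_sub, LinearMap.sub_apply, show f (c.1 v) w = f v (c.1⁻¹ w) by rw [← h.iso _ c.2 v]; simp]
        simp at this
        linear_combination -this)
      obtain ⟨m, w, rfl⟩ := pp v (by
        simpa [lm_apply] using And.intro (h3 (1, 0, 0)) (And.intro (h3 (0, 1, 0)) (h3 (0, 0, 1))))
      have w0 : w ≠ 0 := by rintro rfl; simp [uM] at h2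
      refine ⟨w⁻¹ • m, ?_⟩
      rw [show u + lm F e1 e2 e3 (w⁻¹ • m) = w⁻¹ • (lm F e1 e2 e3 m + w • u) by
        rw [smul_add, inv_smul_smul₀ w0, map_smul, add_comm], map_smul, h4]
  have im : ∀ v, ∃ m, c.1 v = v + lm F e1 e2 e3 m := fun v => by
    have k := fun m => h.z' (kn _ v (cM m))
    obtain ⟨m, w, e⟩ := pp (c.1 v - v) (by
      simpa [lm_apply] using And.intro (k (1, 0, 0)) (And.intro (k (0, 1, 0)) (k (0, 0, 1))))
    have := h.z' (kn _ v cu)
    simp [e, Mu, nu] at this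
    exact ⟨m, by rw [sub_eq_iff_eq_add.1 e, this, zero_smul, add_zero, add_comm]⟩
  obtain ⟨⟨n11, n21, n31⟩, c1'⟩ := im y1
  obtain ⟨⟨n12, n22, n32⟩, c2⟩ := im y2
  obtain ⟨⟨n13, n23, n33⟩, c3⟩ := im y3
  have cv : ∀ v, c.1 v = v + lm F e1 e2 e3 (f v e1 • (n11, n21, n31) + f v e2 • (n12, n22, n32) + f v e3 • (n13, n23, n33)) :=
    fun v => by
    obtain ⟨m, w, e⟩ := pp (v - f v e1 • y1 - f v e2 • y2 - f v e3 • y3) (by simp [d1, d2, d3])
    have := congrArg c.1 e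
    simp only [map_add, map_sub, map_smul, cM, cu, c1', c2, c3] at this ⊢
    linear_combination (norm := module) this - e
  have sk : ∀ v w, f (c.1 v - v) w + f v (c.1 w - w) = 0 := fun v w => by
    have := h.iso _ c.2 v w
    obtain ⟨m, e⟩ := im v
    obtain ⟨n, e'⟩ := im w
    simp only [e, e', map_add, LinearMap.add_apply, MM, add_sub_cancel_left] at this ⊢
    linear_combination this
  have r1 : f e1 y1 = 1 ∧ f e2 y1 = 0 ∧ f e3 y1 = 0 := by simp [h.sy y1, d1]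
  have r2 : f e1 y2 = 0 ∧ f e2 y2 = 1 ∧ f e3 y2 = 0 := by simp [h.sy y2, d2]
  have r3 : f e1 y3 = 0 ∧ f e2 y3 = 0 ∧ f e3 y3 = 1 := by simp [h.sy y3, d3]
  have s12 : n12 = -σ n21 := by have := sk y2 y1; simp [c1', c2, lm_apply, d2, r1] at this; linear_combination this
  have s13 : n13 = -σ n31 := by have := sk y3 y1; simp [c1', c3, lm_apply, d3, r1] at this; linear_combination this
  have s23 : n23 = -σ n32 := by have := sk y3 y2; simp [c2, c3, lm_apply, d3, r2] at this; linear_combination this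
  have iv0 : ∀ (g : U) v, g.1 (g.1⁻¹ v) = v := fun g v => by simp
  have iv : ∀ (g : U) v, f (g.1⁻¹ v) e1 = f v e1 ∧ f (g.1⁻¹ v) e2 = f v e2 + σ (a g) * f v e1 ∧
      f (g.1⁻¹ v) e3 = f v e3 + σ (b g) * f v e1 + σ (d g) * f v e2 := fun g v => by
    simp only [← h.iso _ g.2 (g.1⁻¹ v), g1, ha, hb, iv0, map_add, map_smulₛₗ, smul_eq_mul, and_self]
  have eq : ∀ (g : U) v, (f v e1 • (n11, n21, n31) + f v e2 • (n12, n22, n32) + f v e3 • (n13, n23, n33)) = (fun v : F × F × F =>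
      (v.1 + a g * v.2.1 + b g * v.2.2, v.2.1 + d g * v.2.2, v.2.2)) (f (g.1⁻¹ v) e1 • (n11, n21, n31) +
        f (g.1⁻¹ v) e2 • (n12, n22, n32) + f (g.1⁻¹ v) e3 • (n13, n23, n33)) := fun g v => sub_eq_zero.1 (inj _ (by
    have := cz g (g.1⁻¹ v)
    rw [cv, map_add, gM, iv0, cv, add_right_inj] at this
    rw [map_sub, ← this, sub_self]))
  have f3 := fun g => eq g y3
  have f2 := fun g => eq g y2
  have f1 := fun g => eq g y1
  simp only [iv, d1, d2, d3, Prod.smul_mk, Prod.mk_add_mk, smul_eq_mul, Prod.mk.injEq, mul_one, mul_zero, zero_mul, one_mul,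
    add_zero, zero_add] at f1 f2 f3
  have A0 : (∀ g, a g = 0) → False := fun k => ut.caseA (A := {0}) (by simp; linarith [h.q2]) k
  by_cases z33 : n33 = 0
  swap
  · exact ut.caseD fun g => mul_right_cancel₀ z33 (by linear_combination -(f3 g).2.1)
  by_cases z23 : n23 = 0
  swap
  · exact A0 fun g => mul_right_cancel₀ z23 (by linear_combination -(f3 g).1 - b g * z33)
  have z32 : n32 = 0 := by simpa [z23] using s23
  simp only [z33, z23, z32, mul_zero, add_zero] at f1 f2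
  by_cases z31 : n31 = 0
  · have z13 : n13 = 0 := by simp [s13, z31]
    by_cases z22 : n22 = 0
    swap
    · exact A0 fun g => mul_right_cancel₀ z22 (by linear_combination -(f2 g).1 - σ (d g) * z13)
    by_cases z21 : n21 = 0
    · refine c1 (Subtype.ext (Subtype.ext (LinearEquiv.ext fun v => ?_)))
      have k : ∀ v, c.1 v = v + (n11 * f v e1) • e1 := fun v => by
        rw [cv]; simp [lm_apply, s12, mul_comm, z33, z23, z32, z31, z13, z22, z21]
      rcases h.nt _ c.2 e1 n11 p1.1 k with e | e <;> simp [k, e]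
    · exact ut.caseA (h.ln z21) fun g => by
        have := (f1 g).1
        simp only [z31, z13, z22, s12] at this
        simp only [Set.mem_ofPred_eq, map_mul]; linear_combination this
  · have z13 : n13 ≠ 0 := by simpa [s13]
    have k : ∀ g, a g * n22 + σ (d g) * n13 = 0 := fun g => by linear_combination -(f2 g).1
    by_cases z22 : n22 = 0
    · exact ut.caseD fun g => by simpa [z22, z13] using k g
    refine ut.caseB (h.ln z31) (fun g e => ?_) fun g e => by simpa [e, z13] using k g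
    have e' : a g = 0 := by simpa [e, z22] using k g
    refine ⟨e', ?_⟩
    have := (f1 g).1
    simp only [e', s13, map_zero] at this
    simp only [Set.mem_ofPred_eq, map_mul]; linear_combination this

end PB

universe u

theorem pg : PG.{u} := fun F K _ _ _ _ _ q U fd iso pg big => by_contra fun n =>
  PB.HS.no (f := fd.fl) (U := U) ⟨fd.hF, fd.q2, fd.ex_k, fd.card_k.le, fd.sg_sg, fd.fm_sy, fun _ => fd.fm_nd, fd.hK, iso, pg,
    big, fun t ht e l h1 h2 => by_contra fun k => n ⟨t, ht, e, l, (not_or.1 k).1, (not_or.1 k).2, h1, h2⟩⟩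

end H4.US
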