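import Cfsg.Agent.H4.PG0
import Cfsg.Agent.H4.US3

/-! S5855, chunk PG: frames. -/

set_option autoImplicit false
set_option linter.unusedSectionVars false

open Module

namespace H4.PG

variable {F : Type*} [Field F] [Fintype F] {σ : F →+* F} {q : ℕ} {V : Type*} [AddCommGroup V] [Module F V] [Finite V]

/-- the setting with the vector chunks -/
structure VX (q : ℕ) (f : V →ₗ[F] V →ₛₗ[σ] F) (U : Subgroup (V ≃ₗ[F] V)) (W : Submodule F V) (u : V) : Prop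
    extends VS q f U W u where
  (sc : SC σ U W u) (l1 : L1 U W u) (kl : KL U W) (c5 : C5 f U W u)

/-- an invariant hyperplane of `W` -/
structure Hp (f : V →ₗ[F] V →ₛₗ[σ] F) (U : Subgroup (V ≃ₗ[F] V)) (W : Submodule F V) (u y : V) : Prop where
  (y0 : f u y = 0) (yw : ∃ x ∈ W, f x y ≠ 0) (yi : ∀ g ∈ U, ∀ x ∈ W, f (g x) y = f x y)

/-- the beginning of an invariant flag -/
structure Fl (U : Subgroup (V ≃ₗ[F] V)) (W : Submodule F V) (e1 e2 e3 : V) : Prop where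
  (m1 : e1 ∈ W) (m2 : e2 ∈ W) (m3 : e3 ∈ W) (n1 : e1 ≠ 0) (n2 : ∀ a : F, e2 ≠ a • e1) (n3 : ∀ a b : F, e3 ≠ a • e1 + b • e2)
  (g1 : ∀ g ∈ U, g e1 = e1) (g2 : ∀ g ∈ U, ∃ a : F, g e2 = e2 + a • e1) (g3 : ∀ g ∈ U, ∃ a b : F, g e3 = e3 + a • e1 + b • e2)

/-- the link between vectors and matrices -/
structure Lk (f : V →ₗ[F] V →ₛₗ[σ] F) (U : Subgroup (V ≃ₗ[F] V)) (W : Submodule F V) (u y e1 e2 e3 e4 e5 : V)
    (ρ : U →* Matrix (Fin 7) (Fin 7) F) : Prop where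
  (m1 : e1 ∈ W) (m2 : e2 ∈ W) (m3 : e3 ∈ W) (m4 : e4 ∈ W) (m5 : e5 ∈ W)
  (y1 : f e1 y = 0) (y2 : f e2 y = 0) (y3 : f e3 y = 0) (y4 : f e4 y = 0) (y5 : f e5 y = f u u)
  li : ∀ {a b c d e : F}, a • e1 + b • e2 + c • e3 + d • e4 + e • e5 = 0 → a = 0 ∧ b = 0 ∧ c = 0 ∧ d = 0 ∧ e = 0
  sp : ∀ x ∈ W, ∃ a b c d e : F, x = a • e1 + b • e2 + c • e3 + d • e4 + e • e5
  a0 : ∀ g : U, g.1 e1 = e1
  a1 : ∀ g : U, g.1 e2 = e2 + ρ g 0 1 • e1
  a2 : ∀ g : U, g.1 e3 = e3 + ρ g 0 2 • e1 + ρ g 1 2 • e2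
  a3 : ∀ g : U, g.1 e4 = e4 + ρ g 0 3 • e1 + ρ g 1 3 • e2 + ρ g 2 3 • e3
  a4 : ∀ g : U, g.1 e5 = e5 + ρ g 0 4 • e1 + ρ g 1 4 • e2 + ρ g 2 4 • e3 + ρ g 3 4 • e4
  a5 : ∀ g : U, g.1 u = u + ρ g 0 5 • e1 + ρ g 1 5 • e2 + ρ g 2 5 • e3 + ρ g 3 5 • e4 + ρ g 4 5 • e5
  a6 : ∀ g : U, g.1 y = y + ρ g 0 6 • e1 + ρ g 1 6 • e2 + ρ g 2 6 • e3 + ρ g 3 6 • e4 + ρ g 4 6 • e5 + ρ g 5 6 • u

variable {f : V →ₗ[F] V →ₛₗ[σ] F} {U : Subgroup (V ≃ₗ[F] V)} {W : Submodule F V} {u y e1 e2 e3 e4 e5 : V}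
  {ρ : U →* Matrix (Fin 7) (Fin 7) F}

instance fU : Finite U :=
  haveI : Finite (V ≃ₗ[F] V) := Finite.of_injective _ DFunLike.coe_injective
  inferInstance

theorem HS.z' (h : HS q f U) {x y : V} (e : f x y = 0) : f y x = 0 := by rw [h.sy, e, map_zero]

theorem HS.sep (h : HS q f U) {S : Submodule F V} {w : V} (hw : w ∉ S) : ∃ y, (∀ x ∈ S, f x y = 0) ∧ f w y = 1 := by
  obtain ⟨φ, h1, h2⟩ := Submodule.exists_le_ker_of_notMem hw
  obtain ⟨y, hy⟩ := (Finite.injective_iff_surjective_of_equiv (f := fun y => f.flip y)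
    (finBasis F V).toDualEquiv.toEquiv).1 (fun y y' e => sub_eq_zero.1 (h.nd _ fun x => h.z' (by
      rw [map_sub, sub_eq_zero]; exact LinearMap.congr_fun e x))) ((φ w)⁻¹ • φ)
  exact ⟨y, fun x hx => (LinearMap.congr_fun hy x).trans (by simpa using .inr (h2 hx)),
    (LinearMap.congr_fun hy w).trans (by simp [h1])⟩

theorem HS.fix (h : HS q f U) {S T : Submodule F V} (hS : ∀ g ∈ U, ∀ x ∈ S, g x ∈ S) (hT : ∀ g ∈ U, ∀ x ∈ T, g x ∈ T)
    (n : ¬ T ≤ S) : ∃ v ∈ T, v ∉ S ∧ ∀ g ∈ U, g v - v ∈ S :=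
  haveI : Fact (ringChar F).Prime := ⟨CharP.char_is_prime F _⟩
  H4.US.PB.fix h.pg hS hT n

namespace Lk
variable (k : Lk f U W u y e1 e2 e3 e4 e5 ρ)
include k

theorem ac (g : U) (a b c d e : F) : g.1 (a • e1 + b • e2 + c • e3 + d • e4 + e • e5) = a • e1 + b • e2 + c • e3 + d • e4 + e • e5 +
    ((ρ g 0 1 * b + ρ g 0 2 * c + ρ g 0 3 * d + ρ g 0 4 * e) • e1 + (ρ g 1 2 * c + ρ g 1 3 * d + ρ g 1 4 * e) • e2 +
      (ρ g 2 3 * d + ρ g 2 4 * e) • e3 + (ρ g 3 4 * e) • e4) := by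
  simp only [map_add, map_smul, k.a0, k.a1, k.a2, k.a3, k.a4]; module

theorem fy (a b c d e : F) : f (a • e1 + b • e2 + c • e3 + d • e4 + e • e5) y = e * f u u := by
  simp [k.y1, k.y2, k.y3, k.y4, k.y5]

theorem eb {g : U} {x : F} (hg : Eb ρ g (x * f u u)) (w : V) (hw : w ∈ W) : g.1 w = w + (x * f w y) • e1 := by
  obtain ⟨a, b, c, d, e, rfl⟩ := k.sp w hw
  rw [k.ac, k.fy, hg.h01, hg.h02, hg.h03, hg.h04, hg.h12, hg.h13, hg.h14, hg.h23, hg.h24, hg.h34]; module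

theorem tr {g : U} : Tr ρ g ↔ ∀ x ∈ W, g.1 x = x := by
  refine ⟨fun a w hw => by simpa using k.eb (x := 0) (by simpa using a) w hw, fun a => ?_⟩
  have h1 := k.li (a := ρ g 0 1) (b := 0) (c := 0) (d := 0) (e := 0) (by linear_combination (norm := module) a _ k.m2 - k.a1 g)
  have h2 := k.li (a := ρ g 0 2) (b := ρ g 1 2) (c := 0) (d := 0) (e := 0)
    (by linear_combination (norm := module) a _ k.m3 - k.a2 g)
  have h3 := k.li (a := ρ g 0 3) (b := ρ g 1 3) (c := ρ g 2 3) (d := 0) (e := 0)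
    (by linear_combination (norm := module) a _ k.m4 - k.a3 g)
  have h4 := k.li (a := ρ g 0 4) (b := ρ g 1 4) (c := ρ g 2 4) (d := ρ g 3 4) (e := 0)
    (by linear_combination (norm := module) a _ k.m5 - k.a4 g)
  exact ⟨h1.1, h2.1, h3.1, h4.1, h2.2.1, h3.2.1, h4.2.1, h3.2.2.1, h4.2.2.1, h4.2.2.2.1⟩

theorem cu {g : U} {a b c d e : F} (hg : g.1 u = u + (a • e1 + b • e2 + c • e3 + d • e4 + e • e5)) :
    ρ g 0 5 = a ∧ ρ g 1 5 = b ∧ ρ g 2 5 = c ∧ ρ g 3 5 = d ∧ ρ g 4 5 = e := by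
  simpa only [sub_eq_zero] using k.li (a := ρ g 0 5 - a) (b := ρ g 1 5 - b) (c := ρ g 2 5 - c) (d := ρ g 3 5 - d)
    (e := ρ g 4 5 - e) (by linear_combination (norm := module) hg - k.a5 g)

theorem k0 {g : U} (a : Tr ρ g) (b : g.1 u = u) : K0 ρ g := by
  obtain ⟨h0, h1, h2, h3, h4⟩ := k.cu (g := g) (a := 0) (b := 0) (c := 0) (d := 0) (e := 0) (by simpa using b)
  exact ⟨⟨⟨⟨⟨h4⟩, a.h34, h3⟩, a.h23, a.h24, h2⟩, a.h12, a.h13, a.h14, h1⟩, a.h01, a.h02, a.h03, a.h04, h0⟩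

theorem fx1 (n : ∀ x ∈ W, (∀ g ∈ U, g x = x) → ∃ c : F, x = c • e1) : FX1 ρ := fun b c d e z => by
  obtain ⟨a, ha⟩ := n ((0 : F) • e1 + b • e2 + c • e3 + d • e4 + e • e5) (by
    refine add_mem (add_mem (add_mem (add_mem ?_ ?_) ?_) ?_) ?_ <;> apply W.smul_mem <;> simp [k.m1, k.m2, k.m3, k.m4, k.m5])
    fun g hg => by
      have := k.ac ⟨g, hg⟩ 0 b c d e
      obtain ⟨z1, z2, z3, z4⟩ := z ⟨g, hg⟩
      simpa only [z1, z2, z3, z4, zero_smul, add_zero] using this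
  exact (k.li (a := -a) (by linear_combination (norm := module) ha)).2

theorem fx2 (n : ∀ x ∈ W, (∀ g ∈ U, ∃ a : F, g x = x + a • e1) → ∃ a b : F, x = a • e1 + b • e2) : FX2 ρ := fun c d e z => by
  obtain ⟨a, b, ha⟩ := n ((0 : F) • e1 + (0 : F) • e2 + c • e3 + d • e4 + e • e5) (by
    refine add_mem (add_mem (add_mem (add_mem ?_ ?_) ?_) ?_) ?_ <;> apply W.smul_mem <;> simp [k.m1, k.m2, k.m3, k.m4, k.m5])
    fun g hg => by
      have := k.ac ⟨g, hg⟩ 0 0 c d e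
      obtain ⟨z2, z3, z4⟩ := z ⟨g, hg⟩
      exact ⟨_, by simpa only [z2, z3, z4, zero_smul, add_zero] using this⟩
  exact (k.li (a := -a) (b := -b) (by linear_combination (norm := module) ha)).2.2

theorem md (h : VX q f U W u) (ut : UT ρ) (y0 : f u y = 0) : Md σ q ρ := by
  have w1 := fun x hx => h.ww x hx e1 k.m1
  have w2 := fun x hx => h.ww x hx e2 k.m2
  have w3 := fun x hx => h.ww x hx e3 k.m3
  have w4 := fun x hx => h.ww x hx e4 k.m4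
  have w5 := fun x hx => h.ww x hx e5 k.m5
  have su : σ (f u u) = f u u := (h.sy u u).symm
  have u1 : ∀ g : U, ρ g 5 6 = -σ (ρ g 4 5) := fun g => by
    have := h.iso _ g.2 u y
    rw [k.a5, k.a6] at this
    simp only [map_add, map_smulₛₗ, LinearMap.add_apply, LinearMap.smul_apply, smul_eq_mul, w1, w2, w3, w4, w5, h.wu,
      h.z' (h.wu _ _), k.m1, k.m2, k.m3, k.m4, k.m5, k.y1, k.y2, k.y3, k.y4, k.y5, y0, RingHom.id_apply] at this
    rw [← h.ss (ρ g 5 6), ← map_neg]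
    exact congrArg σ (mul_right_cancel₀ h.nu (by linear_combination this))
  refine ⟨h.toFD, ut, fun a b c d e => ?_, u1, fun g => ?_, fun t s l a b h0 h1 h2 h3 h4 => ?_, fun g a => ?_, fun z g a => ?_,
    ?_, fun fx hb z a => ?_⟩
  · obtain ⟨g, hg, e⟩ := h.tr (a • e1 + b • e2 + c • e3 + d • e4 + e • e5) (by
      refine add_mem (add_mem (add_mem (add_mem ?_ ?_) ?_) ?_) ?_ <;> apply W.smul_mem <;> simp [k.m1, k.m2, k.m3, k.m4, k.m5])
    exact ⟨⟨g, hg⟩, k.cu e⟩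
  · have := h.iso _ g.2 y y
    rw [k.a6, u1] at this
    simp only [map_add, map_smulₛₗ, LinearMap.add_apply, LinearMap.smul_apply, smul_eq_mul, w1, w2, w3, w4, w5, h.wu,
      h.z' (h.wu _ _), k.m1, k.m2, k.m3, k.m4, k.m5, k.y1, k.y2, k.y3, k.y4, k.y5, y0, RingHom.id_apply, h.z' k.y1,
      h.z' k.y2, h.z' k.y3, h.z' k.y4, h.z' y0, h.sy e5 y, su, map_neg, h.ss] at this
    exact mul_right_cancel₀ h.nu (by linear_combination this)
  · refine (h.sc.1 _ t.2 _ s.2 l (k.tr.1 a) (k.tr.1 b) ?_).imp_right (k.k0 a)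
    rw [k.a5, k.a5, h0, h1, h2, h3, h4]; module
  · refine k.tr.2 (h.l1 _ g.2 (fun x hx s hs => ?_) fun s hs => ?_)
    · obtain ⟨a', b, c, d, e, rfl⟩ := k.sp x hx
      simp [k.ac, a.h12, a.h13, a.h14, a.h23, a.h24, a.h34, k.a0 ⟨s, hs⟩]
    · simp [k.a5 g, a.h15, a.h25, a.h35, a.h45, k.a0 ⟨s, hs⟩]
  · have a1 : ∀ s ∈ U, s e2 = e2 := fun s hs => by simpa [z] using k.a1 ⟨s, hs⟩
    refine k.tr.2 (h.l1 _ g.2 (fun x hx s hs => ?_) fun s hs => ?_)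
    · obtain ⟨a', b, c, d, e, rfl⟩ := k.sp x hx
      simp [k.ac, a.h23, a.h24, a.h34, k.a0 ⟨s, hs⟩, a1 s hs]
    · simp [k.a5 g, a.h25, a.h35, a.h45, k.a0 ⟨s, hs⟩, a1 s hs, add_assoc]
  · by_contra n
    have z : ∀ {i j i' j' i'' j'' : Fin 7}, ¬ (nz ρ i j ∧ nz ρ i' j' ∧ nz ρ i'' j'') → ∀ g s t, ρ g i j * ρ s i' j' * ρ t i'' j'' = 0 :=
      fun n g s t => by_contra fun e => n ⟨⟨g, fun z => e (by simp [z])⟩, ⟨s, fun z => e (by simp [z])⟩, t, fun z => e (by simp [z])⟩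
    simp only [NK, not_or] at n
    obtain ⟨g, hg, s, hs, t, ht, x, hx, e⟩ := h.kl
    obtain ⟨a', b, c, d, e', rfl⟩ := k.sp x hx
    apply e
    rw [k.ac ⟨t, ht⟩, add_sub_cancel_left]
    simp only [map_add, map_sub, map_smul, k.a0 ⟨s, hs⟩, k.a1 ⟨s, hs⟩, k.a2 ⟨s, hs⟩, k.a3 ⟨s, hs⟩, k.a0 ⟨g, hg⟩, k.a1 ⟨g, hg⟩,
      k.a2 ⟨g, hg⟩, k.a3 ⟨g, hg⟩]
    linear_combination (norm := module) (d * z n.1 ⟨g, hg⟩ ⟨s, hs⟩ ⟨t, ht⟩ + e' * z n.2.2.1 ⟨g, hg⟩ ⟨s, hs⟩ ⟨t, ht⟩ +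
      e' * z n.2.2.2.1 ⟨g, hg⟩ ⟨s, hs⟩ ⟨t, ht⟩ + e' * z n.2.2.2.2 ⟨g, hg⟩ ⟨s, hs⟩ ⟨t, ht⟩) • e1 +
      (e' * z n.2.1 ⟨g, hg⟩ ⟨s, hs⟩ ⟨t, ht⟩) • e2
  · have := h.c5 e1 k.m1 y (fun e => one_ne_zero (k.li (a := 1) (b := 0) (c := 0) (d := 0) (e := 0) (by simp [e])).1) k.y1
      (fun g hg => k.a0 ⟨g, hg⟩) (fun x hx hf => by
        obtain ⟨a', b, c, d, e, rfl⟩ := k.sp x hx
        obtain ⟨rfl, rfl, rfl, rfl⟩ := fx b c d e fun g => by
          have := k.li (e := 0) ((congrArg₂ (· + ·) (add_eq_left.1 ((k.ac g a' b c d e).symm.trans (hf _ g.2)))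
            (zero_smul F e5)).trans (add_zero 0))
          exact ⟨this.1, this.2.1, this.2.2.1, this.2.2.2.1⟩
        exact ⟨a', by simp⟩) (fun c => let ⟨b, e⟩ := hb (c * f u u); ⟨b, b.2, k.eb e⟩) _ z.2
      (k.tr.1 ⟨a.h01, a.h02, a.h03, a.h04, a.h12, a.h13, a.h14, a.h23, a.h24, a.h34⟩)
      (by simp [k.a5, a.h05, a.h15, a.h25, a.h35, a.h45])
    have e := k.a6 z
    rw [u1, a.h45, map_zero] at e
    exact k.li (by linear_combination (norm := module) this - e)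
end Lk

theorem VX.fr (h : VX q f U W u) (hp : Hp f U W u y) (fl : Fl U W e1 e2 e3) (y1 : f e1 y = 0) (y2 : f e2 y = 0)
    (y3 : f e3 y = 0) : ∃ e4 e5 ρ, Md σ q ρ ∧ Lk f U W u y e1 e2 e3 e4 e5 ρ := by
  let T : Submodule F V := W ⊓ LinearMap.ker (f.flip y)
  have mT : ∀ x, x ∈ T ↔ x ∈ W ∧ f x y = 0 := fun _ => Iff.rfl
  obtain ⟨x, xW, x0⟩ := hp.yw
  have dT : finrank F T = 4 := by
    have := ((f.flip y).domRestrict W).finrank_range_add_finrank_ker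
    rw [LinearMap.range_eq_top.2 fun c => ⟨(c / f x y) • ⟨x, xW⟩, by simp [x0]⟩, finrank_top, finrank_self, h.dw,
      LinearMap.ker_domRestrict, ← Submodule.finrank_map_subtype_eq, Submodule.map_comap_subtype] at this
    exact Nat.add_left_cancel (n := 1) this
  obtain ⟨e4, ⟨m4, y4⟩, n4, g4⟩ := h.fix (S := Submodule.span F {e1, e2, e3}) (T := T) (fun g hg v hv => by
      obtain ⟨a, b, c, rfl⟩ := Submodule.mem_span_triple.1 hv
      obtain ⟨a', e⟩ := fl.g2 g hg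
      obtain ⟨b', c', e'⟩ := fl.g3 g hg
      exact Submodule.mem_span_triple.2 ⟨a + b * a' + c * b', b + c * c', c, by
        simp only [map_add, map_smul, fl.g1 g hg, e, e']; module⟩)
    (fun g hg v hv => ⟨h.iw g hg v hv.1, (hp.yi g hg v hv.1).trans hv.2⟩) fun e => by
      classical
      have := ((Submodule.finrank_mono e).trans (finrank_span_le_card ({e1, e2, e3} : Set V))).trans
        (by simpa only [Set.toFinset_insert, Set.toFinset_singleton] using Finset.card_le_three : _ ≤ 3)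
      omega
  replace y4 : f e4 y = 0 := y4
  replace m4 : e4 ∈ W := m4
  simp only [Submodule.mem_span_triple] at n4 g4
  have l4 : ∀ {a b c d : F}, a • e1 + b • e2 + c • e3 + d • e4 = 0 → a = 0 ∧ b = 0 ∧ c = 0 ∧ d = 0 := fun {a b c d} e => by
    obtain rfl : d = 0 := by_contra fun n => n4 ⟨-a / d, -b / d, -c / d, by
      rw [← smul_right_inj n]; linear_combination (norm := (match_scalars <;> field_simp <;> ring)) -e⟩
    obtain rfl : c = 0 := by_contra fun n => fl.n3 (-a / c) (-b / c) (by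
      rw [← smul_right_inj n]; linear_combination (norm := (match_scalars <;> field_simp <;> ring)) e)
    obtain rfl : b = 0 := by_contra fun n => fl.n2 (-a / b) (by
      rw [← smul_right_inj n]; linear_combination (norm := (match_scalars <;> field_simp <;> ring)) e)
    simpa [fl.n1] using e
  have s4 : ∀ v ∈ W, f v y = 0 → ∃ a b c d : F, v = a • e1 + b • e2 + c • e3 + d • e4 := fun v h1 h2 => by
    have k : LinearMap.range (Fintype.linearCombination F ![e1, e2, e3, e4]) = T := by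
      refine Submodule.eq_of_le_of_finrank_eq ?_ ?_
      · rintro _ ⟨c, rfl⟩
        simp only [Fintype.linearCombination_apply, Fin.sum_univ_four]
        refine add_mem (add_mem (add_mem ?_ ?_) ?_) ?_ <;> apply T.smul_mem <;> simp [mT, fl.m1, fl.m2, fl.m3, m4, y1, y2, y3, y4]
      · rw [LinearMap.finrank_range_of_inj ((injective_iff_map_eq_zero _).2 fun c e => ?_), dT, finrank_fin_fun]
        have := l4 (by simpa [Fintype.linearCombination_apply, Fin.sum_univ_four] using e)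
        ext i; fin_cases i <;> simp [this]
    obtain ⟨c, e⟩ := k.ge ((mT v).2 ⟨h1, h2⟩)
    exact ⟨c 0, c 1, c 2, c 3, by simpa [Fintype.linearCombination_apply, Fin.sum_univ_four] using e.symm⟩
  obtain ⟨e5, m5, y5⟩ : ∃ e5 ∈ W, f e5 y = f u u := ⟨(f u u / f x y) • x, W.smul_mem _ xW, by simp [x0]⟩
  have li : ∀ {a b c d e : F}, a • e1 + b • e2 + c • e3 + d • e4 + e • e5 = 0 → a = 0 ∧ b = 0 ∧ c = 0 ∧ d = 0 ∧ e = 0 :=
    fun {a b c d e} z => by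
      obtain rfl : e = 0 := by simpa [y1, y2, y3, y4, y5, h.nu] using congrArg (f · y) z
      simpa only [and_true] using l4 (by simpa using z)
  have sp : ∀ x ∈ W, ∃ a b c d e : F, x = a • e1 + b • e2 + c • e3 + d • e4 + e • e5 := fun v hv => by
    obtain ⟨a, b, c, d, e⟩ := s4 (v - (f v y / f u u) • e5) (sub_mem hv (W.smul_mem _ m5)) (by simp [y5, h.nu])
    exact ⟨a, b, c, d, _, sub_eq_iff_eq_add.1 e⟩
  let B : Fin 7 → V := ![e1, e2, e3, e4, e5, u, y]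
  have uq : ∀ c d : Fin 7 → F, ∑ i, c i • B i = ∑ i, d i • B i → c = d := fun c d e => by
    replace e : ∑ i, (c - d) i • B i = 0 := by simp only [Pi.sub_apply, sub_smul, Finset.sum_sub_distrib, e, sub_self]
    rw [← sub_eq_zero]
    generalize c - d = c at e
    simp only [Fin.sum_univ_seven, B, Matrix.cons_val] at e
    have c6 : c 6 = 0 := by
      simpa [h.ww _ _ _ m5, fl.m1, fl.m2, fl.m3, m4, m5, h.z' (h.wu _ m5), h.sy e5 y, y5, h.nu] using congrArg (f · e5) e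
    have c5 : c 5 = 0 := by simpa [h.wu, fl.m1, fl.m2, fl.m3, m4, m5, c6, h.nu] using congrArg (f · u) e
    have := li (by simpa only [c5, c6, zero_smul, add_zero] using e)
    ext i; fin_cases i <;> simp [this, c5, c6]
  have ex : ∀ (g : U) (j : Fin 7), ∃ c : Fin 7 → F, (∀ i, j < i → c i = 0) ∧ c j = 1 ∧ g.1 (B j) = ∑ i, c i • B i := fun g j => by
    simp only [Fin.sum_univ_seven, B, Matrix.cons_val]
    fin_cases j
    · exact ⟨![1, 0, 0, 0, 0, 0, 0], fun i => by fin_cases i <;> simp, rfl, by simp [fl.g1 _ g.2]⟩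
    · obtain ⟨a, e⟩ := fl.g2 _ g.2
      exact ⟨![a, 1, 0, 0, 0, 0, 0], fun i => by fin_cases i <;> simp, rfl, by simp [e, add_comm]⟩
    · obtain ⟨a, b, e⟩ := fl.g3 _ g.2
      exact ⟨![a, b, 1, 0, 0, 0, 0], fun i => by fin_cases i <;> simp, rfl, by simp [e]; module⟩
    · obtain ⟨a, b, c, e⟩ := g4 _ g.2
      exact ⟨![a, b, c, 1, 0, 0, 0], fun i => by fin_cases i <;> simp, rfl, by simp [e]⟩
    · obtain ⟨a, b, c, d, e⟩ := s4 (g.1 e5 - e5) (sub_mem (h.iw _ g.2 _ m5) m5) (by simp [hp.yi _ g.2 _ m5])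
      exact ⟨![a, b, c, d, 1, 0, 0], fun i => by fin_cases i <;> simp, rfl, by simp [← e]⟩
    · obtain ⟨a, b, c, d, e', e⟩ := sp _ (h.gu _ g.2)
      exact ⟨![a, b, c, d, e', 1, 0], fun i => by fin_cases i <;> simp, rfl, by simp [← e]⟩
    · obtain ⟨w, hw, t, e⟩ := h.pp (g.1 y - y) fun v hv => by
        rw [map_sub, ← hp.yi _ (inv_mem g.2) v hv, ← h.iso _ g.2 (g.1⁻¹ v) y]; simp
      obtain ⟨a, b, c, d, e', rfl⟩ := sp w hw
      exact ⟨![a, b, c, d, e', t, 1], fun i => by fin_cases i <;> simp, rfl, by simp [← e]⟩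
  choose r lo di hr using ex
  let ρ : U →* Matrix (Fin 7) (Fin 7) F :=
    { toFun g := Matrix.of fun i j => r g j i
      map_one' := Matrix.ext fun i j => congrFun (uq (r 1 j) (fun i => (1 : Matrix _ _ F) i j) (by
        rw [← hr]; simp [Matrix.one_apply])) i
      map_mul' g k := Matrix.ext fun i j => congrFun (uq (r (g * k) j) (fun i => ∑ m, r g m i * r k j m) (by
        rw [← hr, Subgroup.coe_mul, LinearEquiv.mul_apply, hr, map_sum]
        simp only [map_smul, hr, Finset.smul_sum, Finset.sum_smul, smul_smul, mul_comm (r k j _)]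
        exact Finset.sum_comm)) i }
  have ut : UT ρ := ⟨fun g i j e => lo g j i e, di⟩
  have a : ∀ g j, g.1 (B j) = ρ g 0 j • e1 + ρ g 1 j • e2 + ρ g 2 j • e3 + ρ g 3 j • e4 + ρ g 4 j • e5 + ρ g 5 j • u + ρ g 6 j • y :=
    fun g j => by rw [hr, Fin.sum_univ_seven]; rfl
  have k : Lk f U W u y e1 e2 e3 e4 e5 ρ := by
    refine ⟨fl.m1, fl.m2, fl.m3, m4, m5, y1, y2, y3, y4, y5, li, sp, fun g => fl.g1 _ g.2, fun g => (a g 1).trans ?_,
      fun g => (a g 2).trans ?_, fun g => (a g 3).trans ?_, fun g => (a g 4).trans ?_, fun g => (a g 5).trans ?_,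
      fun g => (a g 6).trans ?_⟩ <;> simp only [ut.z g] <;> module
  exact ⟨e4, e5, ρ, k.md h ut hp.y0, k⟩

end H4.PG
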