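import Cfsg.Agent.H4.PG1

/-! S5855, chunk PG: the case division. -/

set_option autoImplicit false
set_option linter.unusedSectionVars false

open Module

namespace H4.PG

variable {F : Type*} [Field F] [Fintype F] {σ : F →+* F} {q : ℕ} {V : Type*} [AddCommGroup V] [Module F V] [Finite V]

/-- all coordinate chunks -/
structure CH (σ : F →+* F) (q : ℕ) {G : Type*} [Group G] [Finite G] (ρ : G →* Matrix (Fin 7) (Fin 7) F) : Prop where
  (la : LA ρ) (s1 : S1 ρ) (s2 : S2 ρ) (th : TH σ ρ) (c2 : C2 σ ρ) (c1 : C1 σ ρ) (pb : P3B q ρ) (pa : P3A q ρ)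
  (pn : P3N ρ q) (pc : P3C ρ q)

variable {f : V →ₗ[F] V →ₛₗ[σ] F} {U : Subgroup (V ≃ₗ[F] V)} {W : Submodule F V} {u y e1 e2 e3 e4 e5 : V}
  {ρ : U →* Matrix (Fin 7) (Fin 7) F}

/-- the orthogonal complement -/
def pe (f : V →ₗ[F] V →ₛₗ[σ] F) (S : Submodule F V) : Submodule F V where
  carrier := {v | ∀ x ∈ S, f v x = 0}
  zero_mem' := by simp
  add_mem' := fun a b x hx => by simp [a x hx, b x hx]
  smul_mem' := fun c v a x hx => by simp [a x hx]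

namespace Lk
variable (k : Lk f U W u y e1 e2 e3 e4 e5 ρ)
include k

theorem c1 {g : U} {a : F} (e : g.1 e2 = e2 + a • e1) : ρ g 0 1 = a := sub_eq_zero.1
  (k.li (b := 0) (c := 0) (d := 0) (e := 0) (by linear_combination (norm := module) e - k.a1 g)).1

theorem c2 {g : U} {a b : F} (e : g.1 e3 = e3 + a • e1 + b • e2) : ρ g 0 2 = a ∧ ρ g 1 2 = b := by
  have := k.li (a := ρ g 0 2 - a) (b := ρ g 1 2 - b) (c := 0) (d := 0) (e := 0) (by linear_combination (norm := module) e - k.a2 g)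
  exact ⟨sub_eq_zero.1 this.1, sub_eq_zero.1 this.2.1⟩

theorem al (g : U) : f (g.1 u - u) y = ρ g 4 5 * f u u := by rw [← k.fy, k.a5]; congr 2; module

theorem ps (y0 : f u y = 0) (g : U) : f (g.1 y - y) y = ρ g 4 6 * f u u := by
  rw [k.a6]; simp [k.y1, k.y2, k.y3, k.y4, k.y5, y0]
end Lk

namespace VX
variable (h : VX q f U W u)
include h

theorem pi {S : Submodule F V} (hS : ∀ g ∈ U, ∀ x ∈ S, g x ∈ S) : ∀ g ∈ U, ∀ x ∈ pe f S, g x ∈ pe f S := fun g hg v hv x hx => by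
  rw [← hv _ (hS _ (inv_mem hg) x hx), ← h.iso g hg v]; simp

omit h in
theorem ns {T : Submodule F V} (hT : 4 ≤ finrank F T) (a b c : V) : ¬ T ≤ Submodule.span F {a, b, c} := fun e => by
  classical
  have := ((Submodule.finrank_mono e).trans (finrank_span_le_card ({a, b, c} : Set V))).trans
    (by simpa only [Set.toFinset_insert, Set.toFinset_singleton] using Finset.card_le_three : _ ≤ 3)
  omega

theorem ex1 {T : Submodule F V} (hT : 4 ≤ finrank F T) (iT : ∀ g ∈ U, ∀ x ∈ T, g x ∈ T) (g1 : ∀ g ∈ U, g e1 = e1)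
    (g2 : ∀ g ∈ U, ∃ a : F, g e2 = e2 + a • e1) : ∃ e3 ∈ T, (∀ a b : F, e3 ≠ a • e1 + b • e2) ∧
      ∀ g ∈ U, ∃ a b : F, g e3 = e3 + a • e1 + b • e2 := by
  obtain ⟨v, h1, h2, h3⟩ := h.fix (S := Submodule.span F {e1, e2}) (T := T) (fun g hg v hv => by
      obtain ⟨a, b, rfl⟩ := Submodule.mem_span_pair.1 hv
      obtain ⟨a', e⟩ := g2 g hg
      exact Submodule.mem_span_pair.2 ⟨a + b * a', b, by simp only [map_add, map_smul, g1 g hg, e]; module⟩) iT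
    fun e => ns hT e1 e2 e2 (by simpa using e)
  simp only [Submodule.mem_span_pair] at h2 h3
  exact ⟨v, h1, fun a b e => h2 ⟨a, b, e.symm⟩, fun g hg => let ⟨a, b, e⟩ := h3 g hg
    ⟨a, b, by linear_combination (norm := module) -e⟩⟩

theorem fr0 (fl : Fl U W e1 e2 e3) : ∃ y e4 e5 ρ, Md σ q ρ ∧ Lk f U W u y e1 e2 e3 e4 e5 ρ := by
  obtain ⟨w, hw, n⟩ := SetLike.not_le_iff_exists.1 (ns (h.dw.symm ▸ by norm_num : 4 ≤ finrank F W) e1 e2 e3)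
  obtain ⟨z, z1, z2⟩ := h.sep n
  obtain ⟨v, v1, v2, v3⟩ := h.fix (h.pi h.iw) (h.pi (S := Submodule.span F {e1, e2, e3}) fun g hg v hv => by
      obtain ⟨a, b, c, rfl⟩ := Submodule.mem_span_triple.1 hv
      obtain ⟨a', e⟩ := fl.g2 g hg
      obtain ⟨b', c', e'⟩ := fl.g3 g hg
      exact Submodule.mem_span_triple.2 ⟨a + b * a' + c * b', b + c * c', c, by
        simp only [map_add, map_smul, fl.g1 g hg, e, e']; module⟩)
    fun e => one_ne_zero (z2.symm.trans (h.z' (e (fun x hx => h.z' (z1 x hx)) w hw)))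
  have k : ∀ x ∈ W, f x (v - (f v u / f u u) • u) = f x v := fun x hx => by simp [h.wu x hx]
  obtain ⟨e4, e5, ρ, a⟩ := h.fr (y := v - (f v u / f u u) • u) ⟨h.z' (by simp [h.nu]), by
      by_contra! n
      exact v2 fun x hx => h.z' (k x hx ▸ n x hx), fun g hg x hx => by
      have := h.z' (v3 _ (inv_mem hg) x hx)
      rw [k _ (h.iw g hg x hx), k x hx, ← h.iso _ (inv_mem hg)]
      simp only [map_sub, LinearEquiv.coe_inv] at this ⊢
      simp only [LinearEquiv.symm_apply_apply]; linear_combination this⟩ fl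
    (by rw [k _ fl.m1]; exact h.z' (v1 _ (Submodule.subset_span (by simp))))
    (by rw [k _ fl.m2]; exact h.z' (v1 _ (Submodule.subset_span (by simp))))
    (by rw [k _ fl.m3]; exact h.z' (v1 _ (Submodule.subset_span (by simp))))
  exact ⟨_, e4, e5, ρ, a⟩

variable (ch : ∀ ρ : U →* Matrix (Fin 7) (Fin 7) F, Md σ q ρ → CH σ q ρ)
include ch

section
variable (t0 : ∀ t ∈ U, (∀ x ∈ W, t x = x) → t u = u)
include t0

theorem caseB (m1 : e1 ∈ W) (m2 : e2 ∈ W) (n1 : e1 ≠ 0) (n2 : ∀ a : F, e2 ≠ a • e1) (g1 : ∀ g ∈ U, g e1 = e1)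
    (g2 : ∀ g ∈ U, g e2 = e2) : False := by
  have key : ∀ {e1 e2 e3 : V}, Fl U W e1 e2 e3 → (∀ g ∈ U, g e2 = e2) →
      (∃ g ∈ U, g e3 ≠ e3) ∧ ∀ g ∈ U, ∃ a : F, g e3 = e3 + a • e1 := fun {e1 e2 e3} fl g2 => by
    obtain ⟨y, e4, e5, ρ, m, k⟩ := h.fr0 fl
    have z : ∀ g, ρ g 0 1 = 0 := fun g => k.c1 (by simp [g2 _ g.2])
    have nk := m.nk
    simp only [NK, nz, z, ne_eq, not_true, exists_false, false_and, false_or] at nk
    have z2 : ∀ g, ρ g 1 2 = 0 := fun g => by_contra fun n => (ch ρ m).la (fun a b c e => by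
      obtain ⟨⟨s, hs⟩, t, ht⟩ := nk.elim (·.2) (·.2)
      obtain rfl : c = 0 := by simpa [ht] using (e t).2.2
      obtain rfl : b = 0 := by simpa [hs] using (e s).2.1
      simpa [n] using (e g).1) fun s a => k.k0 (m.k2 z s a) (t0 _ s.2 (k.tr.1 (m.k2 z s a)))
    obtain ⟨⟨g, hg⟩, -⟩ := nk.resolve_left (by simp [z2])
    exact ⟨⟨g, g.2, fun e : g.1 e3 = e3 => hg (k.c2 (b := 0) (by simp [e])).1⟩, fun g hg => ⟨_, by simpa [z2] using k.a2 ⟨g, hg⟩⟩⟩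
  obtain ⟨e3, m3, n3, g3⟩ := h.ex1 (e2 := e2) (h.dw.symm ▸ by norm_num : 4 ≤ finrank F W) h.iw g1 fun g hg => ⟨0, by simp [g2 g hg]⟩
  obtain ⟨⟨g, hg, n⟩, k1⟩ := key ⟨m1, m2, m3, n1, n2, n3, g1, fun g hg => ⟨0, by simp [g2 g hg]⟩, g3⟩ g2
  obtain ⟨a, e⟩ := k1 g hg
  obtain ⟨b, e'⟩ := (key ⟨m2, m1, m3, by simpa using n2 0, fun a e => n2 a⁻¹ (by
    rw [e, inv_smul_smul₀ (by rintro rfl; simp [n1] at e)]), fun a b => add_comm (a • e2) _ ▸ n3 b a, g2,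
    fun g hg => ⟨0, by simp [g1 g hg]⟩, fun g hg => let ⟨a, b, e⟩ := g3 g hg; ⟨b, a, by rw [e, add_right_comm]⟩⟩ g1).2 g hg
  have b0 : b ≠ 0 := by rintro rfl; simp [n] at e'
  exact n2 (b⁻¹ * a) (by rw [mul_smul, ← add_left_cancel (e'.symm.trans e), inv_smul_smul₀ b0])

theorem caseN (m1 : e1 ∈ W) (n1 : e1 ≠ 0) (g1 : ∀ g ∈ U, g e1 = e1)
    (fx : ∀ x ∈ W, (∀ g ∈ U, g x = x) → ∃ c : F, x = c • e1) {b : V ≃ₗ[F] V} (hb : b ∈ U) {w : V} (bu : b u = u + w)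
    (b1 : ∀ v ∈ W, ∃ a : F, b v = v + a • e1) (bw : b w = w) (n2 : ∀ a : F, w ≠ a • e1)
    (g2 : ∀ g ∈ U, ∃ a : F, g w = w + a • e1) : False := by
  have mw : w ∈ W := by simpa [bu] using h.gu b hb
  have cm : ∀ g ∈ U, (∀ v ∈ W, b (g v) = g (b v)) ∧ b (g u) = g (b u) := fun g hg => by
    have hc : (g * b)⁻¹ * (b * g) ∈ U := mul_mem (inv_mem (mul_mem hg hb)) (mul_mem hb hg)
    have k : ∀ v, ∀ a : F, b (g v) = g (b v) + a • e1 → ((g * b)⁻¹ * (b * g)) v = v + a • e1 := fun v a e =>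
      (g * b).injective (by rw [← LinearEquiv.mul_apply, mul_inv_cancel_left]; simp [e, g1 g hg, g1 b hb])
    have k' : ∀ v, ((g * b)⁻¹ * (b * g)) v = v → b (g v) = g (b v) := fun v e => by
      have := congrArg (g * b) e
      rwa [← LinearEquiv.mul_apply, mul_inv_cancel_left] at this
    have tw := h.l1 _ hc (fun v hv s hs => by
      obtain ⟨a, e⟩ := b1 _ (h.iw g hg v hv)
      obtain ⟨a', e'⟩ := b1 v hv
      rw [k v (a - a') (by rw [e, e', map_add, map_smul, g1 g hg]; module)]; simp [g1 s hs]) fun s hs => by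
      obtain ⟨a, e⟩ := b1 _ (h.gu g hg)
      obtain ⟨a', e'⟩ := g2 g hg
      rw [map_sub, bu] at e
      rw [k u (a - a') (by rw [bu, map_add, e']; linear_combination (norm := module) e)]; simp [g1 s hs]
    exact ⟨fun v hv => k' v (tw v hv), k' u (t0 _ hc tw)⟩
  obtain ⟨y, y0, hy⟩ : ∃ y, f u y = 0 ∧ ∀ v ∈ W, b v = v + (f v y / f u u) • e1 := by
    obtain ⟨x, hx, n⟩ : ∃ x ∈ W, b x ≠ x := by
      by_contra! n
      exact n2 0 (by simpa [bu] using t0 b hb n)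
    obtain ⟨a, e⟩ := b1 x hx
    have a0 : a ≠ 0 := by rintro rfl; simp [n] at e
    obtain ⟨z, z1, z2⟩ := h.sep (S := W ⊓ LinearMap.ker (b.toLinearMap - LinearMap.id) ⊔ Submodule.span F {u}) (w := x) fun k => by
      obtain ⟨s, ⟨s1, s2⟩, _, k', rfl⟩ := Submodule.mem_sup.1 k
      obtain ⟨c, rfl⟩ := Submodule.mem_span_singleton.1 k'
      obtain rfl : c = 0 := by simpa [h.wu s s1, h.nu] using h.wu _ hx
      exact n (by simpa [sub_eq_zero] using s2)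
    refine ⟨σ (a * f u u) • z, by simp [z1 u (Submodule.mem_sup_right (Submodule.mem_span_singleton_self u))], fun v hv => ?_⟩
    obtain ⟨c, e'⟩ := b1 v hv
    have := z1 (v - (c / a) • x) (Submodule.mem_sup_left ⟨sub_mem hv (W.smul_mem _ hx), by
      simp only [SetLike.mem_coe, LinearMap.mem_ker, LinearMap.sub_apply, LinearEquiv.coe_coe, map_sub, map_smul, e, e',
        LinearMap.id_apply]
      match_scalars <;> field_simp <;> ring⟩)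
    simp only [map_sub, map_smul, LinearMap.sub_apply, LinearMap.smul_apply, z2, smul_eq_mul, sub_eq_zero] at this
    rw [e', map_smulₛₗ, h.ss, this, smul_eq_mul]
    have := h.nu
    congr 2; field_simp
  have z : ∀ v ∈ W, b v = v → f v y = 0 := fun v hv e => by simpa [e, n1, h.nu] using hy v hv
  have hp : Hp f U W u y := ⟨y0, by
    by_contra! n
    exact n2 0 (by simpa [bu] using t0 b hb fun v hv => by simp [hy v hv, n v hv]), fun g hg v hv => by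
    have := (cm g hg).1 v hv
    rw [hy _ (h.iw g hg v hv), hy v hv, map_add, map_smul, g1 g hg, add_right_inj] at this
    exact (div_left_inj' h.nu).1 (smul_left_injective F n1 this)⟩
  have E : ∀ {e3 e4 e5 ρ}, Lk f U W u y e1 w e3 e4 e5 ρ → T0 ρ ∧ E1 ρ ∧ FX1 ρ := fun k =>
    ⟨fun t a => k.k0 a (t0 _ t.2 (k.tr.1 a)), fun g => k.c1 (by
      have e := hy _ (h.gu _ g.2)
      rw [k.al, map_sub, (cm _ g.2).2, bu, map_add, mul_div_cancel_right₀ _ h.nu] at e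
      linear_combination (norm := module) e), k.fx1 fx⟩
  have y1 := z _ m1 (g1 b hb)
  have y2 := z _ mw bw
  obtain ⟨x, xW, x0⟩ := hp.yw
  obtain ⟨e3, ⟨m3, y3⟩, n3, g3⟩ := h.ex1 (T := W ⊓ LinearMap.ker (f.flip y)) (by
    have := ((f.flip y).domRestrict W).finrank_range_add_finrank_ker
    rw [LinearMap.range_eq_top.2 fun c => ⟨(c / f x y) • ⟨x, xW⟩, by simp [x0]⟩, finrank_top, finrank_self, h.dw,
      LinearMap.ker_domRestrict, ← Submodule.finrank_map_subtype_eq, Submodule.map_comap_subtype] at this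
    exact (Nat.add_left_cancel (n := 1) this).ge) (fun g hg v hv => ⟨h.iw g hg v hv.1, (hp.yi g hg v hv.1).trans hv.2⟩) g1 g2
  obtain ⟨e4, e5, ρ, m, k⟩ := h.fr hp ⟨m1, mw, m3, n1, n2, n3, g1, g2, g3⟩ y1 y2 y3
  obtain ⟨T, e1', fx'⟩ := E k
  obtain ⟨a, c, d, s, th⟩ := (ch ρ m).th T e1' fx' ((ch ρ m).s2 T e1' fx')
  have gθ : ∀ g : U, g.1 ((0 : F) • e1 + a • w + c • e3 + d • e4 + (0 : F) • e5) = (0 : F) • e1 + a • w + c • e3 + d • e4 + (0 : F) • e5 +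
      (ρ g 4 6 - s * σ (ρ g 4 5)) • e1 + -σ (ρ g 4 5) • w := fun g => by
    rw [k.ac, ← (th g).2.1, ← (th g).2.2, mul_zero, mul_zero, mul_zero, mul_zero, (th g).1]; module
  obtain ⟨e4', e5', ρ', m', k'⟩ := h.fr hp ⟨m1, mw, by
    refine add_mem (add_mem (add_mem (add_mem ?_ ?_) ?_) ?_) ?_ <;> apply W.smul_mem <;> simp [k.m1, k.m2, k.m3, k.m4, k.m5],
    n1, n2, fun a' b' e => by
      obtain ⟨-, -, rfl, rfl, -⟩ := k.li (a := -a') (b := a - b') (c := c) (d := d) (e := 0)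
        (by linear_combination (norm := module) e)
      obtain ⟨g, -, -, -, -, e⟩ := m.tr 0 0 0 0 1
      simpa [e] using (th g).2.1, g1, g2, fun g hg => ⟨_, _, gθ ⟨g, hg⟩⟩⟩ y1 y2 (by rw [k.fy, zero_mul])
  obtain ⟨T', e1'', fx''⟩ := E k'
  have ea : ∀ g, ρ g 4 5 = ρ' g 4 5 := fun g => mul_right_cancel₀ h.nu ((k.al g).symm.trans (k'.al g))
  have ep : ∀ g, ρ g 4 6 = ρ' g 4 6 := fun g => mul_right_cancel₀ h.nu ((k.ps y0 g).symm.trans (k'.ps y0 g))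
  have e2' : E2 σ ρ' := ⟨e1'', fun g => ea g ▸ (k'.c2 (gθ g)).2, s, fun g => ea g ▸ ep g ▸ (k'.c2 (gθ g)).1⟩
  obtain ⟨r, r1, r2, r3⟩ := (ch ρ' m').c2 T' e2'
  exact r3 ((ch ρ' m').c1 T' e2' fx'' r r1 r2)

theorem caseZ : False := by
  obtain ⟨e1, m1, n1, g1⟩ := h.ex1 (e1 := 0) (e2 := 0) (h.dw.symm ▸ by norm_num : 4 ≤ finrank F W) h.iw (by simp) (by simp)
  replace n1 : e1 ≠ 0 := by simpa using n1 0 0
  replace g1 : ∀ g ∈ U, g e1 = e1 := by simpa using g1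
  have fx : ∀ x ∈ W, (∀ g ∈ U, g x = x) → ∃ c : F, x = c • e1 := fun x hx e => by
    by_contra! n
    exact h.caseB ch t0 m1 hx n1 n g1 e
  obtain ⟨e2, m2, n2, g2⟩ := h.ex1 (e2 := 0) (h.dw.symm ▸ by norm_num : 4 ≤ finrank F W) h.iw g1 fun _ _ => ⟨0, by simp⟩
  replace n2 : ∀ a : F, e2 ≠ a • e1 := fun a => by simpa using n2 a 0
  replace g2 : ∀ g ∈ U, ∃ a : F, g e2 = e2 + a • e1 := by simpa using g2
  obtain ⟨e3, y, e4, e5, ρ, m, k, e⟩ : ∃ e3 y e4 e5 ρ, Md σ q ρ ∧ Lk f U W u y e1 e2 e3 e4 e5 ρ ∧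
      (FX2 ρ ∨ ∀ g, ρ g 1 2 = 0) := by
    by_cases n : ∀ x ∈ W, (∀ g ∈ U, ∃ a : F, g x = x + a • e1) → ∃ a b : F, x = a • e1 + b • e2
    · obtain ⟨e3, m3, n3, g3⟩ := h.ex1 (h.dw.symm ▸ by norm_num : 4 ≤ finrank F W) h.iw g1 g2
      obtain ⟨y, e4, e5, ρ, m, k⟩ := h.fr0 ⟨m1, m2, m3, n1, n2, n3, g1, g2, g3⟩
      exact ⟨_, _, _, _, _, m, k, .inl (k.fx2 n)⟩
    · push Not at n
      obtain ⟨e3, m3, g3, n3⟩ := n
      obtain ⟨y, e4, e5, ρ, m, k⟩ := h.fr0 ⟨m1, m2, m3, n1, n2, n3, g1, g2, fun g hg => let ⟨a, e⟩ := g3 g hg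
        ⟨a, 0, by simp [e]⟩⟩
      exact ⟨_, _, _, _, _, m, k, .inr fun g => let ⟨a, e⟩ := g3 _ g.2; (k.c2 (a := a) (by simp [e])).2⟩
  obtain ⟨b, x, z, cn, n, b0, z0⟩ := (ch ρ m).s1 (fun t a => k.k0 a (t0 _ t.2 (k.tr.1 a))) e
  refine h.caseN ch t0 m1 n1 g1 fx b.2 (w := ρ b 0 5 • e1 + x • e2 + z • e3 + (0 : F) • e4 + (0 : F) • e5)
    (by rw [k.a5, cn.h15, cn.h25, cn.h35, cn.h45]; module) (fun v hv => ?_) (by
      rw [k.ac, cn.h12, b0]; simp) (fun a e => ?_) fun g hg => ⟨_, by simpa [z0] using k.ac ⟨g, hg⟩ (ρ b 0 5) x z 0 0⟩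
  · obtain ⟨a, b', c, d, e, rfl⟩ := k.sp v hv
    exact ⟨_, by simpa [cn.h12, cn.h13, cn.h14, cn.h23, cn.h24, cn.h34] using k.ac b a b' c d e⟩
  · have := k.li (a := ρ b 0 5 - a) (b := x) (c := z) (d := 0) (e := 0) (by linear_combination (norm := module) e)
    exact n.elim (· this.2.1) (· this.2.2.1)
end

theorem no (vt : VT U W u) (vp : VP q U W) (zh : TF U W u → ZC q U) : False := by
  by_cases t0 : ∀ t ∈ U, (∀ x ∈ W, t x = x) → t u = u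
  · exact h.caseZ ch t0
  push Not at t0
  obtain ⟨t, ht, t1, t2⟩ := t0
  have tf := vt t ht t1 t2
  obtain ⟨v, mv, e, me, ge, gv, g0, hg0, v0⟩ := vp (zh tf)
  have pp := (zh tf).1
  obtain ⟨t, ht, t1, t2, t3⟩ := tf
  have ma := h.gu t ht
  obtain ⟨a, ha⟩ : ∃ a, t u - u = a := ⟨_, rfl⟩
  have a0 : a ≠ 0 := ha ▸ sub_ne_zero.2 t2
  rw [ha] at t3 ma
  have e0 : e ≠ 0 := by rintro rfl; simpa [v0] using gv g0 hg0
  by_cases fx : ∀ x ∈ W, (∀ g ∈ U, g x = x) → ∃ c : F, x = c • a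
  swap
  · obtain ⟨x, mx, gx, nx⟩ : ∃ x ∈ W, (∀ g ∈ U, g x = x) ∧ ∀ c : F, x ≠ c • e := by
      by_contra! n
      refine fx fun x mx gx => ?_
      obtain ⟨c, rfl⟩ := n x mx gx
      obtain ⟨d, rfl⟩ := n a ma t3
      exact ⟨c / d, by rw [smul_smul, div_mul_cancel₀ _ (by rintro rfl; simp at a0)]⟩
    obtain ⟨y, e4, e5, ρ, m, k⟩ := h.fr0 ⟨me, mx, mv, e0, nx, fun c d z => v0 (by simp [z, ge g0 hg0, gx g0 hg0]), ge,
      fun g hg => ⟨0, by simp [gx g hg]⟩, fun g hg => let ⟨n, z⟩ := gv g hg; ⟨n, 0, by simp [z]⟩⟩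
    have k2 : ∀ g : U, ∃ n : ℕ, ρ g 0 2 = n ∧ ρ g 1 2 = 0 := fun g => let ⟨n, z⟩ := gv _ g.2; ⟨n, k.c2 (by simp [z])⟩
    exact (ch ρ m).pb pp (fun g => k.c1 (by simp [gx _ g.2])) (fun g => (k2 g).elim fun _ z => z.2)
      ⟨1, fun g => (k2 g).imp fun _ z => by simp [z.1]⟩
  obtain ⟨ε, rfl⟩ := fx e me ge
  simp only [smul_smul] at gv
  have T : ∀ {y e2 e3 e4 e5 ρ}, Lk f U W u y a e2 e3 e4 e5 ρ → T1 ρ := fun k => by
    have r := (k.tr (g := ⟨t, ht⟩)).2 t1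
    obtain ⟨h0, h1, h2, h3, h4⟩ := k.cu (g := ⟨t, ht⟩) (a := 1) (b := 0) (c := 0) (d := 0) (e := 0) (by simp [← ha])
    exact ⟨_, ⟨⟨⟨⟨h4⟩, r.h34, h3⟩, r.h23, r.h24, h2⟩, r.h12, r.h13, r.h14, h1⟩, h0⟩
  have nv : ∀ c : F, v ≠ c • a := fun c z => v0 (by simp [z, t3 g0 hg0])
  by_cases n : ∀ x ∈ W, (∀ g ∈ U, ∃ c : F, g x = x + c • a) → ∃ c d : F, x = c • a + d • v
  · obtain ⟨e3, m3, n3, g3⟩ := h.ex1 (h.dw.symm ▸ by norm_num : 4 ≤ finrank F W) h.iw t3 fun g hg => let ⟨n, z⟩ := gv g hg; ⟨_, z⟩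
    obtain ⟨y, e4, e5, ρ, m, k⟩ := h.fr0 ⟨ma, mv, m3, a0, nv, n3, t3, fun g hg => let ⟨n, z⟩ := gv g hg; ⟨_, z⟩, g3⟩
    exact (ch ρ m).pa pp (T k) (k.fx1 fx) (k.fx2 n) ⟨ε, fun g => (gv _ g.2).imp fun _ z => k.c1 z⟩
  · push Not at n
    obtain ⟨w, mw, gw, nw⟩ := n
    obtain ⟨y, e4, e5, ρ, m, k⟩ := h.fr0 ⟨ma, mw, mv, a0, fun c => by simpa using nw c 0, fun c d z => by
      have d0 : d ≠ 0 := by rintro rfl; exact nv c (by simpa using z)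
      exact nw (-c / d) d⁻¹ (by rw [z]; match_scalars <;> field_simp <;> ring), t3, gw,
      fun g hg => let ⟨n, z⟩ := gv g hg; ⟨_, 0, by simpa using z⟩⟩
    have k2 : ∀ g : U, ∃ n : ℕ, ρ g 0 2 = n * ε ∧ ρ g 1 2 = 0 := fun g => let ⟨n, z⟩ := gv _ g.2; ⟨n, k.c2 (by simp [z])⟩
    have pc : PC ρ q := ⟨pp, T k, k.fx1 fx, fun g => (k2 g).elim fun _ z => z.2, ε, fun g => (k2 g).imp fun _ z => z.1⟩
    exact (ch ρ m).pc pc ((ch ρ m).pn pc)
end VX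

end H4.PG
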