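import Cfsg.Agent.H28.NG1b
import Cfsg.Agent.H4.BG416

/-! Small modules for groups of rank two: counting lemmas and linear algebra in `E_{p²}`. -/

set_option autoImplicit false
set_option linter.unusedVariables false
set_option linter.unusedSectionVars false

namespace H4.QE
open Cfsg Subgroup H18 H17.GS H28.S H2.GW
open H19 hiding eq_bot_mono
open H28.NG hiding Hyp Uniq
open scoped commutatorElement

universe u
variable {G : Type u} [Group G] [Finite G] {A B D E H K L M N P Q R S T U V W X Y Z : Subgroup G}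
  {a b c g s t u v w x y z : G} {p r : ℕ}

theorem modEq_cent (hB : PG p B) (hl : p.Prime) (hn : B ≤ N(K)) : #K ≡ #(K ⊓ C(B)) [MOD p] := by
  have := Fact.mk hl
  let _ : MulAction B K := MulAction.compHom K (K.normalizerMonoidHom.comp (inclusion hn))
  have h1 := hB.isPGroup.card_modEq_card_fixedPoints K
  have : MulAction.fixedPoints B K = (C(B).subgroupOf K : Set K) := by
    ext x
    exact ⟨fun hx => mem_cent.2 fun b hb =>
      mul_inv_eq_iff_eq_mul.1 (congrArg Subtype.val (hx ⟨b, hb⟩)), fun hx b =>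
      Subtype.ext (mul_inv_eq_iff_eq_mul.2 (mem_cent.1 hx b b.2))⟩
  rwa [this, SetLike.coe_sort_coe, card_subgroupOf, inf_comm] at h1

theorem dvd_pred (hB : PG p B) (hl : p.Prime) (hn : B ≤ N(K)) (h : K ⊓ C(B) = ⊥) : p ∣ #K - 1 := by
  have := modEq_cent hB hl hn
  rw [h, card_bot] at this
  exact (Nat.modEq_iff_dvd' (card_pos K)).1 this.symm

/-- a `2`-group permuting a set of subgroups without fixed points -/
theorem even_ncard (hS : PG 2 S) (F : Set (Subgroup G)) (hF : ∀ s ∈ S, ∀ L ∈ F, cj s L ∈ F)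
    (h : ∀ L ∈ F, ¬ S ≤ N(L)) : Even F.ncard := by
  have := Fact.mk Nat.prime_two
  let _ : MulAction S F :=
    { smul := fun s L => ⟨cj s.1 L.1, hF _ s.2 _ L.2⟩
      one_smul := fun L => Subtype.ext (cj_one _)
      mul_smul := fun s t L => Subtype.ext (cj_mul _ _ _) }
  have h1 := hS.isPGroup.card_modEq_card_fixedPoints F
  have : MulAction.fixedPoints S F = ∅ := Set.eq_empty_of_forall_notMem fun L hL =>
    h L L.2 fun s hs => mem_norm_iff_cj.2 (congrArg Subtype.val (hL ⟨s, hs⟩))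
  rw [this, Nat.card_coe_set_eq, Nat.card_coe_set_eq, Set.ncard_empty] at h1
  exact even_iff_two_dvd.2 ((Nat.modEq_zero_iff_dvd).1 h1)

theorem le_cm_of (hn : A ≤ N(U)) (hc : (#U).Coprime #A) (hs : Sol U) (hU : U ≤ V) (h : U ⊓ C(A) = ⊥) : U ≤ ⁅V, A⁆ :=
  (commg_eq_of_cent_eq_bot hn hc (.inr hs) h).ge.trans (commutator_mono hU le_rfl)

/-- the centralizers of the `L i` form a direct sum -/
theorem cnt {ι : Type*} (hV : Ab V) (F : Finset ι) (L : ι → Subgroup G) (h1 : ∀ i ∈ F, L i ≤ N(V))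
    (h2 : ∀ i ∈ F, (#V).Coprime #(L i)) (h3 : ∀ i ∈ F, ∀ j ∈ F, i ≠ j → L i ≤ N(L j) ∧ V ⊓ C(L j) ⊓ C(L i) = ⊥)
    (W : Subgroup G) (hW : W ≤ V) : ∏ i ∈ F, #(W ⊓ C(L i)) ≤ #W := by
  classical
  induction F using Finset.induction_on generalizing W with
  | empty => exact card_pos W
  | insert i F hi ih =>
    have m := Finset.mem_insert_self i F
    have m' : ∀ j ∈ F, j ∈ insert i F := fun j => Finset.mem_insert_of_mem
    have k := ih (fun j hj => h1 j (m' j hj)) (fun j hj => h2 j (m' j hj))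
      (fun j hj l hl => h3 j (m' j hj) l (m' l hl)) (W ⊓ ⁅V, L i⁆) (inf_le_left.trans hW)
    have e : ∀ j ∈ F, #(W ⊓ C(L j)) = #(W ⊓ ⁅V, L i⁆ ⊓ C(L j)) := fun j hj => by
      have q := h3 i m j (m' j hj) fun e => hi (e ▸ hj)
      have := le_cm_of (norms_inf (h1 i m) (norms_cent q.1)) ((h2 i m).coprime_dvd_left (card_dvd inf_le_left))
        (sol_of_ab (comm_mono hV inf_le_left)) inf_le_left q.2
      rw [inf_right_comm, inf_eq_left.2 ((inf_le_inf_right _ hW).trans this)]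
    rw [Finset.prod_insert hi, Finset.prod_congr rfl e]
    refine (Nat.mul_le_mul_left _ k).trans ?_
    rw [← card_sup_of_disjoint (norms_of_comm hV (inf_le_left.trans hW) (inf_le_left.trans hW))
      (eq_bot_iff.2 ((le_inf (inf_le_right.trans inf_le_right) (inf_le_left.trans inf_le_right)).trans
        (ab_commg_inf_cent hV (h1 i m) (h2 i m)).le))]
    exact card_le (sup_le inf_le_left inf_le_left)

theorem cnt' {ι : Type*} (hV : Ab V) (F : Finset ι) (L : ι → Subgroup G) (h1 : ∀ i ∈ F, L i ≤ N(V))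
    (h2 : ∀ i ∈ F, (#V).Coprime #(L i)) (h3 : ∀ i ∈ F, ∀ j ∈ F, i ≠ j → L i ≤ N(L j) ∧ V ⊓ C(L j) ⊓ C(L i) = ⊥)
    (hW : W ≤ V) {m : ℕ} (h : ∀ i ∈ F, m ≤ #(W ⊓ C(L i))) : m ^ F.card ≤ #W :=
  (Finset.pow_card_le_prod F _ m h).trans (cnt hV F L h1 h2 h3 W hW)

theorem cm_idx (hV : Ab V) (ha : a ∈ N(V)) : #(cm V a) = C[a].relIndex V :=
  Nat.eq_of_mul_eq_mul_left (card_pos (V ⊓ C[a])) ((ab_cm hV ha).1.symm.trans (by
    rw [inf_comm, H19.card_inf_mul_relIndex]))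

/-- `[y, a]` centralizes a subgroup of index at most `|V : C_V(a)|²` -/
theorem idx_comm (hy : y ∈ N(V)) : C[y * a * y⁻¹ * a⁻¹].relIndex V ≤ C[a].relIndex V ^ 2 := by
  have l : cj y C[a] ⊓ C[a] ≤ C[y * a * y⁻¹ * a⁻¹] := fun v hv => by
    rw [cj_cent1] at hv
    exact mem_cent1_symm.1 (mul_mem (mem_cent1_symm.1 hv.1) (inv_mem (mem_cent1_symm.1 hv.2)))
  refine (relIndex_le_of_le_left l (relIndex_ne_zero' _ _)).trans (relIndex_inf_le.trans ?_)
  nth_rw 1 [← cj_of_mem_norm hy]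
  rw [relIndex_cj, sq]

theorem free (hW : Abelem 2 W) (a1 : a ∈ N(W)) (x1 : x ∈ N(W)) (ho : Odd (orderOf x)) (hi : a * x * a⁻¹ = x⁻¹)
    (h2 : a * a ∈ C(W)) (h0 : W ⊓ C[x] = ⊥) : #W = #(cm W a) ^ 2 := by
  have := ((ea_bot hW).free x1 (norm_bot.ge trivial) a1 (norm_bot.ge trivial) ho (by rw [hi, inv_mul_cancel]; exact one_mem _)
    (by rwa [Cm_bot]) (by rw [Cm_bot, cent_zpowers]; exact h0.le)).2
  rwa [card_bot, mul_one, sup_bot_eq] at this

theorem p35 {k : ℕ} (hp : p.Prime) (p2 : p ≠ 2) (h : p ∣ k ^ 2 - 1) (h1 : 1 < k ^ 2) (h2 : k ^ 2 ≤ 16) : p = 3 ∨ p = 5 := by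
  have : k ≤ 4 := by nlinarith
  have q : ∀ {a b : ℕ}, a.Prime → p ∣ a → p = a := fun ha d => (Nat.prime_dvd_prime_iff_eq hp ha).1 d
  interval_cases k
  · omega
  · omega
  · exact .inl (q (b := 0) Nat.prime_three h)
  · exact (p2 (q (b := 0) Nat.prime_two (hp.dvd_of_dvd_pow (n := 3) h))).elim
  · exact ((Nat.Prime.dvd_mul hp (m := 3) (n := 5)).1 h).imp (q (b := 0) Nat.prime_three) (q (b := 0) Nat.prime_five)

/-! ### elements inverting a subgroup -/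

/-- `a` inverts `L` -/
def Iv (a : G) (L : Subgroup G) : Prop := ∀ x ∈ L, a * x * a⁻¹ = x⁻¹

theorem Iv.mono (h : Iv a L) (l : K ≤ L) : Iv a K := fun x hx => h x (l hx)

theorem Iv.norm (h : Iv a L) : a ∈ N(L) := mem_norm_of_cj_le fun x hx => by
  obtain ⟨y, hy, rfl⟩ := mem_cj'.1 hx
  rw [h y hy]; exact inv_mem hy

theorem cent_conj (h : a ∈ C(L)) (hx : x ∈ L) : a * x * a⁻¹ = x := by
  rw [← mem_cent.1 h x hx, mul_inv_cancel_right]

theorem cent_of_conj (h : ∀ x ∈ L, a * x * a⁻¹ = x) : a ∈ C(L) :=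
  mem_cent.2 fun x hx => (mul_inv_eq_iff_eq_mul.1 (h x hx)).symm

theorem Iv.mul (h : Iv a L) (k : Iv b L) : a * b ∈ C(L) := cent_of_conj fun x hx => by
  have : a * b * x * (a * b)⁻¹ = (a * (b * x * b⁻¹)⁻¹ * a⁻¹)⁻¹ := by group
  rw [this, k x hx, inv_inv, h x hx, inv_inv]

theorem Iv.mul_cent (h : Iv a L) (k : b ∈ C(L)) : Iv (a * b) L := fun x hx => by
  have : a * b * x * (a * b)⁻¹ = a * (b * x * b⁻¹) * a⁻¹ := by group
  rw [this, cent_conj k hx, h x hx]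

theorem Iv.cent_mul (h : Iv b L) (k : a ∈ C(L)) : Iv (a * b) L := fun x hx => by
  have : a * b * x * (a * b)⁻¹ = a * (b * x * b⁻¹) * a⁻¹ := by group
  rw [this, h x hx, cent_conj k (inv_mem hx)]

theorem Iv.sup (h : Iv a K) (k : Iv a L) (c : K ≤ C(L)) : Iv a (K ⊔ L) := fun x hx => by
  obtain ⟨u, hu, v, hv, rfl⟩ := (mem_sup_of_norm (norms_of_cents (cents_symm c))).1 hx
  have : a * (u * v) * a⁻¹ = a * u * a⁻¹ * (a * v * a⁻¹) := by group
  rw [this, h u hu, k v hv, ← mul_inv_rev, mem_cent.1 (c hu) v hv]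

theorem Iv.bot (h : Iv a L) (o : OG L) (l : K ≤ L) (c : K ≤ C[a]) : K = ⊥ := eq_bot_iff.2 fun x hx => by
  have e := h x (l hx)
  rw [← mem_cent1.1 (c hx), mul_inv_cancel_right, eq_inv_iff_mul_eq_one] at e
  exact OG.eq_one o (l hx) e

theorem iv_of (hL : Ab L) (n : a ∈ N(L)) (h2 : a * a ∈ C(L)) (h : L ⊓ C[a] = ⊥) : Iv a L := fun x hx => by
  have m := conj_mem_of_norm n hx
  refine eq_inv_of_mul_eq_one_right (mem_bot.1 (h.le ⟨mul_mem hx m, mem_cent1.2 (mul_inv_eq_iff_eq_mul.1 ?_).symm⟩))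
  have : a * (x * (a * x * a⁻¹)) * a⁻¹ = a * x * a⁻¹ * (a * a * x * (a * a)⁻¹) := by group
  rw [this, cent_conj h2 hx, mul_comm_of_comm hL m hx]

theorem El.dich (hL : El p 1 L H) (n : a ∈ N(L)) (h2 : a * a ∈ C(L)) : a ∈ C(L) ∨ Iv a L :=
  (inf_eq_bot_or_le_of_prime hL.prime_card C[a]).symm.imp le_cent1_iff.1 (iv_of hL.comm n h2)

theorem idx_two (h : ∀ a ∈ X, ∀ b ∈ X, a ∉ T → b ∉ T → a * b ∈ T) : T.relIndex X ≤ 2 :=
  Nat.le_of_mul_le_mul_left (by rw [H19.card_inf_mul_relIndex, inf_comm]; exact card_le_two h) (card_pos (T ⊓ X))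

theorem der_of_sq (hK : B ≤ N(K)) (h : ∀ b ∈ B, b * b ∈ K) : ⁅B, B⁆ ≤ K := commg_le_iff.2 fun x hx y hy => by
  have := mul_mem (mul_mem (h x hx) (conj_mem_of_norm' (hK hx) (h _ (mul_mem hx hy)))) (inv_mem (h _ hx))
  have e : x * y * x⁻¹ * y⁻¹ = x * y * (x * y) * (y⁻¹ * (x * x)⁻¹ * y) * (y * y)⁻¹ := by group
  rw [e]
  exact mul_mem (mul_mem (h _ (mul_mem hx hy)) (conj_mem_of_norm' (hK hy) (inv_mem (h x hx)))) (inv_mem (h y hy))

section ab
variable (hP : El p 2 P H) (p2 : p ≠ 2)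
include hP p2

theorem El.og : OG P := hP.pg.sing_ne p2

/-- an elementary abelian `2`-group of automorphisms of `E_{p²}` -/
theorem bound (hB : PG 2 B) (n : B ≤ N(P)) (h : ∀ b ∈ B, b * b ∈ C(P)) : C(P).relIndex B ≤ 2 ∨
    C(P).relIndex B ≤ 4 ∧ ∃ a ∈ B, ∃ c ∈ B, Iv c P ∧ ∃ L₁ L₂, ∀ L, El p 1 L P → a ∈ N(L) → L = L₁ ∨ L = L₂ := by
  by_cases k : ∀ a ∈ B, a ∉ C(P) → Iv a P
  · exact .inl (idx_two fun a ha b hb a1 b1 => (k a ha a1).mul (k b hb b1))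
  push Not at k
  obtain ⟨a, ha, a1, a2⟩ := k
  have o := El.og hP p2
  have l : zpowers a ⊔ (B ⊓ C(P)) ≤ B := sup_le (zpowers_le' ha) inf_le_left
  have nA := norms_of_der_le ((le_inf (der_le B) (der_of_sq (norms_cent n) h)).trans le_sup_right) l
  have cA : ∀ {x}, x ∈ P → x ∈ C[a] → x ∈ C(zpowers a ⊔ (B ⊓ C(P))) := fun hx c => by
    rw [cent_sup, cent_zpowers]; exact ⟨c, cents_symm inf_le_right hx⟩
  set A := zpowers a ⊔ (B ⊓ C(P))
  have aA : a ∈ A := mem_sup_left (mem_zpowers a)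
  have d := ab_cent_dprod hP.comm (l.trans n) (o.cop (hB.of_le l))
  have i2 : Iv a ⁅P, A⁆ := iv_of (comm_mono hP.comm d.right_le) (commg_normr _ _ aA) (cent_mono d.right_le (h a ha))
    (eq_bot_iff.2 fun x hx => d.inf.le ⟨⟨d.right_le hx.1, cA (d.right_le hx.1) hx.2⟩, hx.1⟩)
  have c1 : a ∈ C(P ⊓ C(A)) := cents_symm inf_le_right aA
  have e1 : El p 1 (P ⊓ C(A)) P := hP.self.el1_of_lt (lt_of_le_of_ne d.left_le fun e => a1 (e ▸ c1)) fun e =>
    a2 (i2.mono (d.sup.ge.trans (by rw [e, bot_sup_eq])))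
  have e2 : El p 1 ⁅P, A⁆ P := hP.self.el1_of_lt (lt_of_le_of_ne d.right_le fun e => a2 (e ▸ i2)) fun e =>
    a1 (cent_mono (d.sup.ge.trans (by rw [e, sup_bot_eq])) c1)
  have n1 := norms_inf n (norms_cent nA)
  have n2 := norms_comm n nA
  generalize P ⊓ C(A) = L₁ at *
  generalize ⁅P, A⁆ = L₂ at *
  have d1 := fun b hb => El.dich e1 (n1 hb) (cent_mono e1.le (h b hb))
  have d2 := fun b hb => El.dich e2 (n2 hb) (cent_mono e2.le (h b hb))
  have j1 : C(L₁).relIndex B ≤ 2 := idx_two fun b hb c hc b1 c1 =>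
    ((d1 b hb).resolve_left b1).mul ((d1 c hc).resolve_left c1)
  have j2 : C(P).relIndex (B ⊓ C(L₁)) ≤ 2 := idx_two fun b hb c hc b1 c1 => by
    rw [← d.sup, cent_sup] at b1 c1 ⊢
    exact ⟨mul_mem hb.2 hc.2, ((d2 b hb.1).resolve_left fun k => b1 ⟨hb.2, k⟩).mul
      ((d2 c hc.1).resolve_left fun k => c1 ⟨hc.2, k⟩)⟩
  by_cases k : B ≤ C(L₁)
  · exact .inl (inf_eq_left.2 k ▸ j2)
  obtain ⟨b, hb, b1⟩ := SetLike.not_le_iff_exists.1 k
  have i1 := (d1 b hb).resolve_left b1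
  refine .inr ⟨?_, a, ha, ?_⟩
  · rw [← inf_eq_left.2 (cent_mono e1.le), ← relIndex_inf_mul_relIndex, inf_comm]
    exact Nat.mul_le_mul j2 j1
  have hL : ∀ L, El p 1 L P → a ∈ N(L) → L = L₁ ∨ L = L₂ := fun L hL m => by
    by_contra q
    rw [not_or] at q
    rcases El.dich hL m (cent_mono hL.le (h a ha)) with c | c
    · exact a1 (hP.self.sup_eq hL e1 q.1 ▸ (cent_sup _ _).ge ⟨c, c1⟩)
    · exact a2 (hP.self.sup_eq hL e2 q.2 ▸ c.sup i2 (cents_of_comm hP.comm hL.le e2.le))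
  rcases d2 b hb with c | c
  · exact ⟨_, mul_mem ha hb, d.sup ▸ (i1.cent_mul c1).sup (i2.mul_cent c) d.cent, L₁, L₂, hL⟩
  · exact ⟨_, hb, d.sup ▸ i1.sup c d.cent, L₁, L₂, hL⟩

omit p2 in
/-- an element normalizing three lines is a scalar -/
theorem scalar (h1 : El p 1 K P) (h2 : El p 1 L P) (h3 : El p 1 M P) (a : K ≠ L) (b : K ≠ M) (c : L ≠ M)
    (n1 : s ∈ N(K)) (n2 : s ∈ N(L)) (n3 : s ∈ N(M)) : ∃ k : ℤ, ∀ x ∈ P, s * x * s⁻¹ = x ^ k := by
  have d := hP.self.dprod h1 h2 a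
  obtain ⟨w, w1, -, rfl⟩ := h3.exists_gen
  obtain ⟨u, hu, v, hv, rfl⟩ := d.cp.mem (h3.le (mem_zpowers w))
  obtain ⟨k, e⟩ := conj_mem_of_norm n3 (mem_zpowers _)
  have cm : ∀ {x y}, x ∈ K → y ∈ L → Commute x y := fun hx hy => (mem_cent.1 (d.cent hx) _ hy).symm
  have e' : (u ^ k)⁻¹ * (s * u * s⁻¹) = v ^ k * (s * v * s⁻¹)⁻¹ := by
    have : s * u * s⁻¹ * (s * v * s⁻¹) = u ^ k * v ^ k := by
      rw [← (cm hu hv).mul_zpow, show (u * v) ^ k = _ from e]; group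
    rw [inv_mul_eq_iff_eq_mul, ← mul_assoc, ← this, mul_inv_cancel_right]
  have z : (u ^ k)⁻¹ * (s * u * s⁻¹) = 1 := mem_bot.1 (d.inf.le ⟨K.mul_mem (K.inv_mem (zpow_mem hu k))
    (conj_mem_of_norm n1 hu), e' ▸ L.mul_mem (zpow_mem hv k) (L.inv_mem (conj_mem_of_norm n2 hv))⟩)
  have eu := (inv_mul_eq_one.1 z).symm
  have ev := (mul_inv_eq_one.1 (e'.symm.trans z)).symm
  have u1 : u ≠ 1 := fun e => c (h3.eq_of_le h2 (zpowers_le' (by rwa [e, one_mul]))).symm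
  have v1 : v ≠ 1 := fun e => b (h3.eq_of_le h1 (zpowers_le' (by rwa [e, mul_one]))).symm
  refine ⟨k, fun x0 h0 => ?_⟩
  obtain ⟨x, hx, y, hy, rfl⟩ := d.cp.mem h0
  rw [(cm hx hy).mul_zpow]
  obtain ⟨i, rfl⟩ := (eq_zpowers_of_prime h1.prime_card hu u1).ge hx
  obtain ⟨j, rfl⟩ := (eq_zpowers_of_prime h2.prime_card hv v1).ge hy
  have : s * (u ^ i * v ^ j) * s⁻¹ = (s * u * s⁻¹) ^ i * (s * v * s⁻¹) ^ j := by simp only [conj_zpow]; group
  simp only [this, eu, ev, ← zpow_mul, mul_comm]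

/-- the commutator of two subgroups normalizing a line -/
theorem der_line (hL : El p 1 L P) (a1 : A ≤ N(P)) (a2 : A ≤ N(L)) (hQ : PG 2 Q) (l : Q ≤ ⁅A, A⁆) : Q ≤ C(P) := by
  have n := norms_of_comm hP.comm le_rfl hL.le
  refine cents_of_stable (OG.cop (PiN.of_le (El.og hP p2) hL.le) hQ) (l.trans (H4.der1_cent_cyclic hL.cyc a2)) ?_
  rw [commg_comm, ← quo_cents_iff (l.trans ((der_le A).trans a2)) n]
  refine (quo_mono _ l).trans ((quo_comm a2 a2).le.trans (H4.der1_cent_cyclic (cyc_quo_of_prime n ?_) (quo_norms a1)))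
  rw [hP.relIndex hL]; exact hP.prime

/-- a `2`-group normalizing a line commutes with the elements of odd order normalizing it -/
theorem one (hL : El p 1 L P) (hQ : PG 2 Q) (q1 : Q ≤ N(P)) (q2 : Q ≤ N(L)) (ho : Odd (orderOf y)) (y1 : y ∈ N(P))
    (y2 : y ∈ N(Q)) : ⁅Q, zpowers y⁆ ≤ C(P) := by
  by_cases k : y ∈ N(L)
  · exact der_line hP p2 hL (sup_le q1 (zpowers_le' y1)) (sup_le q2 (zpowers_le' k))
      (hQ.of_le (commg_le_left (zpowers_le' y2))) (commutator_mono le_sup_left le_sup_right)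
  have e : ∀ {g}, g ∈ N(P) → El p 1 (cj g L) P := fun h => hL.Jle _ (cj_le_of_mem_norm h hL.le)
  have m : ∀ {g}, g ∈ N(Q) → Q ≤ N(cj g L) := fun h => by rw [← cj_norm, ← cj_of_mem_norm h]; exact cj_mono _ q2
  have ne : L ≠ cj y L := fun e => k (mem_norm_iff_cj.2 e.symm)
  refine commg_le_iff.2 fun s hs g hg => ?_
  obtain ⟨j, h⟩ := scalar hP hL (e y1) (e (mul_mem y1 y1)) ne (fun e => k (mem_of_sq ho (mem_norm_iff_cj.2 e.symm)))
    (fun e => ne (by rwa [cj_mul, cj_inj] at e)) (q2 hs) (m y2 hs) (m (mul_mem y2 y2) hs)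
  have g1 := zpowers_le' y1 hg
  refine cent_of_conj fun x hx => ?_
  have x1 := conj_mem_of_norm' (q1 hs) (conj_mem_of_norm' g1 hx)
  have x2 := conj_mem_of_norm g1 x1
  have := h _ x2
  rw [conj_zpow, ← h _ x1] at this
  calc _ = s * (g * (s⁻¹ * (g⁻¹ * x * g) * s) * g⁻¹) * s⁻¹ := by group
    _ = x := by rw [this]; group

end ab

end H4.QE
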