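import Cfsg.Agent.H4.QE1

/-! An offender on a module for `E_{p²}` with an irreducible `2`-group of automorphisms. -/

set_option autoImplicit false
set_option linter.unusedVariables false
set_option linter.unusedSectionVars false

namespace H4.QE
open Cfsg Subgroup H18 H17.GS H28.S H2.GW
open H19 hiding eq_bot_mono
open H28.NG hiding Hyp Uniq
open scoped commutatorElement

universe u
variable {G : Type u} [Group G] [Finite G] {A B D E H K L M N P Q R S T U V W X Y Z : Subgroup G}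
  {a b c g s t u v w x y z : G} {p r : ℕ}

theorem pow_pred (hL : El p 1 L H) (hg : g ∈ N(L)) : g ^ (p - 1) ∈ C(L) := by
  have := hL.cyc
  have e := pow_card_eq_one' (x := L.normalizerMonoidHom ⟨g, hg⟩)
  rw [IsCyclic.card_mulAut, hL.card1, Nat.totient_prime hL.prime, ← map_pow] at e
  exact (normalizerMonoidHom_ker L).le e

theorem inv_comm (h : a * a ∈ C[y]) : a * (y * a * y⁻¹ * a⁻¹) * a⁻¹ = (y * a * y⁻¹ * a⁻¹)⁻¹ := by
  have : a * (y * a * y⁻¹ * a⁻¹) * a⁻¹ = a * y * a⁻¹ * (a * a * y * (a * a)⁻¹)⁻¹ := by group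
  rw [this, mem_cent1.1 h]; group

theorem norm_zp (h : a * x * a⁻¹ = x⁻¹) : a ∈ N(zpowers x) := by
  rw [mem_norm_iff_cj, cj_zpowers, h, zpowers_inv]

theorem half_idx (hV : PG 2 V) (h : V ⊓ A < V ⊓ B) : B.relIndex V * 2 ≤ A.relIndex V := by
  have e1 := H19.card_inf_mul_relIndex A V
  have e2 := H19.card_inf_mul_relIndex B V
  have := (hV.infl B).card_mul_le h
  rw [inf_comm] at e1 e2
  refine Nat.le_of_mul_le_mul_left ?_ (card_pos (V ⊓ A))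
  rw [e1, ← e2]
  nlinarith

/-- the lines with a nontrivial centralizer -/
def Lf (p : ℕ) (P V : Subgroup G) : Set (Subgroup G) := {L | El p 1 L P ∧ V ⊓ C(L) ≠ ⊥}

theorem Lf.conj (h : L ∈ Lf p P V) (g1 : g ∈ N(P)) (g2 : g ∈ N(V)) : cj g L ∈ Lf p P V :=
  ⟨h.1.Jle _ (cj_le_of_mem_norm g1 h.1.le), by
    rw [← cj_of_mem_norm g2, ← cj_cent, ← cj_inf, Ne, cj_eq_bot]; exact h.2⟩

section core
variable (hP : El p 2 P H) (p2 : p ≠ 2) (hV : Abelem 2 V) (pV : P ≤ N(V)) (vc : V ⊓ C(P) = ⊥)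
include hP p2 hV pV vc

theorem two_lines (h1 : El p 1 K P) (h2 : El p 1 L P) (ne : K ≠ L) : V ⊓ C(L) ⊓ C(K) = ⊥ := by
  rw [inf_assoc, ← cent_sup, sup_comm, hP.self.sup_eq h1 h2 ne, vc]

theorem cnt_lines (F : Finset (Subgroup G)) (hF : ∀ L ∈ F, El p 1 L P) (hW : W ≤ V) {m : ℕ}
    (h : ∀ L ∈ F, m ≤ #(W ⊓ C(L))) : m ^ F.card ≤ #W :=
  cnt' hV.1 F id (fun L l => (hF L l).le.trans pV) (fun L l => (OG.cop (PiN.of_le (El.og hP p2) (hF L l).le) (ab_pg hV)).symm)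
    (fun K k L l ne => ⟨norms_of_comm hP.comm (hF K k).le (hF L l).le, two_lines hP p2 hV pV vc (hF K k) (hF L l) ne⟩) hW h

theorem line_dvd (hL : El p 1 L P) : p ∣ #(V ⊓ C(L)) - 1 :=
  dvd_pred hP.pg hP.prime (norms_inf pV (norms_cent (norms_of_comm hP.comm le_rfl hL.le)))
    (eq_bot_mono (inf_le_inf_right _ inf_le_left) vc)

theorem line_sq (hc : Iv c P) (c1 : c ∈ N(V)) (c2 : c * c ∈ C(V)) (hL : El p 1 L P) :
    #(V ⊓ C(L)) = #(cm (V ⊓ C(L)) c) ^ 2 ∧ cm (V ⊓ C(L)) c ≤ cm V c ⊓ C(L) := by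
  obtain ⟨Y, hY, ne⟩ := hP.self.exists_el1_ne hL
  obtain ⟨x, x1, x2, rfl⟩ := hY.exists_gen
  have n := norms_inf (zpowers_le' c1) (norms_cent (zpowers_le' (hc.mono hL.le).norm))
  have m := hY.le (mem_zpowers x)
  exact ⟨free (abelem_mono hV inf_le_left) (n (mem_zpowers c))
    (norms_inf pV (norms_cent (norms_of_comm hP.comm le_rfl hL.le)) m) (x2 ▸ hP.prime.odd_of_ne_two p2) (hc x m)
    (cent_mono inf_le_left c2) (cent_zpowers x ▸ two_lines hP p2 hV pV vc hY hL ne),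
    le_inf (commutator_mono inf_le_left le_rfl) ((commg_le_left n).trans inf_le_right)⟩

theorem case1 (f : P ⊓ C(V) = ⊥) (a1 : a ∈ N(P)) (a2 : a ∈ N(V)) (a3 : a ∉ C(P)) (a4 : a * a ∈ C(P)) (a5 : a * a ∈ C(V))
    (i : C[a].relIndex V ≤ 4) : (p = 3 ∨ p = 5) ∧ (Lf p P V).ncard ≤ 3 := by
  classical
  obtain ⟨y, hy, x1⟩ : ∃ y ∈ P, y * a * y⁻¹ * a⁻¹ ≠ 1 := by
    by_contra! k
    exact a3 (mem_cent.2 fun y hy => mul_inv_eq_iff_eq_mul.1 (mul_inv_eq_one.1 (k y hy)))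
  have j := (idx_comm (a := a) (pV hy)).trans (Nat.pow_le_pow_left i 2)
  have iv := inv_comm (cent_le_cent1 hy a4)
  have m : y * a * y⁻¹ * a⁻¹ ∈ P := by
    simpa only [mul_assoc] using mul_mem hy (conj_mem_of_norm a1 (inv_mem hy))
  generalize y * a * y⁻¹ * a⁻¹ = x at *
  have e := el1_zpowers' hP.prime m (hP.ab.2 x m) x1
  have xn := zpowers_le' (pV m)
  have cp := (OG.cop (PiN.of_le (El.og hP p2) e.le) (ab_pg hV)).symm
  have d := ab_commg_inf_cent hV.1 xn cp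
  have l := commg_le_left xn
  rw [← cm_idx hV.1 (pV m)] at j
  have k := free (abelem_mono hV l) (norms_comm (zpowers_le' a2) (zpowers_le' (norm_zp iv)) (mem_zpowers a))
    (commg_normr _ _ (mem_zpowers x)) (H2.GW.odd_elt (og_iff.1 (El.og hP p2)) m) iv (cent_mono l a5) (cent_zpowers x ▸ d)
  refine ⟨p35 hP.prime p2 (k ▸ dvd_pred e.pg hP.prime (commg_normr _ _) d) (k ▸ ne_bot_iff_one_lt_card.1 fun q =>
    x1 (mem_bot.1 (f.le ⟨m, cents_symm (commg_eq_bot.1 q) (mem_zpowers x)⟩))) (k ▸ j), ?_⟩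
  have fin := Set.toFinite (Lf p P V \ {zpowers x})
  have := (cnt_lines hP p2 hV pV vc fin.toFinset (fun L h => (fin.mem_toFinset.1 h).1.1) l (m := 4) fun L h => by
    obtain ⟨⟨h1, h2⟩, h3⟩ := fin.mem_toFinset.1 h
    have q := le_cm_of (norms_inf xn (norms_cent (norms_of_comm hP.comm e.le h1.le))) (cp.coprime_dvd_left
      (card_dvd inf_le_left)) ((ab_pg hV).infl _).sol inf_le_left (two_lines hP p2 hV pV vc e h1 (Ne.symm h3))
    refine le_trans ?_ (card_le (le_inf q inf_le_right))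
    have h4 := ne_bot_iff_one_lt_card.1 h2
    have := Nat.le_of_dvd (by omega) (line_dvd hP p2 hV pV vc h1)
    have := hP.prime.two_le
    omega).trans j
  rw [← Set.ncard_eq_toFinset_card _ fin] at this
  have h2 : (Lf p P V \ {zpowers x}).ncard ≤ 2 := (Nat.pow_le_pow_iff_right (by norm_num)).1 (this.trans_eq (by norm_num))
  have := Set.ncard_le_ncard_sdiff_add_ncard (Lf p P V) (t := {zpowers x})
  rw [Set.ncard_singleton] at this
  omega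

theorem case2 (hc : Iv c P) (c1 : c ∈ N(V)) (c2 : c * c ∈ C(V)) (a1 : a ∈ N(P)) (i : (C[a] ⊓ C[c]).relIndex V ≤ 16)
    (ha : ∀ L, El p 1 L P → a ∈ N(L) → L = A ∨ L = B) (hK : K ∈ Lf p P V) (g1 : g ∈ N(P)) (g2 : g ∈ N(V)) (g3 : g ∉ N(K)) :
    (p = 3 ∨ p = 5) ∧ (Lf p P V).ncard ≤ 3 := by
  classical
  have sq := fun L => line_sq (L := L) hP p2 hV pV vc hc c1 c2
  have l := commg_le_left (zpowers_le' c1)
  have j := (relIndex_le_of_le_left (inf_le_right (a := C[a])) (relIndex_ne_zero' _ V)).trans i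
  refine ⟨?_, ?_⟩
  · have hK' := Lf.conj hK g1 g2
    have e : #(cm (V ⊓ C(cj g K)) c) = #(cm (V ⊓ C(K)) c) := by
      refine Nat.pow_left_injective two_ne_zero (((sq _ hK'.1).1.symm.trans ?_).trans (sq _ hK.1).1)
      rw [← card_cj g (V ⊓ C(K)), cj_inf, cj_of_mem_norm g2, cj_cent]
    have := cnt_lines hP p2 hV pV vc {K, cj g K} (by simp [hK.1, hK'.1]) l (m := #(cm (V ⊓ C(K)) c)) (by
      simp only [Finset.mem_insert, Finset.mem_singleton, forall_eq_or_imp, forall_eq]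
      exact ⟨card_le (sq _ hK.1).2, e ▸ card_le (sq _ hK'.1).2⟩)
    rw [Finset.card_pair fun e => g3 (mem_norm_iff_cj.2 e.symm), cm_idx hV.1 c1] at this
    exact p35 hP.prime p2 ((sq _ hK.1).1 ▸ line_dvd hP p2 hV pV vc hK.1) ((sq _ hK.1).1 ▸ ne_bot_iff_one_lt_card.1 hK.2)
      (this.trans j)
  have ne : ∀ L ∈ Lf p P V, cm (V ⊓ C(L)) c ≠ ⊥ := fun L hL e => by
    have := (sq _ hL.1).1
    rw [e, card_bot] at this
    exact hL.2 (eq_bot_of_card_eq _ this)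
  by_cases k : ∀ L ∈ Lf p P V, a ∈ N(L)
  · exact (Set.ncard_le_ncard (fun L hL => ha L hL.1 (k L hL)) (t := {A, B})).trans
      ((Set.ncard_insert_le _ _).trans (by simp))
  push Not at k
  obtain ⟨L, hL, k⟩ := k
  obtain ⟨v, hv, v1⟩ := exists_ne_one (ne L hL)
  have vc' : v ∈ C[c] := by
    have := (ea_bot hV).br_le_cm c1 (norm_bot.ge trivial) (by rwa [Cm_bot]) (mem_sup_left ((sq _ hL.1).2 hv).1)
    rw [Cm_bot, cent_zpowers] at this
    exact this.2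
  have vv := l ((sq _ hL.1).2 hv).1
  have := half_idx (ab_pg hV) (lt_of_le_of_ne (inf_le_inf_left V (inf_le_right (a := C[a]) (b := C[c]))) fun e => v1
    (mem_bot.1 ((two_lines hP p2 hV pV vc (hL.1.Jle a (cj_le_of_mem_norm a1 hL.1.le)) hL.1 fun e =>
      k (mem_norm_iff_cj.2 e)).le ⟨⟨vv, ((sq _ hL.1).2 hv).2⟩, (cj_cent a L).le (mem_cj.2 (by
        rw [mul_assoc, mem_cent1.1 (e.ge ⟨vv, vc'⟩).2.1, inv_mul_cancel_left]
        exact ((sq _ hL.1).2 hv).2))⟩)))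
  have fin := Set.toFinite (Lf p P V)
  have q := cnt_lines hP p2 hV pV vc fin.toFinset (fun L h => (fin.mem_toFinset.1 h).1) l (m := 2) fun L h =>
    (ne_bot_iff_one_lt_card.1 (ne L (fin.mem_toFinset.1 h))).trans_le (card_le (sq _ (fin.mem_toFinset.1 h).1).2)
  rw [← Set.ncard_eq_toFinset_card _ fin, cm_idx hV.1 c1] at q
  exact (Nat.pow_le_pow_iff_right (by norm_num)).1 (q.trans (show _ ≤ 2 ^ 3 by omega))

theorem coreA (v1 : V ≠ ⊥) (hS : PG 2 S) (sP : S ≤ N(P)) (sV : S ≤ N(V)) (irr : ∀ L, El p 1 L P → ¬ S ≤ N(L))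
    (e : S ⊓ C(V) = S ⊓ C(P)) (bS : B ≤ S) (nB : ¬ B ≤ C(V)) (b2 : ∀ b ∈ B, b * b ∈ C(V))
    (off : C(B).relIndex V ≤ C(V).relIndex B ^ 2) : (p = 3 ∨ p = 5) ∧ ∃ K : Subgroup G,
      (∀ a ∈ N(P) ⊓ N(V), ∀ b ∈ N(P) ⊓ N(V), a ∉ K → b ∉ K → a * b ∈ K) ∧ ⁅K, K⁆ ≤ C(P) ∧ ∀ k ∈ K, k ^ (p - 1) ∈ C(P) := by
  have b3 : ∀ b ∈ B, b * b ∈ C(P) := fun b hb => (e.le ⟨bS (mul_mem hb hb), b2 b hb⟩).2
  obtain ⟨L, hL⟩ : ∃ L, L ∈ Lf p P V := hP.exists_cent_ne_bot pV ((ab_pg hV).sing_ne p2.symm) v1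
  obtain ⟨g, hg, g3⟩ := SetLike.not_le_iff_exists.1 (irr L hL.1)
  have f : P ⊓ C(V) = ⊥ := by
    rcases hP.self.sub2 (inf_le_left (b := C(V))) with k | k | k
    · exact k
    · exact (irr _ k (norms_inf sP (norms_cent sV))).elim
    · exact (v1 (vc ▸ (inf_eq_left.2 (cents_symm (inf_eq_left.1 k))).symm)).elim
  rw [← inf_relIndex_right C(V), show C(V) ⊓ B = C(P) ⊓ B from le_antisymm (fun x hx => ⟨(e.le ⟨bS hx.2, hx.1⟩).2, hx.2⟩)
    fun x hx => ⟨(e.ge ⟨bS hx.2, hx.1⟩).2, hx.2⟩, inf_relIndex_right] at off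
  have key : (p = 3 ∨ p = 5) ∧ (Lf p P V).ncard ≤ 3 := by
    rcases bound hP p2 (hS.of_le bS) (bS.trans sP) b3 with k | ⟨k, a, ha, c, hc, i, L₁, L₂, h⟩
    · obtain ⟨a, ha, a1⟩ := SetLike.not_le_iff_exists.1 nB
      exact case1 hP p2 hV pV vc f (sP (bS ha)) (sV (bS ha)) (fun q => a1 (e.ge ⟨bS ha, q⟩).2) (b3 a ha) (b2 a ha)
        ((relIndex_le_of_le_left (cent_le_cent1 ha) (relIndex_ne_zero' _ _)).trans (off.trans (Nat.pow_le_pow_left k 2)))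
    · exact case2 hP p2 hV pV vc i (sV (bS hc)) (b2 c hc) (sP (bS ha)) ((relIndex_le_of_le_left (le_inf (cent_le_cent1 ha)
        (cent_le_cent1 hc)) (relIndex_ne_zero' _ _)).trans (off.trans (Nat.pow_le_pow_left k 2))) h hL (sP hg) (sV hg) g3
  have ev := even_ncard hS (Lf p P V) (fun s hs L h => Lf.conj h (sP hs) (sV hs)) fun L h => irr L h.1
  have pos := (Set.ncard_pos (Set.toFinite _)).2 ⟨L, hL⟩
  obtain ⟨L₁, L₂, ne, q⟩ := Set.ncard_eq_two.1 (show (Lf p P V).ncard = 2 by obtain ⟨k, e⟩ := ev; omega)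
  have h1 : L₁ ∈ Lf p P V := q ▸ .inl rfl
  have h2 : L₂ ∈ Lf p P V := q ▸ .inr rfl
  have sw : ∀ a ∈ N(P) ⊓ N(V), a ∉ N(L₁) ⊓ N(L₂) → cj a L₁ = L₂ ∧ cj a L₂ = L₁ := fun a ha k => by
    have e1 := q.le (Lf.conj h1 ha.1 ha.2)
    have e2 := q.le (Lf.conj h2 ha.1 ha.2)
    rcases e1 with e1 | e1 <;> rcases e2 with e2 | e2
    · exact (ne (cj_inj.1 (e1.trans e2.symm))).elim
    · exact (k ⟨mem_norm_iff_cj.2 e1, mem_norm_iff_cj.2 e2⟩).elim
    · exact ⟨e1, e2⟩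
    · exact (ne (cj_inj.1 (e1.trans e2.symm))).elim
  refine ⟨key.1, N(L₁) ⊓ N(L₂), fun a ha b hb a1 b1 => ⟨mem_norm_iff_cj.2 ?_, mem_norm_iff_cj.2 ?_⟩, ?_, fun k hk => ?_⟩
  · rw [cj_mul, (sw b hb b1).1, (sw a ha a1).2]
  · rw [cj_mul, (sw b hb b1).2, (sw a ha a1).1]
  · exact hP.self.sup_eq h1.1 h2.1 ne ▸ cents_sup (H4.der1_cent_cyclic h1.1.cyc inf_le_left)
      (H4.der1_cent_cyclic h2.1.cyc inf_le_right)
  · exact hP.self.sup_eq h1.1 h2.1 ne ▸ (cent_sup _ _).ge ⟨pow_pred h1.1 hk.1, pow_pred h2.1 hk.2⟩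

end core

end H4.QE
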