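import Cfsg.Agent.H4.QE2

/-! The same for `E_{p²}` and `p^{1+2}`. -/

set_option autoImplicit false
set_option linter.unusedVariables false
set_option linter.unusedSectionVars false

namespace H4.QE
open Cfsg Subgroup H18 H17.GS H28.S H2.GW
open H19 hiding eq_bot_mono
open H28.NG hiding Hyp Uniq
open scoped commutatorElement

universe u
variable {G : Type u} [Group G] [Finite G] {A B D E H K L M N P Q R S T U V W X Y Z : Subgroup G}
  {a b c g s t u v w x y z : G} {p r : ℕ}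

local notation "CM" => H28.NG.Cm

theorem eq_of_der (hP : PG p P) (l : L ≤ P) (h : P ≤ ⁅P, P⁆ ⊔ L) : L = P := by
  have : L.subgroupOf P = ⊤ := frattini_nongenerating (map_injective P.subtype_injective (by
    rw [Subgroup.map_sup, subgroupOf_map_subtype, ← MonoidHom.range_eq_map, range_subtype, inf_eq_left.2 l]
    exact le_antisymm (sup_le l (map_subtype_le _))
      (h.trans (sup_le ((H4.der_le_Phi hP).trans le_sup_right) le_sup_left))))
  exact l.antisymm (subgroupOf_eq_top.1 this)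

theorem relIndex_pre {R : Type*} [Group R] {f : D →* R} (X : Subgroup R) (hB : B ≤ D) :
    (pre f X).relIndex B = X.relIndex (im f B) := by
  rw [im, ← relIndex_comap, ← relIndex_subgroupOf hB, pre, subgroupOf, comap_map_eq_self_of_injective D.subtype_injective]

theorem qpre_cent (hP : P ≤ N(D)) : qpre D C(quo D P) = CM D P := by
  ext x
  refine ⟨fun h => ?_, fun h => ?_⟩
  · have n := zpowers_le' (qpre_le_norm _ h)
    exact le_Cm n ((quo_cents_iff n hP).1 ((quo_le_iff n).2 (zpowers_le' h))) (mem_zpowers x)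
  · have n := zpowers_le' (Cm_le_norm h)
    exact (quo_le_iff n).1 ((quo_cents_iff n hP).2 (commg_of_Cm (zpowers_le' h))) (mem_zpowers x)

/-- `P` is elementary abelian of order `p²` or extraspecial of order `p³` and exponent `p` -/
structure PP (p : ℕ) (P : Subgroup G) : Prop where
  p2 : p ≠ 2
  pg : PG p P
  ex : ∀ x ∈ P, x ^ p = 1
  el : El p 2 (quo ⁅P, P⁆ P) ⊤
  cd : #⁅P, P⁆ ≤ p

/-- `S` is irreducible on `P/P'` -/
def Irr (p : ℕ) (S P : Subgroup G) : Prop := ∀ L, El p 1 L (quo ⁅P, P⁆ P) → ¬ quo ⁅P, P⁆ S ≤ N(L)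

theorem nD (P : Subgroup G) : N(P) ≤ N(⁅P, P⁆) := norms_der le_rfl
theorem pD (P : Subgroup G) : P ≤ N(⁅P, P⁆) := norms_der le_normalizer

namespace PP
variable (h : PP p P)
include h

theorem hp : p.Prime := h.el.prime
theorem og : OG P := h.pg.sing_ne h.p2

theorem cent (hA : PiG {p}ᶜ A) (c : A ≤ CM ⁅P, P⁆ P) : A ≤ C(P) :=
  coprime_cent_Phi (h.pg.coprime hA) ((commg_of_Cm' c).trans (H4.der_le_Phi h.pg))

theorem cent2 (hA : PG 2 A) (c : A ≤ CM ⁅P, P⁆ P) : A ≤ C(P) := h.cent (hA.sing_ne h.p2.symm) c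

theorem inv_sub (i : Irr p S P) (l : L ≤ P) (n : S ≤ N(L)) : L ≤ ⁅P, P⁆ ∨ L = P := by
  rcases h.el.self.sub2 (quo_mono _ l) with k | k | k
  · exact .inl ((quo_eq_bot_iff (l.trans (pD P))).1 k)
  · exact (i _ k (quo_norms n)).elim
  · exact .inr (eq_of_der h.pg l ((quo_le_quo_iff (pD P) (l.trans (pD P))).1 k.ge))

theorem one (hQ : PG 2 Q) (q1 : Q ≤ N(P)) (ho : Odd (orderOf y)) (y1 : y ∈ N(P)) (y2 : y ∈ N(Q))
    (k : ¬ ⁅Q, zpowers y⁆ ≤ C(P)) : Irr p Q P := fun L hL n => k (h.cent2 (hQ.of_le (commg_le_left (zpowers_le' y2))) (by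
  have m := nD P y1
  rw [← qpre_cent (pD P), ← quo_le_iff (commg_le_of_le (q1.trans (nD P)) (zpowers_le' m)), quo_cm (q1.trans (nD P)) m]
  exact QE.one h.el h.p2 hL (hQ.quo _) (quo_norms q1) n (odd_qm ho m) (qm_norm m y1) (qm_norm m y2)))

theorem dc (d : ⁅P, P⁆ ≠ ⊥) : El p 1 ⁅P, P⁆ P ∧ ⁅P, P⁆ ≤ C(P) :=
  have e := el1_mk h.hp (der_le P) (h.cd.antisymm (H4.le_card_of_ne_bot (h.pg.of_le (der_le P)) d))
  ⟨e, le_of_prime_of_inf_ne_bot e.prime_card (e.pg.meet_cent h.pg (pD P) d)⟩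

theorem center (i : Irr p S P) (n : S ≤ N(P)) (d : ⁅P, P⁆ ≠ ⊥) (hx : x ∈ P) (c : x ∈ C(P)) : x ∈ ⁅P, P⁆ :=
  (h.inv_sub i inf_le_left (norms_inf n (norms_cent n))).resolve_right
    (fun e => d (commg_eq_bot.2 (inf_eq_left.1 e))) ⟨hx, c⟩

/-- a faithful module for `p^{1+2}`, `p ≥ 5`, is large -/
theorem a3 (i : Irr p S P) (n : S ≤ N(P)) (hV : Abelem 2 V) (pV : P ≤ N(V)) (d : ¬ ⁅P, P⁆ ≤ C(V)) (hx : x ∈ P)
    (x1 : x ∉ ⁅P, P⁆) (j : C[x].relIndex V ≤ 256) : p = 3 := by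
  by_contra p3
  have p5 : 5 ≤ p := h.hp.five_le_of_ne_two_of_ne_three h.p2 p3
  have d1 : ⁅P, P⁆ ≠ ⊥ := fun e => d (e ▸ bot_le)
  obtain ⟨e, dc⟩ := h.dc d1
  have ce := fun x => h.center (x := x) i n d1
  have nd := pD P
  have dd : ∀ a ∈ P, ∀ b ∈ P, a * b * a⁻¹ * b⁻¹ ∈ ⁅P, P⁆ := fun a ha b hb => comm_mem ha hb
  generalize ⁅P, P⁆ = D at *
  have cp : ∀ {A}, A ≤ P → (#V).Coprime #A := fun l => (OG.cop (PiN.of_le h.og l) (ab_pg hV)).symm
  have wv := commg_le_left (e.le.trans pV)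
  have wc := ab_commg_inf_cent hV.1 (e.le.trans pV) (cp e.le)
  have wn := norms_comm pV nd
  have w1 : ⁅V, D⁆ ≠ ⊥ := fun k => d (cents_symm (commg_eq_bot.1 k))
  generalize ⁅V, D⁆ = W at *
  have hW := abelem_mono hV wv
  have wz : ∀ z ∈ D, z ≠ 1 → W ⊓ C[z] = ⊥ := fun z hz z1 => cent_eq_cent1_of_prime e.prime_card hz z1 ▸ wc
  have ex := el1_zpowers' h.hp hx (h.ex x hx) fun k => x1 (k ▸ one_mem _)
  have hA := e.sup2 ex (dc.trans (cent_mono ex.le)) fun k => x1 (k.ge (mem_zpowers x))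
  obtain ⟨u, hu, u1, u2, u3⟩ : ∃ u ∈ D ⊔ zpowers x, u ∉ D ∧ W ⊓ C[u] ≠ ⊥ ∧
      ∀ z ∈ D, z ≠ 1 → W ⊓ C[z * u] ⊓ C[x] = ⊥ := by
    by_cases k : W ⊓ C[x] = ⊥
    · obtain ⟨Y, hY, q⟩ := hA.exists_cent_ne_bot (hA.le.trans wn) ((ab_pg hW).sing_ne h.p2.symm) w1
      obtain ⟨u, u1, -, rfl⟩ := hY.exists_gen
      rw [cent_zpowers] at q
      exact ⟨u, hY.le (mem_zpowers u), fun m => q (wz u m u1), q, fun z _ _ =>
        eq_bot_mono (inf_le_inf_right _ inf_le_left) k⟩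
    · refine ⟨x, mem_sup_right (mem_zpowers x), x1, k, fun z hz z1 => eq_bot_iff.2 fun v hv => (wz z hz z1).le ⟨hv.1.1, ?_⟩⟩
      simpa using mem_cent1_symm.1 (mul_mem (mem_cent1_symm.1 hv.1.2) (inv_mem (mem_cent1_symm.1 hv.2)))
  have uP := hA.le hu
  obtain ⟨w, hw, z1⟩ : ∃ w ∈ P, w * u * w⁻¹ * u⁻¹ ≠ 1 := by
    by_contra! k
    exact u1 (ce u uP (mem_cent.2 fun y hy => mul_inv_eq_iff_eq_mul.1 (mul_inv_eq_one.1 (k y hy))))
  have hz := dd w hw u uP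
  have e1 : w * u * w⁻¹ = w * u * w⁻¹ * u⁻¹ * u := by group
  generalize w * u * w⁻¹ * u⁻¹ = z at *
  have e2 : ∀ k : ℕ, w ^ k * u * (w ^ k)⁻¹ = z ^ k * u := fun k => by
    induction k with
    | zero => simp
    | succ k ih =>
      calc _ = w * (w ^ k * u * (w ^ k)⁻¹) * w⁻¹ := by group
        _ = w * z ^ k * w⁻¹ * (w * u * w⁻¹) := by rw [ih]; group
        _ = _ := by rw [e1, mem_cent.1 (dc (pow_mem hz k)) w hw]; group
  have oz := orderOf_of_pow h.hp (h.ex z (e.le hz)) z1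
  have mA : ∀ k : ℕ, zpowers (z ^ k * u) ≤ D ⊔ zpowers x := fun k =>
    zpowers_le' (mul_mem (mem_sup_left (pow_mem hz k)) hu)
  have := cnt' hW.1 (Finset.range 4) (fun k => zpowers (z ^ (k + 1) * u)) (fun k _ => (mA _).trans (hA.le.trans wn))
    (fun k _ => (cp ((mA _).trans hA.le)).coprime_dvd_left (card_dvd wv))
    (fun k hk l hl ne => ⟨norms_of_comm hA.comm (mA _) (mA _), eq_bot_iff.2 fun v hv =>
      (wz (z ^ (l + 1) * (z ^ (k + 1))⁻¹) (mul_mem (pow_mem hz _) (inv_mem (pow_mem hz _))) fun q => ne (by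
        have := Finset.mem_range.1 hk
        have := Finset.mem_range.1 hl
        have := pow_injOn_Iio_orderOf (x := z) (by rw [oz, Set.mem_Iio]; omega) (by rw [oz, Set.mem_Iio]; omega)
          (mul_inv_eq_one.1 q)
        omega)).le ⟨hv.1.1, by
      rw [cent_zpowers, cent_zpowers] at hv
      simpa using mem_cent1_symm.1 (mul_mem (mem_cent1_symm.1 hv.1.2) (inv_mem (mem_cent1_symm.1 hv.2)))⟩⟩)
      (inf_le_left (b := cm V x)) (m := #(W ⊓ C[u])) fun k hk => by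
    have q := le_cm_of (norms_inf (ex.le.trans wn) (norms_cent (norms_of_comm hA.comm le_sup_right (mA (k + 1)))))
      ((cp ex.le).coprime_dvd_left (card_dvd (inf_le_left.trans wv))) ((ab_pg hW).infl _).sol (inf_le_left.trans wv) (by
        rw [cent_zpowers, cent_zpowers]
        refine u3 _ (pow_mem hz _) (pow_ne_one_of_lt_orderOf (by omega) ?_)
        have := Finset.mem_range.1 hk
        omega)
    refine le_trans ?_ (card_le (le_inf (le_inf inf_le_left q) inf_le_right))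
    rw [← card_cj (w ^ (k + 1)), cj_inf, cj_of_mem_norm (wn (pow_mem hw _)), cj_cent1, e2, cent_zpowers]
  have q := (this.trans (card_le inf_le_right)).trans ((cm_idx hV.1 (pV hx)).trans_le j)
  have h4 := ne_bot_iff_one_lt_card.1 u2
  have := Nat.le_of_dvd (by omega) (dvd_pred e.pg h.hp (norms_inf (e.le.trans wn) (cent_zpowers u ▸ norms_cent
    (norms_of_cents (dc.trans (cent_mono (zpowers_le' uP)))))) (eq_bot_mono (inf_le_inf_right _ inf_le_left) wc))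
  have := (Nat.pow_le_pow_left (show 6 ≤ _ by omega) _).trans q
  simp at this

theorem cVP (hS : PG 2 S) (sP : S ≤ N(P)) (sV : S ≤ N(V)) (i : Irr p S P) (pV : P ≤ N(V)) (k : ¬ P ≤ C(V)) :
    S ⊓ C(V) ≤ C(P) :=
  h.cent2 (hS.infl _) (le_Cm (inf_le_left.trans (sP.trans (nD P))) ((le_inf (commg_le_right (inf_le_left.trans sP))
    ((commutator_mono inf_le_right le_rfl).trans (commg_le_left (norms_cent pV)))).trans
      ((h.inv_sub i inf_le_left (norms_inf sP (norms_cent sV))).resolve_right fun e => k (inf_eq_left.1 e))))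

theorem core (hV : Abelem 2 V) (pV : P ≤ N(V)) (vc : V ⊓ C(P) = ⊥) (v1 : V ≠ ⊥) (hS : PG 2 S) (sP : S ≤ N(P))
    (sV : S ≤ N(V)) (i : Irr p S P) (cPV : S ⊓ C(P) ≤ C(V)) (bS : B ≤ S) (nB : ¬ B ≤ C(V)) (b2 : ∀ b ∈ B, b * b ∈ C(V))
    (off : C(B).relIndex V ≤ C(V).relIndex B ^ 2) : (p = 3 ∧ ¬ ⁅P, P⁆ ≤ C(V)) ∨ (p = 3 ∨ p = 5) ∧ ∃ K : Subgroup G,
      (∀ a ∈ N(P) ⊓ N(V), ∀ b ∈ N(P) ⊓ N(V), a ∉ K → b ∉ K → a * b ∈ K) ∧ ⁅K, K⁆ ≤ CM ⁅P, P⁆ P ∧
        ∀ k ∈ K, k ^ (p - 1) ∈ CM ⁅P, P⁆ P := by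
  have c1 := h.cVP hS sP sV i pV fun k => v1 (vc ▸ (inf_eq_left.2 (cents_symm k)).symm)
  have sD := sP.trans (nD P)
  have e : ∀ s ∈ S, s ∈ C(V) ↔ s ∈ CM ⁅P, P⁆ P := fun s hs => ⟨fun k => Cm_of_cent (zpowers_le' (sD hs))
    (zpowers_le' (c1 ⟨hs, k⟩)) (mem_zpowers s), fun k => cPV ⟨hs, h.cent2 (hS.of_le (zpowers_le' hs)) (zpowers_le' k)
      (mem_zpowers s)⟩⟩
  have e' : ∀ s ∈ S, s ∈ C(V) ↔ qm ⁅P, P⁆ s ∈ C(quo ⁅P, P⁆ P) := fun s hs => by
    rw [e s hs, ← qpre_cent (pD P), mem_qpre (sD hs)]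
  have e2 : C(V).relIndex B = C(quo ⁅P, P⁆ P).relIndex (quo ⁅P, P⁆ B) := by
    rw [← relIndex_pre _ (bS.trans sD), ← inf_relIndex_right, ← inf_relIndex_right (pre _ _)]
    congr 1
    ext s
    exact and_congr_left fun hs => (e' s (bS hs)).trans (mem_qpre (sD (bS hs))).symm
  have b3 : ∀ b ∈ quo ⁅P, P⁆ B, b * b ∈ C(quo ⁅P, P⁆ P) := fun b0 h0 => by
    obtain ⟨b, hb, n, rfl⟩ := mem_quo h0
    rw [← qm_mul n n, ← e' _ (bS (mul_mem hb hb))]
    exact b2 b hb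
  by_cases d : ⁅P, P⁆ ≤ C(V)
  swap
  · obtain ⟨a, ha, a1⟩ := SetLike.not_le_iff_exists.1 nB
    obtain ⟨y, hy, x1⟩ : ∃ y ∈ P, y * a * y⁻¹ * a⁻¹ ∉ ⁅P, P⁆ := by
      by_contra! k
      exact a1 ((e a (bS ha)).2 ⟨sD (bS ha), fun w hw => by simpa [mul_assoc] using inv_mem (k w hw)⟩)
    refine .inl ⟨h.a3 i sP hV pV d (by simpa only [mul_assoc] using mul_mem hy (conj_mem_of_norm (sP (bS ha)) (inv_mem hy)))
      x1 ((idx_comm (pV hy)).trans ?_), d⟩
    have : C(V).relIndex B ≤ 4 := e2 ▸ (bound h.el h.p2 ((hS.of_le bS).quo _) (quo_norms (bS.trans sP)) b3).elim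
      (·.trans (by norm_num)) (·.1)
    exact Nat.pow_le_pow_left ((relIndex_le_of_le_left (cent_le_cent1 ha) (relIndex_ne_zero' _ _)).trans
      (off.trans (Nat.pow_le_pow_left this 2))) 2
  have vD := norms_of_cents (cents_symm d)
  have dj : ⁅P, P⁆ ⊓ V = ⊥ := (PiN.of_le h.og (der_le P)).inf_eq_bot' (ab_pg hV)
  have ci : ∀ {A}, A ≤ N(⁅P, P⁆) → A ≤ N(V) → quo ⁅P, P⁆ V ⊓ C(quo ⁅P, P⁆ A) = quo ⁅P, P⁆ (V ⊓ C(A)) := fun a b =>
    quo_inf_cent a b (by rw [dj, card_bot]; exact Nat.coprime_one_left _) (.inr (dj ▸ sol_of_nil nil_bot))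
  have e3 : ∀ s ∈ S, s ∈ C(V) ↔ qm ⁅P, P⁆ s ∈ C(quo ⁅P, P⁆ V) := fun s hs => ⟨qm_cent (sD hs), fun k => by
    have := ci (zpowers_le' (sD hs)) (zpowers_le' (sV hs))
    rw [quo_zp (sD hs), inf_eq_left.2 (cents_symm (zpowers_le' k))] at this
    refine cents_symm (le_trans ?_ (inf_le_right (a := V))) (mem_zpowers s)
    exact (eq_of_le_of_card_eq inf_le_left (by rw [← card_quo_of_disjoint vD dj, this, card_quo_of_disjoint
      (inf_le_left.trans vD) (eq_bot_mono (inf_le_inf_left _ inf_le_left) dj)])).ge⟩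
  obtain ⟨k1, K, k2, k3, k4⟩ := coreA h.el h.p2 (abelem_quo hV ⁅P, P⁆) (quo_norms pV) (by rw [ci (pD P) pV, vc]; exact im_bot)
    (fun k => v1 (dj ▸ (inf_eq_right.2 ((quo_eq_bot_iff vD).1 k)).symm)) (hS.quo _) (quo_norms sP) (quo_norms sV) i
    (by
      ext s0
      refine and_congr_right fun h0 => ?_
      obtain ⟨s, hs, n, rfl⟩ := mem_quo h0
      exact (e3 s hs).symm.trans (e' s hs)) (quo_mono _ bS)
    (fun k => nB fun b hb => (e3 b (bS hb)).2 (k (qm_mem (sD (bS hb)) hb))) (fun b0 h0 => by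
      obtain ⟨b, hb, n, rfl⟩ := mem_quo h0
      rw [← qm_mul n n, ← e3 _ (bS (mul_mem hb hb))]
      exact b2 b hb) (by
      have q1 : C(quo ⁅P, P⁆ B).relIndex (quo ⁅P, P⁆ V) = C(B).relIndex V :=
        Nat.eq_of_mul_eq_mul_left (card_pos (C(B) ⊓ V)) (by
          rw [H19.card_inf_mul_relIndex, ← card_quo_of_disjoint vD dj, ← H19.card_inf_mul_relIndex C(quo _ B), inf_comm C(quo _ B),
            ci (bS.trans sD) (bS.trans sV), card_quo_of_disjoint (inf_le_left.trans vD)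
              (eq_bot_mono (inf_le_inf_left _ inf_le_left) dj), inf_comm V])
      have q2 : C(quo ⁅P, P⁆ V).relIndex (quo ⁅P, P⁆ B) = C(V).relIndex B := by
        rw [← relIndex_pre _ (bS.trans sD), ← inf_relIndex_right, ← inf_relIndex_right C(V)]
        congr 1
        ext s
        exact and_congr_left fun hs => (mem_qpre (sD (bS hs))).trans (e3 s (bS hs)).symm
      rwa [q1, q2])
  have n := qpre_le_norm K
  refine .inr ⟨k1, qpre _ K, fun a ha b hb a1 b1 => ?_, ?_, fun k hk => ?_⟩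
  · have m := nD P ha.1
    have m' := nD P hb.1
    rw [mem_qpre m] at a1
    rw [mem_qpre m'] at b1
    rw [mem_qpre (mul_mem m m'), qm_mul m m']
    exact k2 _ ⟨qm_norm m ha.1, qm_norm m ha.2⟩ _ ⟨qm_norm m' hb.1, qm_norm m' hb.2⟩ a1 b1
  · rwa [← qpre_cent (pD P), ← quo_le_iff (commg_le_of_le n n), quo_comm n n, quo_qpre]
  · rw [← qpre_cent (pD P), mem_qpre (pow_mem (n hk) _), qm_pow (n hk)]
    exact k4 _ ((mem_qpre (n hk)).1 hk)

end PP

end H4.QE
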