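/-
S5806: block coordinates and quaternions.
-/
import Cfsg.Agent.H4.SPb
import Cfsg.Agent.H12.SP1
import Mathlib.Algebra.QuaternionBasis

set_option autoImplicit false
set_option linter.unusedSectionVars false

namespace H4.SP
open Matrix Cfsg Cfsg.Geo H27.Asch Subgroup Module H6.SP
open H11.SP hiding dg
open H12.SP (ex_kr kr_neg ch)
open scoped Quaternion
universe u v

section
variable {k : Type u} [Field k]

/-- the blocks of `B⁻¹ x B` -/
noncomputable def bk (B : G6 k) : G6 k →* M32 k where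
  toFun x := (ex_kr (B⁻¹ * x * B).val).choose
  map_one' := kr_inj (by rw [(ex_kr _).choose_spec, kr_one]; simp)
  map_mul' x y := kr_inj (by simp only [kr_mul, (ex_kr _).choose_spec, ← Units.val_mul]; congr 1; group)
theorem kr_bk (B x : G6 k) : kr (bk B x) = (B⁻¹ * x * B).val := (ex_kr _).choose_spec
theorem bk_neg (B x : G6 k) : bk B (-x) = -bk B x := kr_inj (by rw [kr_neg, kr_bk, kr_bk]; simp)
theorem bk_inj (B : G6 k) : Function.Injective (bk B) := fun x y e => by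
  simpa using Units.ext ((kr_bk B x).symm.trans ((congrArg kr e).trans (kr_bk B y)))
theorem bk_T (B x : G6 k) : T x = ∑ i, (bk B x i i).trace := by
  have := T_conj B⁻¹ x
  rw [inv_inv] at this
  rw [← this, T, ← kr_bk]
  simp [trace, kr, sd, Fintype.sum_sum_type, Finset.sum_add_distrib]
theorem bk_det {B x : G6 k} (hB : B ∈ S6 k) (hx : x ∈ S6 k) (j : Fin 3) : ∑ i, (bk B x i j).det = 1 := by
  have := mem_S6.1 (mul_mem (mul_mem (inv_mem hB) hx) hB) (Pi.single (.inr j) 1) (Pi.single (.inl j) 1)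
  rw [← kr_bk, fm_ap, fm_ap, mulVec_single_one, mulVec_single_one] at this
  simp only [det_fin_two]
  convert this using 2
  · simp [kr, sd, mul_comm]
  · simp [Pi.single_apply]
theorem ad_kr (A : M32 k) : ad (kr A) = kr (of fun i j => (A j i).adjugate) := by
  refine ext_mulVec fun v => (spΦ 3 k).ext_right fun u => (fm_ad _ u v).symm.trans ?_
  change _ = fm _ _
  simp [fm_ap, mulVec, dotProduct, kr, sd, Fintype.sum_sum_type, Fin.sum_univ_three, adjugate_fin_two]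
  ring
theorem ex_bk {B : G6 k} (hB : B ∈ S6 k) {A : M32 k} (h : (of fun i j => (A j i).adjugate) * A = 1) : ∃ g ∈ S6 k, bk B g = A := by
  have e : ad (kr A) * kr A = 1 := by rw [ad_kr, ← kr_mul, h, kr_one]
  let g : G6 k := ⟨kr A, ad (kr A), mul_eq_one_comm.1 e, e⟩
  exact ⟨B * g * B⁻¹, mul_mem (mul_mem hB (mem_ad.2 rfl)) (inv_mem hB), kr_inj (by rw [kr_bk]; simp [mul_assoc, g])⟩

/-- the cyclic permutation of the blocks -/
def cyc {R : Type*} [Zero R] [One R] : Matrix (Fin 3) (Fin 3) R := !![0, 0, 1; 1, 0, 0; 0, 1, 0]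

theorem ex_B (c : I6 → V6 k) (h : ∀ i j, fm (c i) (c j) = J (Fin 3) k i j) :
    ∃ B ∈ S6 k, ∀ (g : G6 k) (A : M32 k), (∀ j, g.val *ᵥ c j = ∑ i, kr A i j • c i) → bk B g = A := by
  obtain ⟨M, hM'⟩ : ∃ M : M6 k, ∀ i j, M i j = c j i := ⟨Matrix.of fun i j => c j i, fun _ _ => rfl⟩
  have hM : ∀ j, M *ᵥ Pi.single j 1 = c j := fun j => by ext i; rw [mulVec_single_one]; exact hM' ..
  have hJ : Mᵀ * J _ k * M = J _ k := by
    ext i j
    rw [← h, ← hM, ← hM, ← fG_single (σ := RingHom.id k) (Mᵀ * J _ k * M)]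
    exact fG_mulVec (σ := RingHom.id k) (J _ k) _ _ _ _ |>.symm
  have hd : M.det ≠ 0 := fun e => by
    have := congrArg det hJ
    rw [det_mul, e, mul_zero] at this
    exact (isUnit_det_J (Fin 3) k).ne_zero this.symm
  refine ⟨GeneralLinearGroup.mkOfDetNeZero M hd, mem_J.2 hJ, fun g A h => kr_inj ?_⟩
  rw [kr_bk, mul_assoc, Units.val_mul, Units.inv_mul_eq_iff_eq_mul]
  ext i j
  change (g.val * M) i j = (M * kr A) i j
  have := congrFun (h j) i
  simp only [mul_apply, hM', mulVec, dotProduct, Finset.sum_apply, Pi.smul_apply, smul_eq_mul, mul_comm (c _ i)] at this ⊢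
  exact this

theorem mv' (x y : G6 k) (v : V6 k) : x.val *ᵥ (y.val *ᵥ v) = (x * y).val *ᵥ v := by rw [mulVec_mulVec]; rfl

theorem blk0 (h2 : (2 : k) ≠ 0) {a b w : G6 k} (ha : a ∈ S6 k) (hb : b ∈ S6 k) (a1 : a ≠ 1) (aa : a * a = 1) (bb : b * b = 1)
    (ab : b * a = a * b) (e1 : w * a = b * w) (e2 : w * b = a * b * w) (e3 : w * (a * b) = a * w) :
    ∃ u v, a.val *ᵥ u = u ∧ b.val *ᵥ u = -u ∧ a.val *ᵥ v = v ∧ b.val *ᵥ v = -v ∧ fm u v = -1 := by
  obtain ⟨e, he⟩ : ∃ e : V6 k → V6 k, ∀ x, e x = x + a.val *ᵥ x - b.val *ᵥ x - (a * b).val *ᵥ x := ⟨_, fun _ => rfl⟩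
  have ea : ∀ x, a.val *ᵥ e x = e x := fun x => by
    simp only [he, mulVec_add, mulVec_sub, mv', aa, ← mul_assoc, one_mul, Units.val_one, one_mulVec]; abel
  have eb : ∀ x, b.val *ᵥ e x = -e x := fun x => by
    simp only [he, mulVec_add, mulVec_sub, mv', ab, bb, ← mul_assoc, mul_assoc a b b, mul_one, Units.val_one, one_mulVec]; abel
  obtain ⟨x, hx⟩ : ∃ x, e x ≠ 0 := by
    by_contra! H
    have : a * b = 1 := gl_ext fun x => smul_right_injective _ h2 (by
      have h1 := H x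
      have h3 := congrArg (w.val *ᵥ ·) (H ((w⁻¹).val *ᵥ x))
      simp only [he, mulVec_add, mulVec_sub, mv', ← mul_assoc w _ w⁻¹, e1, e2, e3, mul_inv_cancel_right, mul_inv_cancel,
        Units.val_one, one_mulVec, mulVec_zero] at h1 h3 ⊢
      linear_combination (norm := module) -h1 - h3)
    exact a1 (by simpa [this] using e3.symm)
  obtain ⟨y, hy⟩ : ∃ y, fm (e x) y ≠ 0 := by
    by_contra! H
    exact hx (fm_nd H)
  have sa : ∀ {g : G6 k}, g ∈ S6 k → g * g = 1 → ∀ p q, fm p (g.val *ᵥ q) = fm (g.val *ᵥ p) q := fun hg gg p q => by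
    rw [← mem_S6.1 hg, mv', gg, Units.val_one, one_mulVec]
  have f4 : fm (e x) (e y) = 2 * 2 * fm (e x) y := by
    rw [he y, fm_sub_r, fm_sub_r, fm_add_r, ← mv' a b y, sa ha aa, sa ha aa, ea, sa hb bb, eb, fm_neg_l]; ring
  exact ⟨e x, (-(fm (e x) (e y))⁻¹) • e y, ea x, eb x, by rw [mulVec_smul, ea], by rw [mulVec_smul, eb, smul_neg], by
    rw [fm_smul_r, neg_mul, inv_mul_cancel₀ (by rw [f4]; exact mul_ne_zero (mul_ne_zero h2 h2) hy)]⟩

theorem sum_kr {V : Type*} [AddCommGroup V] [Module k V] (u u' u'' v v' v'' : V) :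
    (∀ j, ∑ i, kr (bl (1 : M2 k) (-1) (-1)) i j • Sum.elim ![u, u', u''] ![v, v', v''] i = Sum.elim ![u, -u', -u''] ![v, -v', -v''] j) ∧
    (∀ j, ∑ i, kr (bl (-1 : M2 k) 1 (-1)) i j • Sum.elim ![u, u', u''] ![v, v', v''] i = Sum.elim ![-u, u', -u''] ![-v, v', -v''] j) ∧
    ∀ j, ∑ i, kr (cyc : M32 k) i j • Sum.elim ![u, u', u''] ![v, v', v''] i = Sum.elim ![u', u'', u] ![v', v'', v] j := by
  refine ⟨?_, ?_, ?_⟩ <;> rintro (j | j) <;> fin_cases j <;>
    simp [-cons_val, cons_val_two, kr, sd, bl, cyc, Fintype.sum_sum_type, Fin.sum_univ_three]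

theorem blk (h2 : (2 : k) ≠ 0) {a b w : G6 k} (ha : a ∈ S6 k) (hw : w ∈ S6 k) (a1 : a ≠ 1) (aa : a * a = 1) (w3 : w ^ 3 = 1)
    (e1 : w * a = b * w) (e2 : w * b = a * b * w) :
    ∃ B ∈ S6 k, bk B a = bl 1 (-1) (-1) ∧ bk B b = bl (-1) 1 (-1) ∧ bk B w = cyc := by
  have eb : b = w * a * w⁻¹ := by rw [e1]; simp
  have hb : b ∈ S6 k := eb ▸ mul_mem (mul_mem hw ha) (inv_mem hw)
  have bb : b * b = 1 := by rw [eb, conj_mul, aa]; simp
  have ec : a * b = w * b * w⁻¹ := by rw [e2]; simp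
  have ab : b * a = a * b := by
    rw [eq_inv_of_mul_eq_one_left (show a * b * (a * b) = 1 by rw [ec, conj_mul, bb]; simp), _root_.mul_inv_rev,
      inv_eq_of_mul_eq_one_left aa, inv_eq_of_mul_eq_one_left bb]
  have e3 : w * (a * b) = a * w := by
    rw [ec, eb]
    calc _ = w ^ 3 * a * (w ^ 3)⁻¹ * w := by simp [pow_succ, mul_assoc]
      _ = _ := by simp [w3]
  obtain ⟨u, v, ua, ub, va, vb, uv⟩ := blk0 h2 ha hb a1 aa bb ab e1 e2 e3
  have k0 : ∀ {z}, a.val *ᵥ z = z → b.val *ᵥ z = -z → a.val *ᵥ w.val *ᵥ z = -(w.val *ᵥ z) ∧ b.val *ᵥ w.val *ᵥ z = w.val *ᵥ z ∧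
      a.val *ᵥ w.val *ᵥ w.val *ᵥ z = -(w.val *ᵥ w.val *ᵥ z) ∧ b.val *ᵥ w.val *ᵥ w.val *ᵥ z = -(w.val *ᵥ w.val *ᵥ z) ∧
      w.val *ᵥ w.val *ᵥ w.val *ᵥ z = z := fun {z} za zb => by
    have a1 : a.val *ᵥ w.val *ᵥ z = -(w.val *ᵥ z) := by rw [mv', ← e3, ← mv', ← mv', zb, mulVec_neg, za, mulVec_neg]
    have b1 : b.val *ᵥ w.val *ᵥ z = w.val *ᵥ z := by rw [mv', ← e1, ← mv', za]
    exact ⟨a1, b1, by rw [mv' a w, ← e3, ← mv', ← mv' a b, b1, a1, mulVec_neg], by rw [mv' b w, ← e1, ← mv', a1, mulVec_neg],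
      by rw [mv', mv', ← pow_three', w3, Units.val_one, one_mulVec]⟩
  obtain ⟨u1, u2, u3, u4, u5⟩ := k0 ua ub
  obtain ⟨v1, v2, v3, v4, v5⟩ := k0 va vb
  have f1 := mem_S6.1 hw u v
  have f2 := mem_S6.1 hw (w.val *ᵥ u) (w.val *ᵥ v)
  rw [uv] at f1
  rw [f1] at f2
  generalize eu : w.val *ᵥ u = u' at u1 u2 u3 u4 u5 f1 f2
  generalize ev : w.val *ᵥ v = v' at v1 v2 v3 v4 v5 f1 f2
  generalize eu' : w.val *ᵥ u' = u'' at u3 u4 u5 f2
  generalize ev' : w.val *ᵥ v' = v'' at v3 v4 v5 f2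
  have z : ∀ {g : G6 k} {p q}, g ∈ S6 k → g.val *ᵥ p = p → g.val *ᵥ q = -q → fm p q = 0 ∧ fm q p = 0 := fun {g p q} hg hp hq => by
    have := mem_S6.1 hg p q
    rw [hp, hq, fm_neg_r] at this
    have : fm p q = 0 := mul_left_cancel₀ h2 (by linear_combination -this)
    exact ⟨this, by rw [fm_swap, this, neg_zero]⟩
  obtain ⟨B, hB, key⟩ := ex_B (Sum.elim ![u, u', u''] ![v, v', v'']) (by
    rintro (i | i) (j | j) <;> fin_cases i <;> fin_cases j <;>
      simp [J, uv, f1, f2, fm_swap v u, fm_swap v' u', fm_swap v'' u'', z ha ua u1, z ha ua u3, z ha ua v1, z ha ua v3, z ha va u1,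
        z ha va u3, z ha va v1, z ha va v3, z hb u2 u4, z hb u2 v4, z hb v2 u4, z hb v2 v4])
  obtain ⟨s1, s2, s3⟩ := sum_kr (k := k) u u' u'' v v' v''
  refine ⟨B, hB, key _ _ fun j => .trans ?_ (s1 j).symm, key _ _ fun j => .trans ?_ (s2 j).symm,
    key _ _ fun j => .trans ?_ (s3 j).symm⟩ <;> rcases j with j | j <;> fin_cases j
  exacts [ua, u1, u3, va, v1, v3, ub, u2, u4, vb, v2, v4, eu, eu', u5, ev, ev', v5]

/-- quaternion units -/
structure Qu (I J : M2 k) : Prop where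
  two : (2 : k) ≠ 0
  ii : I * I = -1
  jj : J * J = -1
  ji : J * I = -(I * J)

namespace Qu
variable {I J m : M2 k} (h : Qu I J)
include h
theorem tri : I.trace = 0 := mul_left_cancel₀ h.two (by
  have := trace_mul_comm (J * I) J
  rw [← mul_assoc, h.jj, h.ji, neg_mul, mul_assoc, h.jj] at this
  simp at this; linear_combination this)
theorem symm : Qu J I := ⟨h.two, h.jj, h.ii, by rw [h.ji, neg_neg]⟩
theorem rot : Qu J (I * J) := ⟨h.two, h.jj, by rw [mul_assoc, ← mul_assoc J, h.ji]; simp [← mul_assoc, h.ii, mul_assoc _ J, h.jj],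
  by rw [← mul_assoc J, h.ji]; simp⟩
theorem trj : J.trace = 0 := h.symm.tri
theorem trk : (I * J).trace = 0 := h.rot.trj
theorem dti : I.det = 1 := by
  have := congrFun (congrFun (ch I) 0) 0
  simpa [h.ii, h.tri, eq_comm] using this
theorem adi : I.adjugate = -I := by
  have := h.tri
  rw [trace_fin_two] at this
  rw [adjugate_fin_two]; ext i j; fin_cases i <;> fin_cases j <;> simp <;> linear_combination this
theorem scal (hi : m * I = I * m) (hj : m * J = J * m) : ∃ c : k, m = c • 1 := by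
  have a : ∀ {I J}, Qu I J → m * I = I * m → ∃ c d : k, m = c • 1 + d • I := fun {I J} h hi => by
    have t := h.tri
    have d := h.dti
    have h2 := h.two
    have e := fun i j => congrFun (congrFun hi i) j
    have e0 := e 0 0
    have e1 := e 0 1
    have e2 := e 1 0
    simp only [trace_fin_two, det_fin_two, mul_apply, Fin.sum_univ_two] at t d e0 e1 e2
    refine ⟨m.trace / 2, -(m * I).trace / 2, ?_⟩
    have t' : I 1 1 = -I 0 0 := by linear_combination t
    rw [t'] at d e1 e2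
    ext i j; fin_cases i <;> fin_cases j <;> simp [trace_fin_two, mul_apply, Fin.sum_univ_two, t'] <;> field_simp
    · linear_combination -(m 0 0 - m 1 1) * d - I 1 0 * e1 - I 0 0 * e0
    · linear_combination -2 * m 0 1 * d - I 0 1 * e0 + I 0 0 * e1
    · linear_combination -2 * m 1 0 * d + I 1 0 * e0 - I 0 0 * e2
    · linear_combination (m 0 0 - m 1 1) * d + I 1 0 * e1 + I 0 0 * e0
  obtain ⟨c, d, rfl⟩ := a h hi
  refine ⟨c, ?_⟩
  have : (2 * d) • (I * J) = 0 := by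
    simp only [add_mul, mul_add, smul_mul_assoc, mul_smul_comm, one_mul, mul_one, h.ji] at hj
    linear_combination (norm := module) hj
  have d0 : d = 0 := by
    have e := congrArg det this
    rw [det_smul, h.rot.symm.dti] at e
    simpa [h.two] using e
  simp [d0]
end Qu

section
variable {R : Type*} [CommRing R] (f : R →+* k) {I J : M2 k} (h : Qu I J)
/-- quaternions as matrices -/
def qh : ℍ[R] →+* M2 k :=
  letI := f.toAlgebra
  (QuaternionAlgebra.Basis.liftHom (A := M2 k) (c₁ := -1) (c₂ := 0) (c₃ := -1)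
    ⟨I, J, I * J, by simp [h.ii], by simp [h.jj], rfl, by simp [h.ji]⟩).toRingHom
theorem qh_ap (q : ℍ[R]) : qh f h q = f q.re • 1 + f q.imI • I + f q.imJ • J + f q.imK • (I * J) := by
  letI := f.toAlgebra
  rw [← Algebra.algebraMap_eq_smul_one]; rfl
theorem qh_tr (q : ℍ[R]) : (qh f h q).trace = 2 * f q.re := by simp [qh_ap, h.tri, h.trj, h.trk, mul_comm]
theorem qh_star (q : ℍ[R]) : qh f h (star q) = (qh f h q).adjugate := by
  have h1 := h.tri
  have h2 := h.trj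
  have h3 := h.trk
  rw [qh_ap, qh_ap, adjugate_fin_two]
  generalize I * J = K at h3
  rw [trace_fin_two] at h1 h2 h3
  ext i j; fin_cases i <;> fin_cases j <;> simp
  · linear_combination -f q.imI * h1 - f q.imJ * h2 - f q.imK * h3
  · ring
  · ring
  · linear_combination -f q.imI * h1 - f q.imJ * h2 - f q.imK * h3
end
end

end H4.SP
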