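/-
S5806, chunk J2o: the field of definition of `2·J₂ ≤ Sp₆`.
-/
import Cfsg.Agent.H4.SPc
import Cfsg.Agent.H15.J2

set_option autoImplicit false
set_option linter.unusedSectionVars false

namespace H4.SP
open Matrix Cfsg Cfsg.Geo H27.Asch Subgroup Module H6.SP
open H11.SP hiding dg
open H12.SP (bl_mul bl_inj bl_neg bl_one)
open scoped Quaternion
universe u v

section
variable {k : Type u} [Field k] {A : M32 k} {a b c I J m : M2 k}

theorem diag_of (h2 : (2 : k) ≠ 0) (h1 : A * bl 1 (-1) (-1) = bl 1 (-1) (-1) * A) (h3 : A * bl (-1) 1 (-1) = bl (-1) 1 (-1) * A) :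
    ∃ a b c, A = bl a b c := by
  have := NeZero.mk h2
  have z : ∀ {x : M2 k}, x = -x ↔ x = 0 := ⟨eq_zero_of_neg (F := k), fun e => by simp [e]⟩
  have z' : ∀ {x : M2 k}, -x = x ↔ x = 0 := eq_comm.trans z
  rw [eta_fin_three A] at h1 h3 ⊢
  simp [bl, mul_fin_three, z, z'] at h1 h3
  exact ⟨A 0 0, A 1 1, A 2 2, by simp [bl, h1, h3]⟩
theorem cyc_comm (h : bl a b c * cyc = cyc * bl a b c) : b = a ∧ c = a := by
  simp [bl, cyc, mul_fin_three] at h
  exact ⟨h.2.1, h.1.symm⟩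
theorem bl_det {B x : G6 k} (hB : B ∈ S6 k) (hx : x ∈ S6 k) (e : bk B x = bl a b c) : a.det = 1 ∧ b.det = 1 ∧ c.det = 1 := by
  have := bk_det hB hx
  simpa [e, bl, Fin.forall_fin_succ, Fin.sum_univ_three] using this
theorem bl_neg_one : (-1 : M32 k) = bl (-1) (-1) (-1) := by rw [← bl_one, bl_neg]

theorem Qu.nrm (h : Qu I J) (hi : m * I = I * m ∨ m * I = -(I * m)) (hj : m * J = J * m ∨ m * J = -(J * m)) (d : m.det = 1)
    {S : Subring (M2 k)} (hI : I ∈ S) (hJ : J ∈ S) : m ∈ S := by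
  have key : ∀ q ∈ S, q.det = 1 → q * q = -1 ∨ q = -1 → m * q * I = I * (m * q) → m * q * J = J * (m * q) → m ∈ S :=
    fun q hq dq qq h1 h3 => by
      obtain ⟨c, e⟩ := h.scal h1 h3
      have : c ^ 2 = 1 := by simpa [d, dq] using (congrArg det e).symm
      have : m * q ∈ S := by rcases sq_eq_one_iff.1 this with rfl | rfl <;> simp [e, neg_mem, one_mem]
      rcases qq with qq | rfl
      · simpa [mul_assoc, qq] using neg_mem (mul_mem this hq)
      · simpa using neg_mem this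
  have ij : ∀ x, J * (I * x) = -(I * (J * x)) := fun x => by rw [← mul_assoc, h.ji, neg_mul, mul_assoc]
  have e1 : ∀ {s : ℤ} x, m * I = s • (I * m) → m * (I * x) = s • (I * (m * x)) := fun x e => by
    rw [← mul_assoc, e, smul_mul_assoc, mul_assoc]
  have e2 : ∀ {s : ℤ} x, m * J = s • (J * m) → m * (J * x) = s • (J * (m * x)) := fun x e => by
    rw [← mul_assoc, e, smul_mul_assoc, mul_assoc]
  rcases hi with hi | hi <;> rcases hj with hj | hj
  · exact key (-1) (neg_mem (one_mem _)) (by simp [det_neg]) (.inr rfl) (by simp [hi]) (by simp [hj])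
  · exact key I hI h.dti (.inl h.ii) (by simp [mul_assoc, e1 (s := 1) _ (by simpa), hi, h.ii])
      (by simp [mul_assoc, e1 (s := 1) _ (by simpa), hi, hj, ij])
  · exact key J hJ h.symm.dti (.inl h.jj) (by simp [mul_assoc, e1 (s := -1) _ (by simpa), h.ji])
      (by simp [mul_assoc, e2 (s := 1) _ (by simpa), hj])
  · exact key (I * J) (mul_mem hI hJ) h.rot.symm.dti (.inl h.rot.jj)
      (by simp [mul_assoc, e1 (s := -1) _ (by simpa), h.ji]) (by simp [mul_assoc, e1 (s := -1) _ (by simpa), e2 (s := -1) _ (by simpa), hj, ij])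

theorem no_neg [IsAlgClosed k] (h2 : (2 : k) ≠ 0) {a j : G6 k} (ha : a ∈ S6 k) (aa : a ^ 2 = 1) (e : j * a = -(a * j)) : False := by
  classical
  obtain ⟨φ, d, -, t, rfl, -⟩ := tor2 ha ha rfl (m := 2) (n := 2) h2 h2 aa aa
  have r : rk (φ (-d)) = rk (φ d) := by rw [← rk_conj j (φ d), e, t.neg]; simp
  simp only [t.rk, Finset.card_filter, Fin.sum_univ_three] at r
  have k : ∀ i, (if (-d) i ≠ 1 then 1 else 0) + (if d i ≠ 1 then 1 else 0) = 1 := fun i => by
    have n : (-1 : kˣ) ≠ 1 := fun e => h2 (by have := congrArg Units.val e; simp at this; linear_combination -this)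
    rcases sq_eq_one_iff.1 (show (d i : k) ^ 2 = 1 by simpa using congrArg Units.val (t.pw aa i)) with e | e
    · simp [Units.val_eq_one.1 e, n]
    · simp [show d i = -1 from Units.ext e, n]
  have := k 0; have := k 1; have := k 2
  omega

theorem five {A : Matrix (Fin 3) (Fin 3) k} (h5 : (5 : k) ≠ 0) (a5 : A ^ 5 = 1) (d : A.det = 1) (t4 : (A ^ 4).trace = A.trace)
    (t2 : (A ^ 2).trace = A.trace) : A = 1 := by
  have ad : A.adjugate = A ^ 4 := by
    rw [← one_mul A.adjugate, ← a5, pow_succ, mul_assoc, mul_adjugate, d, one_smul, mul_one]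
  have ch : A * A = A.trace • A - A.adjugate.trace • 1 + A.adjugate := by
    rw [adjugate_fin_three]; ext i j
    fin_cases i <;> fin_cases j <;> simp [mul_apply, Fin.sum_univ_three, trace_fin_three] <;> ring
  have c3 : A ^ 3 = A.trace • A ^ 2 - A.trace • A + 1 := by
    rw [pow_three, ch, mul_add, mul_adjugate, d, ad, t4]; simp [mul_sub, sq]
  have := congrArg trace ch
  rw [← sq, t2, ad] at this
  simp [t4] at this
  generalize A.trace = x at c3 this
  rcases mul_eq_zero.1 (show x * (x - 3) = 0 by linear_combination this) with rfl | e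
  · have c3 : A ^ 3 = 1 := by simpa using c3
    calc A = A ^ 5 * A := by rw [a5, one_mul]
      _ = 1 := by rw [← pow_succ, show 5 + 1 = 3 * 2 from rfl, pow_mul, c3, one_pow]
  obtain rfl : x = 3 := sub_eq_zero.1 e
  obtain ⟨N, rfl⟩ : ∃ N, A = N + 1 := ⟨A - 1, by simp⟩
  have n3 : N * N * N = 0 := by
    simp only [pow_succ, pow_zero, one_mul, mul_add, add_mul, mul_one] at c3
    linear_combination (norm := module) c3
  have : (5 : k) • (N + (2 : k) • (N * N)) = 0 := by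
    simp only [pow_succ, pow_zero, one_mul, mul_add, add_mul, mul_one, n3, zero_mul] at a5
    linear_combination (norm := module) a5
  have e := (smul_eq_zero.1 this).resolve_left h5
  have : N * N = 0 := by simpa [add_mul, n3] using congrArg (· * N) e
  simpa [this] using e

theorem T_pow' (p : ℕ) [Fact p.Prime] [CharP k p] (n : ℕ) (x : G6 k) : T (x ^ p ^ n) = T x ^ p ^ n := by
  induction n with
  | zero => simp
  | succ n ih => rw [pow_succ, pow_mul, pow_mul, T_pow, ih]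

theorem tfx (p n : ℕ) [Fact p.Prime] [CharP k p] {y : G6 k} (hy : y ∈ S6 k) {m r : ℕ} (e : y ^ m = 1) (hr : p ^ n % m = r)
    (h : r * r % m = r ∨ (r * r + r) % m = 0) : T y ∈ fx k p n := by
  have e1 : y ^ p ^ n = y ^ r := by rw [pow_eq_pow_mod _ e, hr]
  have e2 : (y ^ p ^ n) ^ p ^ n = y ^ (r * r) := by rw [e1, pow_right_comm, e1, pow_mul]
  refine mem_fx.2 ((iterateFrobenius k p n).injective ?_)
  simp only [iterateFrobenius_def, ← T_pow', e2]
  rw [e1]
  rcases h with h | h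
  · rw [pow_eq_pow_mod _ e, h]
  · rw [← T_inv (pow_mem hy r), eq_inv_of_mul_eq_one_left (show y ^ (r * r) * y ^ r = 1 by
      rw [← pow_add, pow_eq_pow_mod _ e, h, pow_zero])]
end

/-- a configuration in `J₂` -/
structure JC {X : Type*} [Group X] (x y b c t s g v w : X) : Prop where
  g1 : Subgroup.closure {x, y} = ⊤
  g2 : Subgroup.closure {t, s, g} = ⊤
  x1 : x ≠ 1
  s1 : s ≠ 1
  v1 : v ≠ 1
  x2 : x ^ 2 = 1
  y3 : y ^ 3 = 1
  z7 : (x * y) ^ 7 = 1
  c1 : c * x = b * c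
  c2 : c * b = x * b * c
  t3 : t ^ 3 = 1
  s5 : s ^ 5 = 1
  tx : t * x = x * t
  tb : t * b = b * t
  sx : s * x = x * s
  sb : s * b = b * s
  ev : s * s * t * s = v
  v2 : v ^ 2 = 1
  e1 : t * v = w * t
  e2 : t * w = v * w * t
  gv : g * v = v * g
  gw : g * w = w * g
  gx : g * x = v * w * x * g
  gb : g * b = v * b * g
  o1 : (s * v) ^ 5 = 1
  o2 : (s * w) ^ 2 = 1
  o3 : (s * t) ^ 3 = 1
  o4 : (s * t * v) ^ 5 = 1
  o5 : (s * t * w) ^ 2 = 1
  o6 : (s * t * t) ^ 5 = 1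
  o7 : (s * t * t * v) ^ 3 = 1
  o8 : (s * t * t * w) ^ 2 = 1

section
open H16
def jW : List (List ℕ) := [[0, 2, 0, 2, 0, 2, 4, 3, 2, 4, 2, 4], [2, 3], [0, 0, 2, 1, 3, 2, 1, 2, 4, 2, 1, 2, 1, 3, 2, 1], [0, 0, 4, 2, 1, 2, 0, 2], [3, 2, 0, 2, 0, 0, 4, 2, 1, 2, 4, 2, 4], [0, 2, 0, 3, 4, 2, 4, 2, 0], [0, 2, 1, 3, 2, 4, 2, 3], [2, 0, 2, 4, 3, 2, 4, 2, 3, 4, 2, 1, 2], [1, 2, 0, 0, 4, 2, 0]]

theorem jc : ∃ x y b c t s g v w : gen J2.g 5, JC x y b c t s g v w := by
  have c1 : allL (ltAll 5) jW = true := by decide +kernel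
  have a := J2.act.ext c1 14
  have b : IsBase (gen (ext J2.g 5 jW) 14) (ptF 100) J2.B := (gen_ext (g := J2.g) (K' := 14) c1 (by norm_num)).symm ▸ J2.isBase
  obtain ⟨e, he⟩ : ∃ e : ℕ → gen J2.g 5, ∀ i, (e i).1 = ext J2.g 5 jW i := ⟨fun i => ⟨_, ext_mem c1 i⟩, fun _ => rfl⟩
  have k : ∀ W W', eqL (extP J2.P 5 jW) 14 J2.B W W' = 0 → evA e W = evA e W' := fun W W' h => Subtype.ext (by
    have := fun W => map_evA e (gen J2.g 5).subtype W
    simp only [coe_subtype, he] at this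
    rw [this, this]; exact eqL_sound a J2.Blt b h)
  have n : ∀ i < 14, extP J2.P 5 jW i 0 ≠ 0 → e i ≠ 1 := fun i hi h e1 => by
    have := a i hi 0 (by decide)
    rw [← he, e1] at this
    exact h (ptF_inj 100 _ this.1 _ (by decide) this.2.symm)
  have m : ∀ {A : Subgroup (gen J2.g 5)} i W, eqL (extP J2.P 5 jW) 14 J2.B [i] W = 0 → (∀ j ∈ W, e j ∈ A) → e i ∈ A :=
    fun i W h hW => by simpa [← k _ _ h] using evA_mem e hW
  have top : ∀ {A : Subgroup (gen J2.g 5)}, e 9 ∈ A → e 10 ∈ A → e 11 ∈ A → A = ⊤ := fun {A} h9 h10 h11 => eq_top_iff.2 fun x _ => by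
    obtain ⟨y, hy, e'⟩ := (gen_le (A := A.map (gen J2.g 5).subtype)).2 (fun i hi => ⟨e i, by
      interval_cases i
      exacts [m 0 [10, 9, 9, 10, 10, 11, 10, 10, 11, 10, 9, 11, 9, 10, 10, 11] (by decide +kernel) (by simp [*]), m 1 [9, 9, 10, 11, 10, 11, 9, 10, 11, 9, 11, 9, 10, 9, 11, 9] (by decide +kernel) (by simp [*]), m 2 [11, 10, 11, 9, 10, 11, 11, 11, 10, 11] (by decide +kernel) (by simp [*]), m 3 [9, 9, 10, 11, 10, 9, 10, 9, 11, 10, 10, 11, 10, 9, 11] (by decide +kernel) (by simp [*]), m 4 [10, 10, 10, 11, 10, 10, 11, 10, 10] (by decide +kernel) (by simp [*])],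
      (he i).trans (ext_lt hi)⟩) x.2
    exact Subtype.ext e' ▸ hy
  have h5 : e 5 ∈ Subgroup.closure {e 5, e 6} := subset_closure (by simp)
  have h6 : e 6 ∈ Subgroup.closure {e 5, e 6} := subset_closure (by simp)
  refine ⟨e 5, e 6, e 7, e 8, e 9, e 10, e 11, e 12, e 13, top
    (m 9 [6, 6, 5, 6, 6, 5, 6, 5, 6, 6, 5, 6, 5, 6, 6, 5, 6, 5, 6, 6, 5, 6, 5, 6, 6, 5, 6, 5, 6, 6, 5, 6, 6, 5, 6, 5, 6, 6, 5, 6, 5, 6, 5, 6, 6, 5, 6, 6, 5, 6, 5, 6, 6, 5, 6, 5, 6, 5, 6, 6] (by decide +kernel) (by simp [h5, h6]))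
    (m 10 [5, 6, 5, 6, 6, 5, 6, 6, 5, 6, 5, 6, 6, 5, 6, 6, 5, 6, 5, 6, 6, 5, 6, 5, 6, 5, 6, 6, 5, 6, 6, 5, 6, 5, 6, 6, 5, 6, 5, 6, 6, 5, 6, 5, 6, 5, 6, 6, 5, 6, 6, 5, 6, 5, 6, 5, 6, 6, 5, 6] (by decide +kernel) (by simp [h5, h6]))
    (m 11 [5, 6, 6, 5, 6, 5, 6, 5, 6, 6, 5, 6, 5, 6, 6, 5, 6, 6, 5, 6, 5, 6, 6, 5, 6, 5, 6, 6, 5, 6, 5, 6, 5, 6, 6, 5, 6, 6, 5, 6, 5, 6, 6, 5, 6, 5, 6, 5, 6, 6, 5, 6, 5, 6, 6, 5, 6, 6, 5, 6, 5, 6, 5, 6] (by decide +kernel) (by simp [h5, h6])),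
    top (subset_closure (by simp)) (subset_closure (by simp)) (subset_closure (by simp)), n 5 (by decide) (by decide +kernel),
    n 10 (by decide) (by decide +kernel), n 12 (by decide) (by decide +kernel), ?_, ?_, ?_, ?_, ?_, ?_, ?_, ?_, ?_, ?_, ?_, ?_, ?_, ?_, ?_, ?_, ?_, ?_, ?_, ?_, ?_, ?_, ?_, ?_, ?_, ?_, ?_⟩
  · simpa only [evA_cons, evA_nil, pow_succ, pow_zero, one_mul, mul_assoc] using k [5, 5] [] (by decide +kernel)
  · simpa only [evA_cons, evA_nil, pow_succ, pow_zero, one_mul, mul_assoc] using k [6, 6, 6] [] (by decide +kernel)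
  · simpa only [evA_cons, evA_nil, pow_succ, pow_zero, one_mul, mul_assoc] using k [6, 5, 6, 5, 6, 5, 6, 5, 6, 5, 6, 5, 6, 5] [] (by decide +kernel)
  · simpa only [evA_cons, evA_nil, pow_succ, pow_zero, one_mul, mul_assoc] using k [5, 8] [8, 7] (by decide +kernel)
  · simpa only [evA_cons, evA_nil, pow_succ, pow_zero, one_mul, mul_assoc] using k [7, 8] [8, 7, 5] (by decide +kernel)
  · simpa only [evA_cons, evA_nil, pow_succ, pow_zero, one_mul, mul_assoc] using k [9, 9, 9] [] (by decide +kernel)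
  · simpa only [evA_cons, evA_nil, pow_succ, pow_zero, one_mul, mul_assoc] using k [10, 10, 10, 10, 10] [] (by decide +kernel)
  · simpa only [evA_cons, evA_nil, pow_succ, pow_zero, one_mul, mul_assoc] using k [5, 9] [9, 5] (by decide +kernel)
  · simpa only [evA_cons, evA_nil, pow_succ, pow_zero, one_mul, mul_assoc] using k [7, 9] [9, 7] (by decide +kernel)
  · simpa only [evA_cons, evA_nil, pow_succ, pow_zero, one_mul, mul_assoc] using k [5, 10] [10, 5] (by decide +kernel)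
  · simpa only [evA_cons, evA_nil, pow_succ, pow_zero, one_mul, mul_assoc] using k [7, 10] [10, 7] (by decide +kernel)
  · simpa only [evA_cons, evA_nil, pow_succ, pow_zero, one_mul, mul_assoc] using k [10, 9, 10, 10] [12] (by decide +kernel)
  · simpa only [evA_cons, evA_nil, pow_succ, pow_zero, one_mul, mul_assoc] using k [12, 12] [] (by decide +kernel)
  · simpa only [evA_cons, evA_nil, pow_succ, pow_zero, one_mul, mul_assoc] using k [12, 9] [9, 13] (by decide +kernel)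
  · simpa only [evA_cons, evA_nil, pow_succ, pow_zero, one_mul, mul_assoc] using k [13, 9] [9, 13, 12] (by decide +kernel)
  · simpa only [evA_cons, evA_nil, pow_succ, pow_zero, one_mul, mul_assoc] using k [12, 11] [11, 12] (by decide +kernel)
  · simpa only [evA_cons, evA_nil, pow_succ, pow_zero, one_mul, mul_assoc] using k [13, 11] [11, 13] (by decide +kernel)
  · simpa only [evA_cons, evA_nil, pow_succ, pow_zero, one_mul, mul_assoc] using k [5, 11] [11, 5, 13, 12] (by decide +kernel)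
  · simpa only [evA_cons, evA_nil, pow_succ, pow_zero, one_mul, mul_assoc] using k [7, 11] [11, 7, 12] (by decide +kernel)
  · simpa only [evA_cons, evA_nil, pow_succ, pow_zero, one_mul, mul_assoc] using k [12, 10, 12, 10, 12, 10, 12, 10, 12, 10] [] (by decide +kernel)
  · simpa only [evA_cons, evA_nil, pow_succ, pow_zero, one_mul, mul_assoc] using k [13, 10, 13, 10] [] (by decide +kernel)
  · simpa only [evA_cons, evA_nil, pow_succ, pow_zero, one_mul, mul_assoc] using k [9, 10, 9, 10, 9, 10] [] (by decide +kernel)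
  · simpa only [evA_cons, evA_nil, pow_succ, pow_zero, one_mul, mul_assoc] using k [12, 9, 10, 12, 9, 10, 12, 9, 10, 12, 9, 10, 12, 9, 10] [] (by decide +kernel)
  · simpa only [evA_cons, evA_nil, pow_succ, pow_zero, one_mul, mul_assoc] using k [13, 9, 10, 13, 9, 10] [] (by decide +kernel)
  · simpa only [evA_cons, evA_nil, pow_succ, pow_zero, one_mul, mul_assoc] using k [9, 9, 10, 9, 9, 10, 9, 9, 10, 9, 9, 10, 9, 9, 10] [] (by decide +kernel)
  · simpa only [evA_cons, evA_nil, pow_succ, pow_zero, one_mul, mul_assoc] using k [12, 9, 9, 10, 12, 9, 9, 10, 12, 9, 9, 10] [] (by decide +kernel)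
  · simpa only [evA_cons, evA_nil, pow_succ, pow_zero, one_mul, mul_assoc] using k [13, 9, 9, 10, 13, 9, 9, 10] [] (by decide +kernel)
end

section
variable {K : Type u} [Field K] [IsAlgClosed K] {X : Type*} [Group X] {P : Subgroup (G6 K)} {π : P →* X} {x y b c t s g v w : X}

theorem JC.q8 (sc : SC.{u}) (C : CS.{u}) (h2 : (2 : K) ≠ 0) (h : Rq P π) (H : JC x y b c t s g v w) {i j : P} (ei : π i = x)
    (ej : π j = b) : i.1 * i = -1 ∧ j.1 * j = -1 ∧ j.1 * i = -(i.1 * j) := by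
  obtain ⟨y, rfl, y3⟩ := ex_odd h (by decide) H.y3
  have i2 : i.1 ^ 2 = -1 := (pm h (ei ▸ H.x2)).resolve_left fun e => by
    have := sc3 sc h2 h (x := i) (y := y) (by rw [Gn, ei]; exact H.g1)
    have n := ne_pm h (ei ▸ H.x1)
    have := (C K h2 i (h.sp i.2)).2.1 e n.1 n.2
    have := (C K h2 y (h.sp y.2)).2.2.2.1 (congrArg Subtype.val y3)
    have := (cs_odd C h2 h (x := i * y)).2 (by rw [map_mul, ei]; exact H.z7)
    omega
  have q : ∀ {i j : P}, i.1 ^ 2 = -1 → IsConj (π i) (π j) → j.1 ^ 2 = -1 := fun i2 e => by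
    obtain ⟨g, e | e⟩ := cj_pm h e <;> simp [e, conj_pow, i2]
  have j2 := q (j := j) i2 (cj c (by rw [ei, ej, H.c1]; simp))
  have k2 := q (j := i * j) j2 (cj c (by rw [map_mul, ei, ej, H.c2]; simp))
  rw [sq] at i2 j2 k2
  refine ⟨i2, j2, ?_⟩
  calc j.1 * i = -(i.1 * i) * j * i * -(j.1 * j) := by simp [i2, j2]
    _ = i.1 * ((i * j).1 * (i * j).1) * j := by simp [mul_assoc]
    _ = _ := by rw [k2]; simp

set_option maxHeartbeats 800000 in
theorem JC.main (sc : SC.{u}) (C : CS.{u}) (h2 : (2 : K) ≠ 0) (h : Rq P π) (H : JC x y b c t s g v w) :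
    (∃ z : P, z.1 ^ 5 = 1 ∧ ((5 : K) ≠ 0 → T (z.1 ^ 2) ≠ T z.1)) ∧
    ∀ K0 : Subfield K, (∀ y : P, π y ^ 2 = 1 ∨ π y ^ 3 = 1 ∨ π y ^ 5 = 1 → T y.1 ∈ K0) → ∀ y : P, T y.1 ∈ K0 := by
  obtain ⟨i, ei⟩ := h.sur x
  obtain ⟨j, ej⟩ := h.sur b
  obtain ⟨ii, jj, ji⟩ := H.q8 sc C h2 h ei ej
  obtain ⟨t, rfl, t3⟩ := ex_odd h (by decide) H.t3
  obtain ⟨s, rfl, s5⟩ := ex_odd h (by decide) H.s5
  obtain ⟨g, rfl⟩ := h.sur g
  have ti : Commute t i := cm_odd h (by decide) (ei ▸ H.tx) t3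
  have tj : Commute t j := cm_odd h (by decide) (ej ▸ H.tb) t3
  have si : Commute s i := cm_odd h (by decide) (ei ▸ H.sx) s5
  have sj : Commute s j := cm_odd h (by decide) (ej ▸ H.sb) s5
  have m1 : π (i * i) = 1 := (h.ker _).2 (.inr ii)
  obtain ⟨a, ea, aa, e2⟩ : ∃ a : P, π a = v ∧ a.1 * a = 1 ∧ t.1 * (t * a * t⁻¹).1 = a * (t * a * t⁻¹).1 * t := by
    have vi := (((si.mul_left si).mul_left ti).mul_left si).map P.subtype
    have vj := (((sj.mul_left sj).mul_left tj).mul_left sj).map P.subtype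
    have ev : π (s * s * t * s) = v := by simp only [map_mul, H.ev]
    generalize s * s * t * s = a at vi vj ev
    have aa : a.1 * a = 1 := by
      rw [← sq]
      refine (pm h (ev ▸ H.v2)).resolve_right fun e => no_neg h2 (h.sp (i * a).2) (j := j) ?_ ?_
      · rw [coe_mul, (show Commute i.1 a from vi.symm).mul_pow, e, sq, ii]; simp
      · rw [coe_mul, ← mul_assoc, ji, mul_assoc i.1 a, show a.1 * j = j * a from vj]; simp [mul_assoc]
    rcases lift_eq h (x := t * (t * a * t⁻¹)) (y := a * (t * a * t⁻¹) * t) (by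
      simp only [map_mul, map_inv, ev, H.e1, mul_inv_cancel_right, H.e2]) with e | e
    · exact ⟨a, ev, aa, e⟩
    · refine ⟨i * i * a, by rw [map_mul, m1, one_mul, ev], by simp [ii, aa], ?_⟩
      simp only [coe_mul, coe_inv, ii] at e ⊢
      simp [e]
  obtain ⟨d, ed, e1⟩ : ∃ d : P, t * a * t⁻¹ = d ∧ t.1 * a = d * t := ⟨_, rfl, by simp⟩
  rw [ed] at e2
  have ew : π d = w := by rw [← ed, map_mul, map_mul, map_inv, ea, H.e1, mul_inv_cancel_right]
  obtain ⟨B, hB, ba, bd, bt⟩ := blk h2 (h.sp a.2) (h.sp t.2) (ne_pm h (ea ▸ H.v1)).1 aa (congrArg Subtype.val t3) e1 e2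
  have dd : d.1 ^ 2 = 1 := bk_inj B (by simp [sq, bd, bl_mul, bl_one])
  have dg : ∀ z : P, π z * v = v * π z → π z * w = w * π z → ∃ p q r, bk B z = bl p q r := fun z h1 h3 => by
    have k : ∀ a : P, a.1 ^ 2 = 1 → π z * π a = π a * π z → bk B z * bk B a = bk B a * bk B z := fun a aa e => by
      rw [← map_mul, ← map_mul]
      exact congrArg _ ((lift_eq h (x := z * a) (y := a * z) (by simpa using e)).resolve_right (no_neg h2 (h.sp a.2) aa))
    exact diag_of h2 (ba ▸ k a (by rwa [sq]) (ea ▸ h1)) (bd ▸ k d dd (ew ▸ h3))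
  have dg' : ∀ z : P, Commute t z → Commute s z → ∃ I, bk B z = bl I I I := fun z h1 h3 => by
    have h4 : Commute (π z) v := by simpa only [map_mul, H.ev] using (((h3.mul_left h3).mul_left h1).mul_left h3).symm.map π
    obtain ⟨p, q, r, e⟩ := dg z h4 (by
      rw [← ew, ← ed, map_mul, map_mul, map_inv, ea]
      exact (((h1.symm.map π).mul_right h4).mul_right (h1.symm.map π).inv_right).eq)
    obtain ⟨rfl, rfl⟩ := cyc_comm (a := p) (b := q) (c := r) (by
      rw [← e, ← bt, ← map_mul, ← map_mul, ← coe_mul, ← h1.eq, coe_mul])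
    exact ⟨_, e⟩
  obtain ⟨I, bi⟩ := dg' i ti si
  obtain ⟨J, bj⟩ := dg' j tj sj
  have Q : Qu I J := by
    have := congrArg (bk B) ii
    have := congrArg (bk B) jj
    have := congrArg (bk B) ji
    simp only [map_mul, bk_neg, map_one, bi, bj, bl_mul, bl_neg, bl_neg_one] at *
    exact ⟨h2, (bl_inj ‹_›).1, (bl_inj ‹_›).1, (bl_inj ‹_›).1⟩
  let sc : Matrix (Fin 3) (Fin 3) K →+* M32 K := (algebraMap K (M2 K)).mapMatrix
  obtain ⟨A, bs⟩ : ∃ A, bk B s = sc A := by
    have k : ∀ {z : P} {I}, Commute s z → bk B z = bl I I I → ∀ p q, bk B s p q * I = I * bk B s p q := fun {z I} e e' p q => by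
      have := congrFun (congrFun (congrArg (bk B) (congrArg Subtype.val e.eq)) p) q
      simp only [coe_mul, map_mul, e', mul_apply, Fin.sum_univ_three] at this
      fin_cases p <;> fin_cases q <;> simpa [bl] using this
    choose A hA using fun p q => Q.scal (k si bi p q) (k sj bj p q)
    exact ⟨of A, Matrix.ext fun p q => (hA p q).trans (Algebra.algebraMap_eq_smul_one _).symm⟩
  have inj : Function.Injective sc := map_injective (algebraMap K (M2 K)).injective
  have tr : ∀ {z : G6 K} {A}, bk B z = sc A → T z = 2 * A.trace := fun e => by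
    rw [bk_T B, e]; simp [sc, trace, Algebra.algebraMap_eq_smul_one, Finset.mul_sum, two_mul]
  have bt' : bk B t = sc cyc := bt.trans (Matrix.ext fun p q => by fin_cases p <;> fin_cases q <;> simp [sc, cyc])
  have ba' : bk B a = sc !![1, 0, 0; 0, -1, 0; 0, 0, -1] := ba.trans (Matrix.ext fun p q => by fin_cases p <;> fin_cases q <;> simp [sc, bl])
  have bd' : bk B d = sc !![-1, 0, 0; 0, 1, 0; 0, 0, -1] := bd.trans (Matrix.ext fun p q => by fin_cases p <;> fin_cases q <;> simp [sc, bl])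
  have s5' : s.1 ^ 5 = 1 := congrArg Subtype.val s5
  have pw : ∀ n, bk B (s.1 ^ n) = sc (A ^ n) := fun n => by rw [map_pow, map_pow, bs]
  refine ⟨⟨s, s5', fun h5 e => (ne_pm h H.s1).1 (bk_inj B ?_)⟩, fun K0 hK z => ?_⟩
  · have a5 : A ^ 5 = 1 := inj (by rw [← pw, s5', map_one, map_one])
    have a6 : (A * cyc) ^ (3 * 2) = 1 := inj (by
      rw [map_pow, map_mul, ← bs, ← bt', ← map_mul, ← map_pow, pow_mul, map_one]
      rcases pm h (x := s * t) (n := 3) (by simpa using H.o3) with e | e <;> rw [show (s.1 * t.1) ^ 3 = _ from e] <;> simp)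
    have d5 := congrArg det a5
    have d6 := congrArg det a6
    rw [det_pow, det_mul, show (cyc : Matrix _ _ K).det = 1 by simp [cyc, det_fin_three]] at d6
    rw [det_pow] at d5
    rw [bs, five h5 a5 (by simp at d5 d6; linear_combination d6 - A.det * d5) (mul_left_cancel₀ h2 ?_)
      (mul_left_cancel₀ h2 (by rw [← tr (pw 2), ← tr bs, e])), map_one, map_one]
    rw [← tr (pw 4), ← tr bs, ← T_inv (h.sp s.2), eq_inv_of_mul_eq_one_left (show s.1 ^ 4 * s = 1 by rw [← pow_succ, s5'])]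
  let S := (qh K0.subtype Q).range
  have mS : ∀ r ∈ K0, algebraMap K (M2 K) r ∈ S := fun r hr => ⟨⟨⟨r, hr⟩, 0, 0, 0⟩, (qh_ap ..).trans (by simp [Algebra.algebraMap_eq_smul_one])⟩
  have mI : I ∈ S := ⟨⟨0, 1, 0, 0⟩, (qh_ap ..).trans (by simp)⟩
  have mJ : J ∈ S := ⟨⟨0, 0, 1, 0⟩, (qh_ap ..).trans (by simp)⟩
  have := fin_P h
  let N : Submonoid P := ⟨⟨{y | ∀ p q, bk B y p q ∈ S}, fun {y z} hy hz p q => by
    rw [coe_mul, map_mul, mul_apply]; exact sum_mem fun r _ => mul_mem (hy p r) (hz r q)⟩, fun p q => by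
    rw [OneMemClass.coe_one, map_one, one_apply]; split_ifs; exacts [one_mem _, zero_mem _]⟩
  have hz : z ∈ N := by
    have : z ∈ Subgroup.closure {t, s, g} := by
      rw [gen_top h (S := {t, s, g}) (by rw [Set.image_insert_eq, Set.image_pair]; exact H.g2)]; trivial
    rw [← mem_toSubmonoid, closure_toSubmonoid_of_finite] at this
    refine Submonoid.closure_le.2 ?_ this
    rintro y (e | e | e) p q <;> rw [e]
    · rw [bt]; fin_cases p <;> fin_cases q <;> simp [cyc, one_mem, zero_mem]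
    · rw [bs]
      refine mS _ ?_
      have k : ∀ {y : P} {D}, bk B y = sc D → π y ^ 2 = 1 ∨ π y ^ 3 = 1 ∨ π y ^ 5 = 1 → D.trace ∈ K0 := fun e o => by
        simpa [tr e, h2] using mul_mem (inv_mem (natCast_mem K0 2)) (hK _ o)
      have k0 := k bs (.inr (.inr H.s5))
      have k1 := k (y := s * a) (by rw [coe_mul, map_mul, bs, ba', ← map_mul]) (by simp [ea, H.o1])
      have k2 := k (y := s * d) (by rw [coe_mul, map_mul, bs, bd', ← map_mul]) (by simp [ew, H.o2])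
      have b1 : bk B (s * t).1 = sc (A * cyc) := by rw [coe_mul, map_mul, bs, bt', ← map_mul]
      have k3 := k b1 (by simp [H.o3])
      have k4 := k (y := s * t * a) (by rw [coe_mul, map_mul, b1, ba', ← map_mul]) (by simp [ea, H.o4])
      have k5 := k (y := s * t * d) (by rw [coe_mul, map_mul, b1, bd', ← map_mul]) (by simp [ew, H.o5])
      have b2 : bk B (s * t * t).1 = sc (A * cyc * cyc) := by rw [coe_mul, map_mul, b1, bt', ← map_mul]
      have k6 := k b2 (by simp [H.o6])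
      have k7 := k (y := s * t * t * a) (by rw [coe_mul, map_mul, b2, ba', ← map_mul]) (by simp [ea, H.o7])
      have k8 := k (y := s * t * t * d) (by rw [coe_mul, map_mul, b2, bd', ← map_mul]) (by simp [ew, H.o8])
      have f : ∀ {x y z : K}, x + y + z ∈ K0 → x + -y + -z ∈ K0 → -x + y + -z ∈ K0 → x ∈ K0 ∧ y ∈ K0 ∧ z ∈ K0 := fun h1 h3 h4 => by
        have n := inv_mem (natCast_mem K0 2)
        refine ⟨?_, ?_, ?_⟩
        · convert mul_mem n (add_mem h1 h3) using 1; push_cast; field_simp; ring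
        · convert mul_mem n (add_mem h1 h4) using 1; push_cast; field_simp; ring
        · convert mul_mem n (neg_mem (add_mem h3 h4)) using 1; push_cast; field_simp; ring
      simp [trace_fin_three, mul_apply, Fin.sum_univ_three, cyc] at k0 k1 k2 k3 k4 k5 k6 k7 k8
      obtain ⟨a0, a1, a2⟩ := f k0 k1 k2
      obtain ⟨a3, a4, a5⟩ := f k3 k4 k5
      obtain ⟨a6, a7, a8⟩ := f k6 k7 k8
      fin_cases p <;> fin_cases q
      exacts [a0, a3, a6, a7, a1, a4, a5, a8, a2]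
    · obtain ⟨p', q', r', e⟩ := dg g H.gv H.gw
      obtain ⟨d1, d2, d3⟩ := bl_det hB (h.sp g.2) e
      have k1 := (lift_eq h (x := g * i) (y := a * d * i * g) (by simp [ea, ew, ei, H.gx])).imp (congrArg (bk B)) (congrArg (bk B))
      have k2 := (lift_eq h (x := g * j) (y := a * j * g) (by simp [ea, ej, H.gb])).imp (congrArg (bk B)) (congrArg (bk B))
      simp only [coe_mul, map_mul, bk_neg, e, ba, bd, bi, bj, bl_mul, bl_neg, mul_neg, neg_mul, one_mul, mul_one, neg_neg] at k1 k2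
      have k1 := k1.imp bl_inj bl_inj
      have k2 := k2.imp bl_inj bl_inj
      have a1 := Q.nrm (k1.symm.imp (·.1) (·.1)) (k2.imp (·.1) (·.1)) d1 mI mJ
      have a2 := Q.nrm (k1.symm.imp (·.2.1) (·.2.1)) (k2.symm.imp (·.2.1) (·.2.1)) d2 mI mJ
      have a3 := Q.nrm (k1.imp (·.2.2) (·.2.2)) (k2.symm.imp (·.2.2) (·.2.2)) d3 mI mJ
      rw [e]; fin_cases p <;> fin_cases q
      exacts [a1, zero_mem S, zero_mem S, zero_mem S, a2, zero_mem S, zero_mem S, zero_mem S, a3]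
  rw [bk_T B]
  refine sum_mem fun p _ => ?_
  obtain ⟨q, e⟩ := hz p p
  rw [← e, qh_tr]
  exact mul_mem (natCast_mem K0 2) q.re.2
end

theorem j2o (sc : SC.{u}) (C : CS.{u}) : J2o.{u} := fun F G _ _ _ p hp _ H P π h' p2 ⟨e⟩ => by
  have h := rq_tr h'.1.1 (e.trans H15.J2L.equiv)
  generalize (e.trans H15.J2L.equiv).toMonoidHom.comp π = π at h
  let σ := algebraMap F (AlgebraicClosure F)
  obtain ⟨π', k, -⟩ := upq σ h
  obtain ⟨x, y, b, c, t, s, g, v, w, J⟩ := jc
  obtain ⟨⟨⟨_, z, hz, rfl⟩, z5, z2⟩, k1⟩ := J.main sc C (chr Nat.prime_two p2) k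
  have po := (hp.out.eq_two_or_odd).resolve_left p2
  have key : ∀ n, n ≠ 0 → p ^ n % 2 = 1 → p ^ n % 5 = 0 ∨ p ^ n % 5 = 1 ∨ p ^ n % 5 = 4 → ∃ m, m ∣ n ∧ Fintype.card F = p ^ m :=
    fun n n0 h1 h2 => card_fx n0 ((te.{u, 0} F).1 P h.top h'.fld _ fun x hx => mem_fx.2 (σ.injective (by
      rw [map_pow, ← gm_T, ← mem_fx]
      refine k1 _ (fun y o => ?_) ⟨_, x, hx, rfl⟩
      have sq : ∀ {n}, π' y ^ n = 1 → y.1 ^ (n * 2) = 1 := fun e => by rw [pow_mul]; rcases pm k e with e | e <;> simp [e]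
      rcases o with o | o | o <;> refine tfx p n (k.sp y.2) (sq o) rfl ?_
      · rcases (by omega : p ^ n % (2 * 2) = 1 ∨ p ^ n % (2 * 2) = 3) with e | e <;> simp [e]
      · rcases (by omega : p ^ n % (3 * 2) = 1 ∨ p ^ n % (3 * 2) = 3 ∨ p ^ n % (3 * 2) = 5) with e | e | e <;> simp [e]
      · rcases (by omega : p ^ n % (5 * 2) = 1 ∨ p ^ n % (5 * 2) = 5 ∨ p ^ n % (5 * 2) = 9) with e | e | e <;> simp [e])))
  by_cases h5 : p % 5 = 2 ∨ p % 5 = 3
  swap
  · obtain ⟨m, hm, q⟩ := key 1 one_ne_zero (by simpa) (by rw [pow_one]; clear key; omega)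
    exact .inl ⟨by rw [q, Nat.dvd_one.1 hm, pow_one], by clear q key; omega⟩
  obtain ⟨m, hm, q⟩ := key 2 two_ne_zero (by simp [Nat.pow_mod, po]) (by rcases h5 with e | e <;> simp [Nat.pow_mod, e])
  rcases (Nat.dvd_prime Nat.prime_two).1 hm with rfl | rfl
  swap
  · exact .inr ⟨q, h5⟩
  refine (z2 (chr (p := p) Nat.prime_five fun e => by simp [e] at h5) ?_).elim
  have : T (GeneralLinearGroup.map σ z ^ p) = T (GeneralLinearGroup.map σ z) := by
    rw [T_pow, gm_T, ← map_pow]; congr 1; simpa [q] using FiniteField.pow_card (T z)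
  rw [pow_eq_pow_mod _ z5] at this
  rcases h5 with e | e <;> rw [e] at this
  · exact this
  · rw [← this, ← T_inv (pow_mem (gm_mem σ |>.2 (h.sp hz)) 3), eq_inv_of_mul_eq_one_left (show _ ^ 2 * _ ^ 3 = 1 by
      rw [← pow_add]; exact z5)]

end H4.SP
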