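import Cfsg.Agent.H4.US0
import Cfsg.Agent.H11.Bridge
import Cfsg.Agent.H27.FinSubfield

/-! S5810: arithmetic of the torus and basic facts on the fields. -/

set_option autoImplicit false
set_option linter.unusedSectionVars false

open Module Finset

namespace H4.US

universe u

theorem ar : AR := fun q hq => by
  obtain ⟨d, hd⟩ : ∃ d, q ^ 7 + 1 = d * (q + 1) := exists_eq_mul_left_of_dvd (by
    simpa using Odd.nat_add_dvd_pow_add_pow q 1 (by decide : Odd 7))
  have dz : (d : ℤ) = q ^ 6 - q ^ 5 + q ^ 4 - q ^ 3 + q ^ 2 - q + 1 :=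
    mul_right_cancel₀ (show (q + 1 : ℤ) ≠ 0 by positivity) (by have := congrArg (Nat.cast : ℕ → ℤ) hd; push_cast at this; linear_combination -this)
  have d7 : ((q + 1 : ℕ) : ℤ) ∣ d - 7 := ⟨q ^ 5 - 2 * q ^ 4 + 3 * q ^ 3 - 4 * q ^ 2 + 5 * q - 6, by rw [dz]; push_cast; ring⟩
  have d43 : 43 ≤ d := by
    have h2 : (2 : ℤ) ≤ q := by exact_mod_cast hq
    have : (43 : ℤ) ≤ d := by
      rw [dz]; obtain ⟨r, hr⟩ : ∃ r : ℤ, q = r + 2 := ⟨q - 2, by ring⟩
      have : 0 ≤ r := by omega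
      rw [hr]; nlinarith [pow_nonneg this 2, pow_nonneg this 3, pow_nonneg this 4, pow_nonneg this 5, pow_nonneg this 6]
    exact_mod_cast this
  have pd : ∀ r, r.Prime → r ∣ d → r ∣ q + 1 → r = 7 := fun r hr a b => (Nat.prime_dvd_prime_iff_eq hr (by norm_num)).1 (by
    have := (Int.natCast_dvd_natCast.2 a).sub ((Int.natCast_dvd_natCast.2 b).trans d7)
    rw [sub_sub_cancel] at this
    exact_mod_cast this)
  obtain ⟨c, t, hc, hg, ht, h6, co⟩ : ∃ c t, d = c * gg q ∧ (gg q = 1 ∨ gg q = 7) ∧ c = 7 * t + 1 ∧ 6 * gg q ≤ t ∧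
      c.Coprime (q + 1) := by
    by_cases h : 7 ∣ q + 1
    · obtain ⟨k, hk⟩ := h
      have e : gg q = 7 := by rw [gg, hk]; simp
      have kz : (q : ℤ) = 7 * k - 1 := by have := congrArg (Nat.cast : ℕ → ℤ) hk; push_cast at this; linarith
      obtain ⟨t, ht⟩ : ∃ t : ℤ, (d : ℤ) = 49 * t + 7 :=
        ⟨2401 * k ^ 6 - 2401 * k ^ 5 + 1029 * k ^ 4 - 245 * k ^ 3 + 35 * k ^ 2 - 3 * k, by rw [dz, kz]; ring⟩
      have d2 : 2065 ≤ d := by
        have h2 : (6 : ℤ) ≤ q := by omega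
        have : (2065 : ℤ) ≤ d := by
          rw [dz]; obtain ⟨r, hr⟩ : ∃ r : ℤ, q = r + 6 := ⟨q - 6, by ring⟩
          have : 0 ≤ r := by omega
          rw [hr]; nlinarith [pow_nonneg this 2, pow_nonneg this 3, pow_nonneg this 4, pow_nonneg this 5, pow_nonneg this 6]
        exact_mod_cast this
      refine ⟨7 * t.toNat + 1, t.toNat, by rw [e]; omega, .inr e, rfl, by omega, Nat.coprime_of_dvd fun r hr a b => ?_⟩
      obtain rfl := pd r hr (a.trans ⟨7, by omega⟩) b
      omega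
    · have e : gg q = 1 := (Nat.Prime.coprime_iff_not_dvd (by norm_num)).2 h
      have : d % 7 = 1 := by
        have h1 : ∀ x : ZMod 7, x + 1 ≠ 0 → x ^ 6 - x ^ 5 + x ^ 4 - x ^ 3 + x ^ 2 - x + 1 = 1 := by decide
        have h2 := congrArg (Int.cast : ℤ → ZMod 7) dz
        push_cast at h2
        rw [h1 _ fun z => h ((ZMod.natCast_eq_zero_iff _ _).1 (by exact_mod_cast z))] at h2
        exact (ZMod.natCast_eq_natCast_iff' d 1 7).1 (by simpa using h2)
      exact ⟨d, d / 7, by simp [e], .inl e, by omega, by omega, Nat.coprime_of_dvd fun r hr a b => h (pd r hr a b ▸ b)⟩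
  have g0 : 0 < gg q := by omega
  have em : mm q = c * (q + 1) := by rw [mm, hd, hc, mul_right_comm, Nat.mul_div_cancel _ g0]
  have ec : cc q = c := by rw [cc, em, Nat.mul_div_cancel _ q.succ_pos]
  have q7 : ∀ r, r ∣ c → (q : ZMod r) ^ 7 = -1 := fun r a => eq_neg_of_add_eq_zero_left (by
    exact_mod_cast (ZMod.natCast_eq_zero_iff _ r).2 (hd ▸ hc ▸ (a.mul_right _).mul_right _))
  have o7 : ∀ r, r.Prime → r ∣ c → orderOf ((q : ZMod r) ^ 2) = 7 := fun r hr a => by
    haveI := Fact.mk hr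
    haveI : Fact (Nat.Prime 7) := ⟨by norm_num⟩
    refine orderOf_eq_prime (by rw [← pow_mul, mul_comm, pow_mul, q7 r a]; simp) fun z => ?_
    refine hr.one_lt.ne' (Nat.eq_one_of_dvd_coprimes co a ((ZMod.natCast_eq_zero_iff _ r).1 ?_))
    push_cast
    linear_combination q7 r a - (q ^ 5 + q ^ 3 + q : ZMod r) * z
  have od : Odd c := Nat.coprime_two_right.1 ((Nat.Prime.coprime_iff_not_dvd Nat.prime_two).2 fun a => by
    have := orderOf_le_card_univ (x := (q : ZMod 2) ^ 2)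
    rw [o7 2 Nat.prime_two a] at this
    simp at this).symm
  rw [ec, em]
  refine ⟨by rw [hd, hc]; ring, rfl, co, Nat.coprime_of_dvd fun r hr a b => ?_, od, hg, ⟨t, ht, h6⟩,
    fun i i0 i7 => Nat.coprime_of_dvd fun r hr a b => ?_, fun r hr a => ?_⟩
  · haveI := Fact.mk hr
    have := q7 r a
    rw [(ZMod.natCast_eq_zero_iff _ r).2 b] at this
    simp at this
  · have h1 := (ZMod.natCast_eq_zero_iff _ r).2 b
    rw [Nat.cast_sub (Nat.one_le_iff_ne_zero.2 (by positivity)), sub_eq_zero] at h1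
    have := Nat.le_of_dvd i0 (o7 r hr a ▸ orderOf_dvd_of_pow_eq_one (by exact_mod_cast h1))
    omega
  · haveI := Fact.mk hr
    have h1 := ZMod.orderOf_dvd_card_sub_one (a := (q : ZMod r) ^ 2) (fun z => by
      have := q7 r a
      rw [pow_eq_zero_iff two_ne_zero |>.1 z] at this
      simp at this)
    rw [o7 r hr a] at h1
    have h2 := od.of_dvd_nat a
    have h3 := hr.two_le
    obtain ⟨j, hj⟩ := h1
    obtain ⟨i, hi⟩ := h2
    by_contra n
    obtain rfl : r = 15 := by omega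
    norm_num at hr

theorem card_fix {L : Type*} [Field L] [Fintype L] {n : ℕ} (h2 : 2 ≤ n) (h : n - 1 ∣ Fintype.card L - 1) :
    {x : L | x ^ n = x}.ncard = n := by
  have e : {x : L | x ^ n = x} = insert 0 (Units.val '' ((powMonoidHom (n - 1) : Lˣ →* Lˣ).ker : Set Lˣ)) := by
    ext x
    by_cases x0 : x = 0
    · simp [x0, show n ≠ 0 by omega]
    · lift x to Lˣ using Ne.isUnit x0
      simp only [Set.mem_ofPred_eq, Set.mem_insert_iff, x0, false_or, Units.val_injective.mem_set_image, SetLike.mem_coe,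
        MonoidHom.mem_ker, powMonoidHom_apply, ← Units.val_pow_eq_pow_val, Units.val_inj]
      rw [← mul_left_inj x (b := x ^ (n - 1)), ← pow_succ, Nat.sub_add_cancel (by omega), one_mul]
  rw [e, Set.ncard_insert_of_notMem (by simp), Set.ncard_image_of_injective _ Units.val_injective, ← Nat.card_coe_set_eq]
  exact (congrArg (· + 1) (H11.card_pow_eq_one_units L h)).trans (by omega)

variable {F : Type u} [Field F] [Fintype F] {K : Type u} [Field K] [Fintype K] [Algebra F K] {q : ℕ}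

namespace Fd
variable (fd : Fd F K q)
include fd

theorem q2 : 2 ≤ q := H11.two_le_of_card_sq fd.hF

theorem cK : Fintype.card K = q ^ 14 := by rw [Module.card_eq_pow_finrank (K := F), fd.hF, fd.hK, ← pow_mul]

theorem cK' : Fintype.card K = (q ^ 7) ^ 2 := by rw [fd.cK, ← pow_mul]

theorem pK (x : K) : x ^ q ^ 14 = x := by rw [← fd.cK, FiniteField.pow_card]

theorem pF (a : F) : a ^ q ^ 2 = a := by rw [← fd.hF, FiniteField.pow_card]

/-- the conjugation of `F` -/
abbrev sg : F →+* F := H11.frob fd.hF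

/-- the conjugation of `K` -/
abbrev br : K →+* K := H11.frob fd.cK'

theorem sg_sg (a : F) : fd.sg (fd.sg a) = a := H11.frob_frob _ a

theorem br_br (a : K) : fd.br (fd.br a) = a := H11.frob_frob _ a

/-- the Frobenius maps of `K` -/
def fr (i : ℕ) : K →+* K where
  toFun x := x ^ q ^ i
  map_one' := one_pow _
  map_mul' x y := mul_pow x y _
  map_zero' := zero_pow (by have := fd.q2; positivity)
  map_add' x y := by
    obtain ⟨p, k, hp, _, -, rfl⟩ := H11.exists_prime_pow_of_card_sq fd.hF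
    have := Fact.mk hp
    have := charP_of_injective_algebraMap (algebraMap F K).injective p
    rw [← pow_mul]; exact add_pow_char_pow x y p _

theorem fr_apply (i : ℕ) (x : K) : fd.fr i x = x ^ q ^ i := rfl

theorem p7 (a : F) : a ^ q ^ 7 = a ^ q := by
  rw [show q ^ 7 = q ^ 2 * q ^ 2 * q ^ 2 * q by ring, pow_mul, pow_mul, pow_mul, fd.pF, fd.pF, fd.pF]

theorem br_alg (a : F) : fd.br (algebraMap F K a) = algebraMap F K (fd.sg a) := by
  rw [H11.frob_apply, ← map_pow, fd.p7, H11.frob_apply]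

theorem tr_eq (x : K) : algebraMap F K (Algebra.trace F K x) = ∑ i ∈ range 7, x ^ (q ^ 2) ^ i := by
  rw [FiniteField.algebraMap_trace_eq_sum_pow, fd.hK, Nat.card_eq_fintype_card, fd.hF]

theorem nm_eq (x : K) : algebraMap F K (Algebra.norm F x) = ∏ i ∈ range 7, x ^ (q ^ 2) ^ i := by
  rw [FiniteField.algebraMap_norm_eq_prod_pow, fd.hK, Nat.card_eq_fintype_card, fd.hF]

theorem tr_br (x : K) : Algebra.trace F K (fd.br x) = fd.sg (Algebra.trace F K x) := (algebraMap F K).injective (by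
  rw [← fd.br_alg, fd.tr_eq, fd.tr_eq, map_sum]
  exact sum_congr rfl fun i _ => (map_pow _ _ _).symm)

theorem mem_F {x : K} : x ∈ Set.range (algebraMap F K) ↔ x ^ q ^ 2 = x := by
  have := H27.mem_subfield_iff_pow (algebraMap F K).fieldRange x
  rwa [← Nat.card_congr (algebraMap F K).rangeRestrictFieldEquiv.toEquiv, Nat.card_eq_fintype_card, fd.hF] at this

theorem Ek_F {γ : K} (h : Ek q γ) : γ ^ q ^ 2 ≠ γ := fun e => by
  obtain ⟨a, rfl⟩ := fd.mem_F.2 e
  exact h.2 (by rw [← map_pow, ← fd.p7, map_pow, h.1])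

theorem card_k : {a : F | a ^ q = a}.ncard = q := card_fix fd.q2 (by
  simpa [fd.hF] using Nat.sub_dvd_pow_sub_pow q 1 2)

theorem card_E : {a : K | a ^ q ^ 7 = a}.ncard = q ^ 7 := card_fix (fd.q2.trans (Nat.le_self_pow (by norm_num) q)) (by
  simpa [fd.cK'] using Nat.sub_dvd_pow_sub_pow (q ^ 7) 1 2)

theorem ex_k : ∃ a : F, a ^ q ≠ a := by
  by_contra! h; exact H11.frob_ne_id fd.hF (RingHom.ext h)

/-- the form as a sesquilinear map -/
noncomputable def fl : K →ₗ[F] K →ₛₗ[fd.sg] F :=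
  LinearMap.mk₂'ₛₗ (RingHom.id F) fd.sg (fun x y => Algebra.trace F K (x * fd.br y)) (fun _ _ _ => by rw [add_mul, map_add])
    (fun _ _ _ => by rw [smul_mul_assoc, map_smul]; rfl) (fun _ _ _ => by rw [map_add, mul_add, map_add])
    fun c x y => by rw [Algebra.smul_def, fd.br.map_mul, fd.br_alg, mul_left_comm, ← Algebra.smul_def, map_smul]

theorem fl_apply (x y : K) : fd.fl x y = fm F q x y := rfl

theorem fm_eq (x y : K) : fm F q x y = Algebra.trace F K (x * fd.br y) := rfl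

theorem fm_sy (x y : K) : fm F q y x = fd.sg (fm F q x y) := by
  rw [fd.fm_eq, fd.fm_eq, ← fd.tr_br, fd.br.map_mul, fd.br_br, mul_comm]

theorem fm_sur {x : K} (h : x ≠ 0) (a : F) : ∃ y, fm F q x y = a := by
  obtain ⟨z, hz⟩ := Algebra.trace_surjective F K a
  exact ⟨fd.br (z / x), by rw [fd.fm_eq, fd.br_br, mul_div_cancel₀ _ h, hz]⟩

theorem fm_nd {x : K} (h : ∀ y, fm F q x y = 0) : x = 0 := by_contra fun n =>
  let ⟨y, e⟩ := fd.fm_sur n 1; one_ne_zero (e.symm.trans (h y))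

theorem NN_mul : NN q * (gg q * (q + 1)) = Fintype.card K - 1 := by
  obtain ⟨h1, h2, -⟩ := ar q fd.q2
  rw [fd.cK', NN, mul_comm (gg q), mul_assoc, ← mul_assoc (cc q), h2, h1, ← one_pow 2, Nat.sq_sub_sq, mul_comm, one_pow]
end Fd

end H4.US
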