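import Cfsg.Agent.H4.US0

/-! S5810: Stepanov's method. -/

set_option autoImplicit false
set_option linter.unusedSectionVars false

open Polynomial Finset

namespace H4.US

universe u

namespace ST

variable {L : Type u} [Field L]

theorem hd (f : L[X]) (T : ℕ) : ∀ (l : ℕ) (g : L[X]), f ^ (T - l) ∣ hasseDeriv l (f ^ T * g) := by
  induction T with
  | zero => simp
  | succ T ih =>
    intro l g
    rw [pow_succ', mul_assoc, hasseDeriv_mul]
    refine dvd_sum fun ⟨i, j⟩ e => ?_
    rw [HasAntidiagonal.mem_antidiagonal] at e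
    obtain rfl | h := i.eq_zero_or_pos
    · exact (pow_dvd_pow f (show _ ≤ T - j + 1 by omega)).trans (by
        rw [pow_succ', hasseDeriv_zero']; exact mul_dvd_mul_left f (ih j g))
    · exact ((pow_dvd_pow f (show _ ≤ T - j by omega)).trans (ih j g)).mul_left _

theorem van {g : L[X]} {x : L} {M : ℕ} (h : ∀ l < M, (hasseDeriv l g).eval x = 0) : (X - C x) ^ M ∣ g := by
  have := map_dvd (taylorAlgHom (-x)) (X_pow_dvd_iff.2 fun l hl => (taylor_coeff x g l).trans (h l hl))
  simpa [taylor_taylor, sub_eq_add_neg] using this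

theorem rm_pow {f : L[X]} (h : f ≠ 0) (a : L) (n : ℕ) : (f ^ n).rootMultiplicity a = n * f.rootMultiplicity a := by
  induction n with
  | zero => simpa using rootMultiplicity_C 1 a
  | succ n ih => rw [pow_succ, rootMultiplicity_mul (by simp [h]), ih]; ring

theorem ind {m : ℕ} (m0 : 0 < m) {f : L[X]} (f0 : f ≠ 0) {c : L} (c0 : c ≠ 0)
    (hf : ∀ d, (∀ a, m ∣ d * f.rootMultiplicity a) → m ∣ d) :
    ∃ (Ω : Type u) (_ : Field Ω) (φ : L[X] →+* Ω) (w : Ω), Function.Injective φ ∧ φ f * w ^ m = φ (C c) ∧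
      ∀ k : Fin m → L[X], ∑ i, φ (k i) * w ^ i.1 = 0 → k = 0 := by
  let R := RatFunc L
  obtain ⟨w, hw⟩ := IsAlgClosed.exists_pow_nat_eq (algebraMap R (AlgebraicClosure R) (algebraMap L[X] R (C c) /
    algebraMap L[X] R f)) m0
  have i1 : IsIntegral R w := Algebra.IsIntegral.isIntegral w
  have f1 : algebraMap L[X] R f ≠ 0 := by simpa [R]
  have d : m ≤ (minpoly R w).natDegree := by
    refine Nat.le_of_dvd (minpoly.natDegree_pos i1) (hf _ fun a => ?_)
    haveI := IntermediateField.adjoin.finiteDimensional i1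
    have e := Algebra.norm_algebraMap (S := IntermediateField.adjoin R {w}) (algebraMap L[X] R (C c) / algebraMap L[X] R f)
    rw [show algebraMap R (IntermediateField.adjoin R {w}) _ = IntermediateField.AdjoinSimple.gen R w ^ m from
      Subtype.ext hw.symm, map_pow, IntermediateField.adjoin.finrank i1] at e
    generalize Algebra.norm R (IntermediateField.AdjoinSimple.gen R w) = u at e
    generalize (minpoly R w).natDegree = d at e
    obtain ⟨n, s, hs, rfl⟩ := IsFractionRing.div_surjective (A := L[X]) u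
    replace hs := nonZeroDivisors.ne_zero hs
    have s1 : algebraMap L[X] R s ≠ 0 := by simpa [R]
    have e2 : n ^ m * f ^ d = C (c ^ d) * s ^ m := IsFractionRing.injective L[X] R (by
      rw [div_pow, div_pow, div_eq_div_iff (pow_ne_zero _ s1) (pow_ne_zero _ f1)] at e
      simpa only [map_mul, map_pow] using e)
    have e0 : C (c ^ d) * s ^ m ≠ 0 := by simp [c0, hs]
    have e3 := congrArg (rootMultiplicity a) e2
    rw [rootMultiplicity_mul (e2 ▸ e0), rootMultiplicity_mul e0, rootMultiplicity_C, rm_pow f0, rm_pow hs,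
      rm_pow fun z => e0 (by rw [← e2, z, zero_pow m0.ne', zero_mul])] at e3
    exact (Nat.dvd_add_right (dvd_mul_right m (rootMultiplicity a n))).1 (by rw [e3]; simp)
  refine ⟨_, inferInstance, (algebraMap R (AlgebraicClosure R)).comp (algebraMap L[X] R), w,
    (algebraMap R _).injective.comp (IsFractionRing.injective L[X] R), ?_, fun k e => ?_⟩
  · rw [hw, RingHom.comp_apply, ← map_mul, mul_div_cancel₀ _ f1]; rfl
  · have : (∑ i : Fin m, monomial i.1 (algebraMap L[X] R (k i))) = 0 := by_contra fun n => by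
      have := natDegree_le_natDegree (minpoly.degree_le_of_ne_zero R w n (by simpa [map_sum, aeval_monomial] using e))
      have := this.trans (natDegree_sum_le_of_forall_le _ _ (n := m - 1) fun i _ => (natDegree_monomial_le _).trans (by omega))
      omega
    funext i
    have := congrArg (coeff · i) this
    simpa [finsetSum_coeff, coeff_monomial, Fin.val_inj, R] using this

/-- the multiplication matrix -/
noncomputable def mat {m : ℕ} (f : L[X]) (c : L) (k : Fin m → L[X]) : Matrix (Fin m) (Fin m) L[X] :=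
  fun r s => ∑ i, k i * if i.1 + r = s then f else if i.1 + r = s + m then C c else 0

theorem mat_mul {m : ℕ} {f : L[X]} {c : L} (k : Fin m → L[X]) {R : Type*} [CommRing R] (φ : L[X] →+* R) {w : R}
    (h : φ f * w ^ m = φ (C c)) (r : Fin m) : ∑ s, φ (mat f c k r s) * w ^ s.1 = φ f * w ^ r.1 * ∑ i, φ (k i) * w ^ i.1 := by
  simp only [mat, map_sum, sum_mul, mul_sum]
  rw [sum_comm]
  refine sum_congr rfl fun i _ => ?_
  by_cases e : i.1 + r < m
  · rw [sum_eq_single ⟨_, e⟩ (fun s _ n => by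
      rw [if_neg fun z => n (Fin.ext z.symm), if_neg (by omega)]; simp) (by simp)]
    simp [pow_add]; ring
  · rw [sum_eq_single ⟨i + r - m, by omega⟩ (fun s _ n => by
      rw [if_neg (by omega), if_neg fun z => n (Fin.ext (by simp; omega))]; simp) (by simp)]
    rw [if_neg (by simp; omega), if_pos (by simp; omega), map_mul, ← h, mul_assoc, mul_assoc, ← pow_add,
      show m + _ = r + i by simp; omega]
    ring

theorem nv1 {m B D : ℕ} (m0 : 0 < m) {f h P : L[X]} (f0 : f ≠ 0) {c : L} (c0 : c ≠ 0)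
    (hf : ∀ d, (∀ a, m ∣ d * f.rootMultiplicity a) → m ∣ d) (hD : f.natDegree ≤ D) (hP : m * (B + D) < P.natDegree)
    (h1 : P ∣ f * h ^ m - C c) {k : Fin m → L[X]} (hk : ∀ i, (k i).natDegree ≤ B) (h2 : P ∣ ∑ i, k i * h ^ i.1) : k = 0 := by
  classical
  have d0 : (mat f c k).det = 0 := by
    refine eq_zero_of_dvd_of_natDegree_lt ?_ (lt_of_le_of_lt ?_ hP)
    · let φ := Ideal.Quotient.mk (Ideal.span {P})
      have z : ∀ {a}, φ a = 0 ↔ P ∣ a := Ideal.Quotient.eq_zero_iff_mem.trans Ideal.mem_span_singleton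
      have e : (φ.mapMatrix (mat f c k)).mulVec (fun s => φ h ^ s.1) = 0 := funext fun r =>
        (mat_mul k φ (by simpa [sub_eq_zero] using z.2 h1) r).trans (by
          rw [show ∑ i, φ (k i) * φ h ^ i.1 = 0 by simpa using z.2 h2, mul_zero]; rfl)
      have := congrFun (congrArg (φ.mapMatrix (mat f c k)).adjugate.mulVec e) ⟨0, m0⟩
      rw [Matrix.mulVec_mulVec, Matrix.adjugate_mul, ← RingHom.map_det] at this
      exact z.1 (by simpa [Matrix.smul_mulVec] using this)
    · rw [Matrix.det_apply']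
      refine natDegree_sum_le_of_forall_le _ _ fun σ _ => natDegree_mul_le.trans ?_
      rw [natDegree_intCast, zero_add]
      refine (natDegree_prod_le _ _).trans ((sum_le_card_nsmul _ _ (B + D) fun r _ => ?_).trans (by simp))
      refine natDegree_sum_le_of_forall_le _ _ fun i _ => natDegree_mul_le.trans (add_le_add (hk i) ?_)
      split_ifs <;> simp [hD]
  obtain ⟨v, v0, hv⟩ := Matrix.exists_vecMul_eq_zero_iff.2 d0
  obtain ⟨Ω, _, φ, w, hφ, hw, hi⟩ := ind m0 f0 c0 hf
  have e : φ f * (∑ r, φ (v r) * w ^ r.1) * ∑ i, φ (k i) * w ^ i.1 = ∑ s, φ (Matrix.vecMul v (mat f c k) s) * w ^ s.1 := by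
    simp only [Matrix.vecMul, dotProduct, map_sum, map_mul, sum_mul]
    rw [sum_comm, mul_sum _ _ (φ f), sum_mul]
    exact sum_congr rfl fun r _ => by simp only [mul_assoc (φ (v r)), ← mul_sum]; rw [mat_mul k φ hw]; ring
  simp only [hv, Pi.zero_apply, map_zero, zero_mul, sum_const_zero, mul_eq_zero] at e
  refine hi _ (e.resolve_left fun e => e.elim (fun z => ?_) fun z => v0 (hi _ z))
  rw [z, zero_mul, eq_comm, map_eq_zero_iff φ hφ] at hw
  exact c0 (by simpa using hw)

theorem nv2 {J Q : ℕ} {P : L[X]} (P0 : P ≠ 0) {K : Fin J → L[X]} (h1 : ∀ j, P ^ Q ∣ K j → K j = 0)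
    (h2 : ∑ j, K j * P ^ (Q * j.1) = 0) (j : Fin J) : K j = 0 := by
  induction j using WellFoundedLT.induction with
  | ind j ih =>
    refine h1 j ((mul_dvd_mul_iff_right (pow_ne_zero (Q * j.1) P0)).1 ?_)
    rw [← add_sum_erase _ _ (mem_univ j), add_eq_zero_iff_eq_neg] at h2
    rw [h2, dvd_neg, ← pow_add]
    refine dvd_sum fun i hi => ?_
    rcases lt_or_gt_of_ne (ne_of_mem_erase hi) with e | e
    · simp [ih i e]
    · exact (pow_dvd_pow P (by have : j.1 + 1 ≤ i := e; nlinarith)).mul_left _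

theorem core [Fintype L] {m D B J M e : ℕ} (m0 : 0 < m) {f : L[X]} {ζ x0 : L} (he : e * m + 1 = Fintype.card L)
    (hM : M ≤ Fintype.card L) (f0 : f.eval x0 ≠ 0) (hD : f.natDegree ≤ D)
    (hf : ∀ d, (∀ a, m ∣ d * f.rootMultiplicity a) → m ∣ d) (hB : m * (B + D) ≤ Fintype.card L)
    (hc : M * (J + B + M * D) < m * J * B) :
    {x | f.eval x ^ e = ζ}.ncard * M ≤ (M + m * e) * D + B + Fintype.card L * J := by
  classical
  obtain ⟨p, hp, n, pp, hn⟩ := FiniteField.card' L
  haveI := Fact.mk pp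
  set Q := Fintype.card L
  have f1 : f ≠ 0 := by rintro rfl; simp at f0
  choose G hG using fun (l i b : ℕ) => hd f (M + i * e) l (X ^ b)
  have dG : ∀ l < M, ∀ i b, (G l i b).natDegree ≤ b + l * D := fun l hl i b => by
    by_cases z : G l i b = 0
    · simp [z]
    have h1 := natDegree_hasseDeriv_le (f ^ (M + i * e) * X ^ b) l
    rw [hG, natDegree_mul (pow_ne_zero _ f1) z, natDegree_mul_X_pow _ (pow_ne_zero _ f1), natDegree_pow, natDegree_pow] at h1
    obtain ⟨T, hT⟩ : ∃ T, M + i * e = T + l := ⟨M + i * e - l, by omega⟩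
    rw [hT, add_tsub_cancel_right, add_mul] at h1
    have := Nat.mul_le_mul_left l hD
    omega
  obtain ⟨c, c1, t, ct⟩ := Fintype.not_linearIndependent_iff.1 (fun k : LinearIndependent L fun (t : Fin J × Fin m × Fin B)
      (s : Fin M × Fin (J + B + M * D)) => (C (ζ ^ t.2.1.1) * (X - C x0) ^ t.1.1 * G s.1 t.2.1 t.2.2).coeff s.2 => by
    have := k.fintype_card_le_finrank
    simp only [Fintype.card_prod, Fintype.card_fin, Module.finrank_fintype_fun_eq_card] at this
    linarith)
  have c2 : ∀ l < M, ∑ t : Fin J × Fin m × Fin B, C (c t) * (C (ζ ^ t.2.1.1) * (X - C x0) ^ t.1.1 * G l t.2.1 t.2.2) = 0 := by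
    intro l hl
    ext s
    by_cases hs : s < J + B + M * D
    · simpa [finsetSum_coeff] using congrFun c1 (⟨l, hl⟩, ⟨s, hs⟩)
    refine coeff_eq_zero_of_natDegree_lt (lt_of_le_of_lt (b := J + B + M * D - 1) (natDegree_sum_le_of_forall_le _ _
      fun t _ => (natDegree_C_mul_le _ _).trans (natDegree_mul_le.trans ?_)) (by have := t.1.2; omega))
    have h1 := (natDegree_C_mul_le (ζ ^ t.2.1.1) ((X - C x0) ^ t.1.1)).trans natDegree_pow_le
    have h2 := dG l hl t.2.1 t.2.2
    have h3 := Nat.mul_le_mul_right D hl.le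
    rw [natDegree_X_sub_C] at h1
    omega
  set A := ∑ t : Fin J × Fin m × Fin B, C (c t) * (f ^ (M + t.2.1 * e) * X ^ t.2.2.1) * (X - C x0) ^ (Q * t.1.1) with hA
  have A0 : A ≠ 0 := fun z => by
    have b0 : 0 < B := Fin.pos t.2.2
    have k : ∀ (j : Fin J) (k : Fin m → L[X]), (∀ i, (k i).natDegree ≤ B - 1) → (X - C x0) ^ Q ∣ ∑ i, k i * (f ^ e) ^ i.1 →
        k = 0 := fun j k h1 h2 => nv1 m0 f1 (c := f.eval x0 ^ Q) (pow_ne_zero _ f0) hf hD (by
          rw [natDegree_pow, natDegree_X_sub_C, mul_one]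
          exact (Nat.mul_lt_mul_of_pos_left (by omega) m0).trans_le hB) (by
          rw [← pow_mul, ← pow_succ', he, C_pow, hn, ← sub_pow_char_pow]
          exact pow_dvd_pow_of_dvd (X_sub_C_dvd_sub_C_eval ..) _) h1 h2
    have dk : ∀ j i, (∑ b : Fin B, C (c (j, i, b)) * X ^ b.1).natDegree ≤ B - 1 := fun j i =>
      natDegree_sum_le_of_forall_le _ _ fun b _ => (natDegree_C_mul_X_pow_le _ _).trans (by omega)
    have := k t.1 _ (dk t.1) (nv2 (Q := Q) (X_sub_C_ne_zero x0)
      (K := fun j => ∑ i : Fin m, (∑ b : Fin B, C (c (j, i, b)) * X ^ b.1) * (f ^ e) ^ i.1)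
      (fun j h => by simp [congrFun (k j _ (dk j) h)]) (mul_left_cancel₀ (pow_ne_zero M f1) (by
        rw [mul_zero, ← z, hA]
        simp only [Fintype.sum_prod_type, mul_sum, sum_mul]
        refine sum_congr rfl fun _ _ => sum_congr rfl fun _ _ => sum_congr rfl fun _ _ => by ring)) t.1 ▸ dvd_zero _)
    have := congrArg (coeff · t.2.2) (congrFun this t.2.1)
    simp [finsetSum_coeff, coeff_X_pow, Fin.val_inj] at this
    exact ct this
  have dA : A.natDegree ≤ (M + m * e) * D + B + Q * J := natDegree_sum_le_of_forall_le _ _ fun t _ => by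
    refine natDegree_mul_le.trans (add_le_add ((natDegree_C_mul_le _ _).trans (natDegree_mul_le.trans (add_le_add
      (natDegree_pow_le.trans (Nat.mul_le_mul ?_ hD)) ?_))) ?_)
    · exact Nat.add_le_add_left (Nat.mul_le_mul_right _ t.2.1.2.le) _
    · simp
    · rw [natDegree_pow, natDegree_X_sub_C, mul_one]; exact Nat.mul_le_mul_left _ t.1.2.le
  have dv : ∀ x, f.eval x ^ e = ζ → (X - C x) ^ M ∣ A := fun x hx => by
    have h1 : (X - C x) ^ M ∣ ∑ t : Fin J × Fin m × Fin B, C (c t * (x - x0) ^ t.1.1) * (f ^ (M + t.2.1 * e) * X ^ t.2.2.1) :=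
      van fun l hl => by
        have := congrArg (fun g => f.eval x ^ (M - l) * g.eval x) (c2 l hl)
        simp only [eval_finsetSum, mul_sum, eval_zero, mul_zero] at this
        rw [← this, map_sum, eval_finsetSum]
        refine sum_congr rfl fun t _ => ?_
        rw [← smul_eq_C_mul, map_smul, hG, show M + t.2.1 * e - l = M - l + e * t.2.1 by rw [mul_comm]; omega]
        simp [pow_add, pow_mul, hx]; ring
    refine (dvd_sub_right h1).1 ?_
    rw [hA, ← sum_sub_distrib]
    refine dvd_sum fun t _ => ?_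
    rw [C_mul, mul_right_comm, ← mul_sub, C_pow, pow_mul]
    refine (((pow_dvd_pow _ hM).trans ?_).trans (sub_dvd_pow_sub_pow _ _ _)).mul_left _
    rw [hn, sub_pow_char_pow, sub_pow_char_pow, ← C_pow, ← C_pow, ← hn, FiniteField.pow_card, FiniteField.pow_card, ← dvd_neg]
    exact dvd_of_eq (by rw [C_sub]; ring)
  have := natDegree_le_of_dvd (Finset.prod_dvd_of_coprime (t := {x | f.eval x ^ e = ζ}.toFinset)
    (fun a _ b _ n => (pairwise_coprime_X_sub_C Function.injective_id n).pow) fun x hx => dv x (by simpa using hx)) A0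
  rw [natDegree_prod_of_monic _ _ fun x _ => (monic_X_sub_C x).pow M] at this
  simp only [natDegree_pow, natDegree_X_sub_C, mul_one, sum_const, smul_eq_mul] at this
  rw [Set.ncard_eq_toFinset_card']
  exact this.trans dA
end ST

theorem st : ST.{u} := fun D m m0 => ⟨m * (4 * D + 4) + m * (2 * (m * (D + 1) + 1)), fun L _ _ M f ζ hQ hm f0 hD hf hζ => by
  have M0 : 0 < M := Nat.pos_of_ne_zero fun z => by simp [z] at hQ
  by_cases hM : M ≤ 2 * (m * (D + 1) + 1)
  · have := Set.ncard_le_card {x | f.eval x ^ ((Fintype.card L - 1) / m) = ζ}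
    rw [Nat.card_eq_fintype_card] at this
    generalize Set.ncard _ = N at this
    rw [hQ] at this ⊢; nlinarith [Nat.mul_le_mul_left m this, Nat.mul_le_mul_left (m * M) hM]
  obtain ⟨e, he⟩ := hm
  have q1 := Fintype.one_lt_card (α := L)
  rw [he, Nat.mul_div_cancel_left _ m0]
  obtain h0 | ⟨x0, h0⟩ := Set.eq_empty_or_nonempty {x | f.eval x ^ e = ζ}
  · simp [h0]
  have e0 : e ≠ 0 := by rintro rfl; omega
  obtain ⟨E, r, h1, h2⟩ : ∃ E r, M ^ 2 = m * E + r ∧ r < m := ⟨_, _, (Nat.div_add_mod _ m).symm, Nat.mod_lt _ m0⟩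
  obtain ⟨j, s, h3, h4⟩ : ∃ j s, M = m * j + s ∧ s < m := ⟨_, _, (Nat.div_add_mod _ m).symm, Nat.mod_lt _ m0⟩
  obtain ⟨B, rfl⟩ : ∃ B, E = B + D := Nat.exists_eq_add_of_le' (Nat.le_of_mul_le_mul_left (by nlinarith) m0)
  have := ST.core (ζ := ζ) (x0 := x0) (B := B) (J := j + 2 * D + 3) (M := M) (e := e) m0 (by rw [mul_comm]; omega)
    (by nlinarith) (fun z => by
      rw [Set.mem_ofPred_eq, z, zero_pow e0] at h0
      simp [← h0, m0.ne'] at hζ) hD hf (by omega) (by
      have k1 : M ^ 2 + 2 * M ≤ 2 * (m * B) := by nlinarith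
      have k2 : M + m * (2 * D + 2) + 1 ≤ m * (j + 2 * D + 3) := by nlinarith
      refine Nat.lt_of_mul_lt_mul_left (a := m) ?_
      generalize j + 2 * D + 3 = J at k2
      obtain ⟨y, hy⟩ : ∃ y, m * B = y + M := ⟨m * B - M, by omega⟩
      have k3 : (M + m * (2 * D + 2) + 1) * y ≤ m * J * y := Nat.mul_le_mul_right _ k2
      have k4 : m * (D + 1) * M ^ 2 ≤ m * (D + 1) * (2 * y) := Nat.mul_le_mul_left _ (by omega)
      have k5 : M ^ 2 ≤ m * M ^ 2 := Nat.le_mul_of_pos_left _ m0
      have k6 : 0 < y := by nlinarith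
      rw [show m * (m * J * B) = m * J * (m * B) by ring, show m * (M * (J + B + M * D)) = m * J * M + M * (m * B) + m * D * M ^ 2 by
        ring, hy]
      nlinarith)
  refine Nat.le_of_mul_le_mul_right ?_ M0
  have k1 : m * (m * e * D) ≤ m * (M ^ 2 * D) := Nat.mul_le_mul_left _ (Nat.mul_le_mul_right _ (by omega))
  have k2 : m * B ≤ m * M ^ 2 := (show _ ≤ M ^ 2 by nlinarith).trans (Nat.le_mul_of_pos_left _ m0)
  have k3 : M ^ 2 * (m * j) ≤ M ^ 2 * M := Nat.mul_le_mul_left _ (by omega)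
  have k4 : m * D * M ≤ m * D * M ^ 2 := Nat.mul_le_mul_left _ (by nlinarith)
  rw [hQ] at this ⊢
  replace this := Nat.mul_le_mul_left m this
  generalize Set.ncard _ = N at this
  linarith [Nat.zero_le (m * M ^ 2), Nat.zero_le (m * (m * (D + 1)) * M ^ 2)]⟩

end H4.US
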