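import Cfsg.Agent.H4.US0

/-! S5810: `L`-functions of multiplicative functions on a polynomial ring. -/

set_option autoImplicit false
set_option linter.unusedSectionVars false

open Polynomial Finset UniqueFactorizationMonoid

namespace H4.US

universe u

namespace LF

theorem ps {z0 : ℂ} {ρ : ℝ} (h0 : 0 < ρ) (t : Finset ℂ) : z0 ∉ t → ∀ (c : ℂ → ℂ) (C : ℝ), c z0 ≠ 0 →
    (∀ j, 0 < j → ‖c z0 * z0 ^ j + ∑ z ∈ t, c z * z ^ j‖ ≤ C * ρ ^ j) → ‖z0‖ ≤ ρ := by
  classical
  induction t using Finset.induction with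
  | empty =>
    intro _ c C c0 h
    by_contra! n
    have c1 := norm_pos_iff.2 c0
    have r1 := (one_lt_div h0).2 n
    obtain ⟨j, hj⟩ := pow_unbounded_of_one_lt (C / ‖c z0‖) r1
    have := h (j + 1) j.succ_pos
    rw [sum_empty, add_zero, norm_mul, norm_pow, ← div_le_iff₀ (by positivity), mul_div_assoc, ← div_pow, ← le_div_iff₀' c1] at this
    exact (hj.trans_le (pow_le_pow_right₀ r1.le j.le_succ)).not_ge this
  | insert w t hw ih =>
    intro n c C c0 h
    rw [mem_insert, not_or] at n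
    refine ih n.2 (fun z => c z * (z - w)) (C * ρ + ‖w‖ * C) (mul_ne_zero c0 (sub_ne_zero.2 n.1)) fun j hj => ?_
    have e : c z0 * (z0 - w) * z0 ^ j + ∑ z ∈ t, c z * (z - w) * z ^ j = (c z0 * z0 ^ (j + 1) + ∑ z ∈ insert w t, c z * z ^ (j + 1)) -
        w * (c z0 * z0 ^ j + ∑ z ∈ insert w t, c z * z ^ j) := by
      rw [sum_insert hw, sum_insert hw, sum_congr rfl fun z _ => (by ring : c z * (z - w) * z ^ j = c z * z ^ (j + 1) - w * (c z * z ^ j)),
        sum_sub_distrib, ← mul_sum]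
      ring
    rw [e]
    refine (norm_sub_le _ _).trans ?_
    rw [norm_mul]
    have := mul_le_mul_of_nonneg_left (h j hj) (norm_nonneg w)
    have := h (j + 1) j.succ_pos
    rw [pow_succ ρ] at this
    linarith

theorem ps' {ρ C : ℝ} (h0 : 0 < ρ) {s : Multiset ℂ} (h : ∀ j, 0 < j → ‖(s.map (· ^ j)).sum‖ ≤ C * ρ ^ j) {z : ℂ} (hz : z ∈ s) :
    ‖z‖ ≤ ρ := by
  classical
  refine ps h0 (s.toFinset.erase z) (notMem_erase _ _) (fun w => s.count w) C (by simpa) fun j hj => ?_
  rw [add_sum_erase _ (fun w => (s.count w : ℂ) * w ^ j) (Multiset.mem_toFinset.2 hz)]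
  simpa [Finset.sum_multiset_map_count] using h j hj

theorem newton (s : Multiset ℂ) : PowerSeries.derivative ℂ ((s.map fun w => 1 - C w * X).prod : ℂ[X]) =
    ((s.map fun w => 1 - C w * X).prod : ℂ[X]) * PowerSeries.mk fun r => -(s.map (· ^ (r + 1))).sum := by
  induction s using Multiset.induction with
  | empty => ext; simp [PowerSeries.coeff_one]
  | cons w s ih =>
    have e : PowerSeries.derivative ℂ (1 - C w * X : ℂ[X]) = (1 - C w * X : ℂ[X]) * PowerSeries.mk fun r => -w ^ (r + 1) := by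
      ext (_ | r) <;> simp [sub_mul, mul_assoc, PowerSeries.coeff_derivative, PowerSeries.coeff_one, PowerSeries.coeff_X, pow_succ']
    have e2 : (PowerSeries.mk fun r => -((w ::ₘ s).map (· ^ (r + 1))).sum) = (PowerSeries.mk fun r => -w ^ (r + 1)) +
        PowerSeries.mk fun r => -(s.map (· ^ (r + 1))).sum := by ext; simp [add_comm]
    rw [Multiset.map_cons, Multiset.prod_cons, Polynomial.coe_mul, Derivation.leibniz, ih, e, e2]
    simp only [smul_eq_mul]; ring

variable {k : Type u} [Field k] [Fintype k]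

theorem fin (d : ℕ) : {f : k[X] | f.Monic ∧ f.natDegree = d}.Finite :=
  @Finite.of_equiv _ _ (.of_equiv _ (degreeLTEquiv k d).toEquiv.symm) (monicEquivDegreeLT d).symm

variable (k) in
/-- monic polynomials of given degree -/
noncomputable def Mo (d : ℕ) : Finset k[X] := (fin d).toFinset

theorem mem_Mo {d : ℕ} {f : k[X]} : f ∈ Mo k d ↔ f.Monic ∧ f.natDegree = d := Set.Finite.mem_toFinset _

theorem fs (l : k[X] → ℂ) (d : ℕ) : ∑ᶠ f : {f : k[X] // f.Monic ∧ f.natDegree = d}, l f = ∑ f ∈ Mo k d, l f :=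
  (finsum_set_coe_eq_finsum_mem _).trans (finsum_mem_eq_finite_toFinset_sum _ (fin d))

open Classical in
variable (k) in
/-- monic irreducible polynomials of degree dividing `r` -/
noncomputable def Ir (r : ℕ) : Finset k[X] := ((range (r + 1)).biUnion (Mo k)).filter fun p => Irreducible p ∧ p.natDegree ∣ r

theorem mem_Ir {r : ℕ} (h : 0 < r) {p : k[X]} : p ∈ Ir k r ↔ p.Monic ∧ Irreducible p ∧ p.natDegree ∣ r := by
  simp only [Ir, mem_filter, mem_biUnion, mem_Mo, mem_range]
  exact ⟨fun ⟨⟨_, _, a, _⟩, b⟩ => ⟨a, b⟩, fun ⟨a, b⟩ => ⟨⟨_, Nat.lt_succ_of_le (Nat.le_of_dvd h b.2), a, rfl⟩, b⟩⟩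

open Classical in
theorem dg {f : k[X]} (hf : f.Monic) : f.natDegree = ∑ j ∈ range f.natDegree, ∑ p ∈ Ir k (j + 1),
    if p ^ ((j + 1) / p.natDegree) ∣ f then p.natDegree else 0 := by
  have m := fun p => Polynomial.mem_normalizedFactors_iff (p := p) hf.ne_zero
  have c : ∀ p : k[X], p.Monic → Irreducible p → ∀ i, p ^ i ∣ f ↔ i ≤ (normalizedFactors f).count p := fun p a b i => by
    rw [pow_dvd_iff_le_emultiplicity, emultiplicity_eq_count_normalizedFactors b hf.ne_zero, a.normalize_eq_self, Nat.cast_le]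
  have e : f.natDegree = ∑ p ∈ (normalizedFactors f).toFinset, ∑ _i ∈ range ((normalizedFactors f).count p), p.natDegree := by
    conv_lhs => rw [← hf.normalize_eq_self, ← prod_normalizedFactors_eq hf.ne_zero,
      natDegree_multiset_prod_of_monic _ fun p a => ((m p).1 a).2.1, Finset.sum_multiset_map_count]
    simp
  refine e.trans ?_
  simp only [← sum_filter]
  rw [sum_sigma', sum_sigma']
  refine sum_nbij' (fun x => ⟨(x.2 + 1) * x.1.natDegree - 1, x.1⟩) (fun x => ⟨x.2, (x.1 + 1) / x.2.natDegree - 1⟩) ?_ ?_ ?_ ?_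
    fun _ _ => rfl
  all_goals
    rintro ⟨x, y⟩ h
    simp only [mem_sigma, Multiset.mem_toFinset, m, mem_range, mem_filter, mem_Ir (Nat.add_one_pos _)] at h ⊢
  · have h1 := h.1.1.natDegree_pos
    have h2 : 0 < (y + 1) * x.natDegree := by positivity
    have h3 := (c x h.1.2.1 h.1.1 (y + 1)).2 h.2
    have := natDegree_le_of_dvd h3 hf.ne_zero
    rw [natDegree_pow] at this
    rw [Nat.sub_add_cancel h2, Nat.mul_div_cancel _ h1]
    exact ⟨by omega, ⟨h.1.2.1, h.1.1, dvd_mul_left _ _⟩, h3⟩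
  · have h1 := Nat.div_pos (Nat.le_of_dvd x.add_one_pos h.2.1.2.2) h.2.1.2.1.natDegree_pos
    have h2 := (c y h.2.1.1 h.2.1.2.1 _).1 h.2.2
    exact ⟨⟨h.2.1.2.1, h.2.1.1, (dvd_pow_self y h1.ne').trans h.2.2⟩, by omega⟩
  · have h1 := h.1.1.natDegree_pos
    rw [Nat.sub_add_cancel (show 0 < (y + 1) * x.natDegree by positivity), Nat.mul_div_cancel _ h1, add_tsub_cancel_right]
  · have h1 := Nat.div_pos (Nat.le_of_dvd x.add_one_pos h.2.1.2.2) h.2.1.2.1.natDegree_pos
    rw [Nat.sub_add_cancel h1, Nat.div_mul_cancel h.2.1.2.2, add_tsub_cancel_right]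

open Classical in
theorem dv (l : k[X] →* ℂ) {g : k[X]} (hg : g.Monic) (d : ℕ) :
    (∑ f ∈ Mo k (g.natDegree + d), if g ∣ f then l f else 0) = l g * ∑ f ∈ Mo k d, l f := by
  rw [← sum_filter, mul_sum]
  refine (sum_nbij (g * ·) (fun h a => ?_) (fun _ _ _ _ e => mul_left_cancel₀ hg.ne_zero e) ?_ fun _ _ => (map_mul ..).symm).symm
  · rw [mem_Mo] at a
    exact mem_filter.2 ⟨mem_Mo.2 ⟨hg.mul a.1, by rw [hg.natDegree_mul a.1, a.2]⟩, dvd_mul_right _ _⟩
  · intro f a
    obtain ⟨a, h, rfl⟩ := mem_filter.1 a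
    rw [mem_Mo] at a
    have := hg.of_mul_monic_left a.1
    exact ⟨h, mem_Mo.2 ⟨this, by simpa [hg.natDegree_mul this] using a.2⟩, rfl⟩

/-- the coefficients of the logarithmic derivative -/
noncomputable def TT (l : k[X] →* ℂ) (r : ℕ) : ℂ := ∑ p ∈ Ir k r, p.natDegree * l p ^ (r / p.natDegree)

theorem rec' (l : k[X] →* ℂ) (d : ℕ) : (∑ f ∈ Mo k (d + 1), l f) * (d + 1) =
    ∑ j ∈ range (d + 1), TT l (j + 1) * ∑ f ∈ Mo k (d - j), l f := by
  classical
  have e : ∀ f ∈ Mo k (d + 1), l f * (d + 1) = ∑ j ∈ range (d + 1), ∑ p ∈ Ir k (j + 1),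
      p.natDegree * if p ^ ((j + 1) / p.natDegree) ∣ f then l f else 0 := fun f hf => by
    rw [mem_Mo] at hf
    have := congrArg (Nat.cast : ℕ → ℂ) (dg hf.1)
    rw [hf.2] at this
    push_cast at this
    simp only [this, sum_mul, mul_ite, ite_mul, mul_zero, zero_mul, mul_comm (l f)]
  rw [sum_mul, sum_congr rfl e, sum_comm]
  refine sum_congr rfl fun j hj => ?_
  rw [sum_comm, TT, sum_mul]
  refine sum_congr rfl fun p hp => ?_
  rw [mem_Ir j.succ_pos] at hp
  rw [← mul_sum, mul_assoc, ← map_pow, ← dv l (hp.1.pow _), natDegree_pow, Nat.div_mul_cancel hp.2.2,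
    show j + 1 + (d - j) = d + 1 by have := mem_range.1 hj; omega]

theorem ext (l : k[X] →* ℂ) {L : Type*} [Field L] [Fintype L] [Algebra k L] {r : ℕ} (hr : Module.finrank k L = r) :
    ∑ x : L, l (minpoly k x) ^ (r / (minpoly k x).natDegree) = TT l r := by
  classical
  have r0 : 0 < r := hr ▸ Module.finrank_pos
  have i : ∀ x : L, IsIntegral k x := Algebra.IsIntegral.isIntegral
  rw [← sum_fiberwise_of_maps_to (g := minpoly k) (t := Ir k r) fun x _ => (mem_Ir r0).2
    ⟨minpoly.monic (i x), minpoly.irreducible (i x), hr ▸ minpoly.degree_dvd (i x)⟩]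
  refine sum_congr rfl fun p hp => ?_
  rw [mem_Ir r0] at hp
  rw [sum_congr rfl fun x hx => by rw [(mem_filter.1 hx).2], sum_const, nsmul_eq_mul]
  congr 2
  rw [← card_rootSet_eq_natDegree (K := L) (PerfectField.separable_of_irreducible hp.2.1), Fintype.card_subtype]
  · congr 1; ext x
    simp only [mem_filter, mem_univ, true_and, mem_rootSet_of_ne hp.1.ne_zero]
    exact ⟨fun e => e ▸ minpoly.aeval k x, fun e => (minpoly.eq_of_irreducible_of_monic hp.2.1 e hp.1).symm⟩
  · refine (FiniteField.isSplittingField_sub L k).splits.of_dvd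
      (map_ne_zero (FiniteField.X_pow_card_sub_X_ne_zero _ Fintype.one_lt_card)) ((map_dvd_map' _).2 ?_)
    rw [Module.card_eq_pow_finrank (K := k), hr, ← Nat.card_eq_fintype_card]
    exact hp.2.1.natDegree_dvd_iff_dvd_X_pow_card_pow_sub_X.1 hp.2.2
end LF

open LF in
theorem lf : LF.{u} := fun k _ _ l D r C R D2 r0 R1 h1 h2 h3 => by
  classical
  simp only [fs] at h1 h2
  set A : ℂ[X] := ∑ d ∈ range D, monomial d (∑ f ∈ Mo k d, l f) with hA
  have cA : ∀ d, A.coeff d = ∑ f ∈ Mo k d, l f := fun d => by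
    simp only [hA, finsetSum_coeff, coeff_monomial, sum_ite_eq', mem_range]
    split_ifs with e
    exacts [rfl, (h1 d (not_lt.1 e)).symm]
  have c0 : A.coeff 0 = 1 := by
    rw [cA, show Mo k 0 = {1} from Finset.ext fun f => by
      rw [mem_Mo, mem_singleton]; exact ⟨fun a => a.1.natDegree_eq_zero.1 a.2, fun a => by simp [a]⟩]; simp
  have c1 : A.coeff 1 = ∑ a : k, l (X - Polynomial.C a) := by
    rw [cA]
    refine (sum_nbij (fun a => X - Polynomial.C a) (fun a _ => mem_Mo.2 ⟨monic_X_sub_C a, natDegree_X_sub_C a⟩)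
      (fun _ _ _ _ e => by simpa using e) (fun f a => ?_) fun _ _ => rfl).symm
    replace a := mem_Mo.1 a
    exact ⟨-f.coeff 0, by simp, by simpa using (a.1.eq_X_add_C a.2).symm⟩
  have A0 : A ≠ 0 := fun e => by simp [e] at c0
  have r0' : ∀ x ∈ A.roots, x ≠ 0 := fun x hx e => by
    have := (mem_roots A0).1 hx
    rw [e, IsRoot.def, ← coeff_zero_eq_eval_zero, c0] at this
    exact one_ne_zero this
  obtain ⟨s, hs, s1, sc⟩ : ∃ s : Multiset ℂ, A = (s.map fun w => 1 - Polynomial.C w * X).prod ∧ 1 ∈ s ∧ s.card + 1 ≤ D := by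
    refine ⟨A.roots.map (·⁻¹), ?_, Multiset.mem_map.2 ⟨1, (mem_roots A0).2 (by simpa [hA, eval_finsetSum] using h2), inv_one⟩, ?_⟩
    · have e := (IsAlgClosed.splits A).eq_prod_roots
      rw [Multiset.map_congr rfl fun (x : ℂ) hx => (show X - Polynomial.C x = Polynomial.C (-x) * (1 - Polynomial.C x⁻¹ * X) by
        rw [mul_sub, ← mul_assoc, ← C_mul, neg_mul, mul_inv_cancel₀ (r0' x hx)]; simp; ring), Multiset.prod_map_mul,
        ← mul_assoc] at e
      have e0 := congrArg (eval 0) e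
      rw [← coeff_zero_eq_eval_zero, c0] at e0
      simp only [eval_mul, eval_multiset_prod, Multiset.map_map, Function.comp_def, eval_C, eval_sub, eval_one, eval_X, mul_zero,
        sub_zero, Multiset.prod_map_one, mul_one] at e0
      rw [Multiset.map_map]
      rw [← Function.comp_def Polynomial.C, ← Multiset.map_map, ← map_multiset_prod, ← C_mul, ← e0, C_1, one_mul] at e
      exact e
    · have : A.natDegree ≤ D - 1 := natDegree_sum_le_of_forall_le _ _ fun d a =>
        (natDegree_monomial_le _).trans (by have := mem_range.1 a; omega)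
      have := card_roots' A
      rw [Multiset.card_map]; omega
  have nw := newton s
  rw [← hs] at nw
  have e : (PowerSeries.mk fun r => -(s.map (· ^ (r + 1))).sum) = PowerSeries.mk fun r => TT l (r + 1) :=
    mul_left_cancel₀ (Polynomial.coe_eq_zero_iff.not.2 A0) (nw.symm.trans (PowerSeries.ext fun d => by
      rw [PowerSeries.coeff_derivative, mul_comm (A : PowerSeries ℂ), PowerSeries.coeff_mul,
        Finset.Nat.sum_antidiagonal_eq_sum_range_succ_mk]
      simp only [coeff_coe, cA, PowerSeries.coeff_mk, rec']))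
  have b : ∀ w ∈ s, ‖w‖ ≤ R := fun w hw => by
    refine (pow_le_pow_iff_left₀ (norm_nonneg _) (by linarith) r0.ne').1 ?_
    rw [← norm_pow]
    refine ps' (C := C) (s := s.map (· ^ r)) (by positivity) (fun j hj => ?_) (Multiset.mem_map_of_mem _ hw)
    obtain ⟨L, _, _, _, hL, h⟩ := h3 j hj
    have := congrArg (PowerSeries.coeff (r * j - 1)) e
    simp only [PowerSeries.coeff_mk, Nat.sub_add_cancel (show 1 ≤ r * j from Nat.mul_pos r0 hj)] at this
    rw [LF.ext l hL, ← this, norm_neg] at h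
    simpa only [Multiset.map_map, Function.comp_def, ← pow_mul] using h
  have e1 := congrArg (PowerSeries.coeff 0) nw
  simp [PowerSeries.coeff_derivative, c1, c0, ← coeff_zero_eq_eval_zero] at e1
  obtain ⟨t, rfl⟩ := Multiset.exists_cons_of_mem s1
  rw [e1, Multiset.sum_cons, neg_add, add_neg_cancel_left, norm_neg]
  refine (norm_multiset_sum_le t).trans ((Multiset.sum_le_card_nsmul _ R fun x hx => ?_).trans ?_)
  · obtain ⟨w, hw, rfl⟩ := Multiset.mem_map.1 hx
    exact b w (Multiset.mem_cons_of_mem hw)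
  · rw [Multiset.card_map, nsmul_eq_mul]
    refine mul_le_mul_of_nonneg_right ?_ (by linarith)
    rw [Multiset.card_cons] at sc
    have : ((t.card + 1 + 1 : ℕ) : ℝ) ≤ D := by exact_mod_cast sc
    push_cast at this; linarith

end H4.US
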