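import Cfsg.Agent.H4.US4
import Cfsg.Agent.H4.US5

/-! S5810: the Weil bound for multiplicative character sums. -/

set_option autoImplicit false
set_option linter.unusedSectionVars false

open Polynomial Finset Module

namespace H4.US

universe u

namespace W3

theorem pr {M : Type*} [CommMonoid M] (F : ℕ → M) (n c : ℕ) :
    ∏ t ∈ range (n * c), F t = ∏ i ∈ range c, ∏ l ∈ range n, F (n * i + l) := by
  induction c with
  | zero => simp
  | succ c ih => rw [mul_add_one, prod_range_add, ih, prod_range_succ]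

theorem ex_ext (K : Type u) [Field K] [Fintype K] {n : ℕ} (h : 0 < n) :
    ∃ (L : Type u) (_ : Field L) (_ : Fintype L) (_ : Algebra K L), finrank K L = n := by
  obtain ⟨p, hp, -, pp, -⟩ := FiniteField.card' K
  haveI := Fact.mk pp
  haveI : NeZero n := ⟨h.ne'⟩
  exact ⟨ULift (FiniteField.Extension K p n), inferInstance, Fintype.ofFinite _, inferInstance,
    finrank_ulift.trans (FiniteField.finrank_extension K p n)⟩

theorem rm_prod {L ι : Type*} [Field L] (s : Finset ι) {f : ι → L[X]} (h : ∀ i, f i ≠ 0) (a : L) :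
    (∏ i ∈ s, f i).rootMultiplicity a = ∑ i ∈ s, (f i).rootMultiplicity a := by
  classical
  induction s using Finset.induction with
  | empty => simpa using rootMultiplicity_C 1 a
  | insert i s hi ih => rw [prod_insert hi, sum_insert hi, rootMultiplicity_mul (mul_ne_zero (h i)
      (prod_ne_zero_iff.2 fun j _ => h j)), ih]

variable {k : Type*} [Field k] [Fintype k] {L : Type*} [Field L] [Fintype L] [Algebra k L]

local notation "Q" => Fintype.card k

variable (k) in
theorem fr (t : ℕ) : ∃ φ : L →ₐ[k] L, ∀ x, φ x = x ^ Q ^ t :=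
  ⟨FiniteField.frobeniusAlgHom k L ^ t, fun x => by rw [AlgHom.coe_pow, FiniteField.coe_frobeniusAlgHom, pow_iterate]⟩

theorem per (x : L) (t : ℕ) : x ^ Q ^ t = x ↔ (minpoly k x).natDegree ∣ t := by
  rw [(minpoly.irreducible (Algebra.IsIntegral.isIntegral x)).natDegree_dvd_iff_dvd_X_pow_card_pow_sub_X, minpoly.dvd_iff,
    Nat.card_eq_fintype_card]
  simp [sub_eq_zero]

theorem mp_pow (x : L) (t : ℕ) : minpoly k (x ^ Q ^ t) = minpoly k x := by
  obtain ⟨φ, e⟩ := fr k (L := L) t
  rw [← e, minpoly.algHom_eq φ φ.injective]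

theorem mp (x : L) : (minpoly k x).map (algebraMap k L) = ∏ t ∈ range (minpoly k x).natDegree, (X - C (x ^ Q ^ t)) := by
  have m := minpoly.monic (Algebra.IsIntegral.isIntegral (R := k) x)
  refine eq_of_monic_of_dvd_of_natDegree_le (monic_prod_X_sub_C _ _) (m.map _) (Finset.prod_dvd_of_coprime
    (fun a ha b hb n => isCoprime_X_sub_C_of_isUnit_sub (sub_ne_zero.2 fun e => ?_).isUnit) fun t _ => dvd_iff_isRoot.2 ?_)
    (by rw [natDegree_map, natDegree_prod_of_monic _ _ fun _ _ => monic_X_sub_C _]; simp [-map_pow])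
  · wlog h : a < b generalizing a b
    · exact this b hb a ha n.symm e.symm (by omega)
    obtain ⟨c, rfl⟩ := Nat.exists_eq_add_of_le h.le
    obtain ⟨φ, e'⟩ := fr k (L := L) a
    rw [add_comm, pow_add, pow_mul, ← e', ← e'] at e
    have := Nat.le_of_dvd (by omega) ((per x c).1 (φ.injective e).symm)
    have := mem_range.1 hb
    omega
  · rw [IsRoot.def, eval_map_algebraMap, ← mp_pow x t, minpoly.aeval]

theorem mp' (x a : L) : aeval a (minpoly k x) ^ (finrank k L / (minpoly k x).natDegree) =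
    ∏ t ∈ range (finrank k L), (a - x ^ Q ^ t) := by
  obtain ⟨c, hc⟩ := minpoly.degree_dvd (Algebra.IsIntegral.isIntegral (R := k) x)
  rw [hc, Nat.mul_div_cancel_left _ (minpoly.natDegree_pos (Algebra.IsIntegral.isIntegral x)), pr, ← eval_map_algebraMap, mp,
    eval_prod]
  simp only [eval_sub, eval_X, eval_C, pow_add, pow_mul x, (per x _).2 (dvd_mul_right _ _), prod_const, card_range]

theorem avg {ι : Type*} [DecidableEq ι] (s : Finset ι) {m : ℕ} (m2 : 1 < m) {ω : ℂ} (hω : IsPrimitiveRoot ω m) (a : ι → ℕ)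
    (ha : ∀ x ∈ s, a x < m) {T : ℝ} (h : ∀ i, m * (#{x ∈ s | a x = i} : ℝ) ≤ T) : ‖∑ x ∈ s, ω ^ a x‖ ≤ T - #s := by
  have m0 : (0 : ℝ) < m := by positivity
  have e := card_eq_sum_card_fiberwise (t := range m) fun x hx => mem_coe.2 (mem_range.2 (ha x hx))
  rw [← sum_fiberwise_of_maps_to (t := range m) fun x hx => mem_range.2 (ha x hx),
    sum_congr rfl fun i _ => sum_congr rfl fun x hx => by rw [(mem_filter.1 hx).2]]
  have : ∑ i ∈ range m, ∑ x ∈ s with a x = i, ω ^ i = -∑ i ∈ range m, ((T / m - #{x ∈ s | a x = i} : ℝ) : ℂ) * ω ^ i := by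
    simp [sub_mul, ← mul_sum, hω.geom_sum_eq_zero m2]
  rw [this, norm_neg]
  refine (norm_sum_le _ _).trans (le_of_eq ?_)
  rw [sum_congr rfl fun i _ => by
    rw [norm_mul, norm_pow, hω.norm'_eq_one (by omega), one_pow, mul_one, Complex.norm_real, Real.norm_of_nonneg
      (sub_nonneg.2 ((le_div_iff₀' m0).2 (h i)))], sum_sub_distrib, e]
  simp [mul_div_cancel₀ _ m0.ne']
end W3

open W3 LF in
theorem w3 : W3.{u} := fun st lf k K _ _ _ _ _ s α χ n2 hα inj ⟨i0, h0⟩ ev => by
  classical
  let l : k[X] →* ℂ := ∏ i, (χ i).toMonoidHom.comp (aeval (α i)).toRingHom.toMonoidHom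
  have hl : ∀ h, l h = ∏ i, χ i (aeval (α i) h) := fun h => by simp [l]
  set n := finrank k K with hn
  have s0 : 0 < s := Fin.pos i0
  have ii : ∀ x : K, IsIntegral k x := Algebra.IsIntegral.isIntegral
  haveI : Finite (degreeLT k (s * n)) := .of_equiv _ (degreeLTEquiv k _).toEquiv.symm
  haveI := Fintype.ofFinite (degreeLT k (s * n))
  have V : ∀ g0, ∑ h : degreeLT k (s * n), l (g0 + h) = 0 := fun g0 => by
    let E : degreeLT k (s * n) →ₗ[k] (Fin s → K) := LinearMap.pi fun i => (aeval (α i)).toLinearMap.comp (Submodule.subtype _)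
    have b : Function.Injective E := (injective_iff_map_eq_zero _).2 fun h e => Subtype.ext (eq_zero_of_dvd_of_degree_lt
      (Finset.prod_dvd_of_coprime (t := univ) (fun i _ j _ ne => (minpoly.irreducible (ii _)).coprime_iff_not_dvd.2 fun d =>
        ne (inj (eq_of_monic_of_associated (minpoly.monic (ii _)) (minpoly.monic (ii _))
          ((minpoly.irreducible (ii _)).associated_of_dvd (minpoly.irreducible (ii _)) d))))
        fun i _ => minpoly.dvd k _ (congrFun e i)) (by
      rw [degree_eq_natDegree (prod_ne_zero_iff.2 fun _ _ => minpoly.ne_zero (ii _)),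
        natDegree_prod_of_monic _ _ fun _ _ => minpoly.monic (ii _)]
      simpa [hα] using mem_degreeLT.1 h.2))
    have b2 := (LinearMap.injective_iff_surjective_of_finrank_eq_finrank (f := E) (by
      rw [(degreeLTEquiv k _).finrank_eq, finrank_pi_fintype k (M := fun _ => K)]; simp [hn])).1 b
    rw [show ∑ h : degreeLT k (s * n), l (g0 + h) = ∑ v : Fin s → K, ∏ i, χ i (v i) from
        Eq.trans (sum_congr rfl fun h _ => by simp [hl, E]) (((AddGroup.addLeft_bijective fun i => aeval (α i) g0).comp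
          ⟨b, b2⟩).sum_comp fun v => ∏ i, χ i (v i)), ← Fintype.piFinset_univ, ← prod_univ_sum]
    exact prod_eq_zero (mem_univ i0) (MulChar.sum_eq_zero_of_ne_one h0)
  obtain ⟨β, hβ⟩ := IsCyclic.exists_generator (α := Kˣ)
  have mG : orderOf χ ∣ Fintype.card Kˣ := orderOf_dvd_of_pow_eq_one (funext fun i => MulChar.pow_card_eq_one _)
  have m2 : 1 < orderOf χ := by
    have := Nat.pos_of_dvd_of_pos mG Fintype.card_pos
    have : orderOf χ ≠ 1 := fun e => h0 (congrFun (orderOf_eq_one_iff.1 e) i0)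
    omega
  set m := orderOf χ with hm
  haveI : NeZero m := ⟨by omega⟩
  have hω := Complex.isPrimitiveRoot_exp m (by omega)
  generalize Complex.exp _ = ω at hω
  obtain ⟨θ, hθ⟩ : ∃ θ : MulChar K ℂ, θ β = ω := ⟨_, MulChar.ofRootOfUnity_spec (ζ := (hω.isUnit (by omega)).unit)
    ((mem_rootsOfUnity' _ _).2 ((hω.pow_eq_one_iff_dvd _).2 mG)) hβ⟩
  have θm : θ ^ m = 1 := (MulChar.eq_iff hβ _ _).2 (by simp [MulChar.pow_apply_coe, hθ, hω.pow_eq_one])
  obtain ⟨e, e0, he⟩ : ∃ e : Fin s → ℕ, (∀ i, e i ≠ 0) ∧ ∀ i, χ i = θ ^ e i := by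
    choose e _ he using fun i => hω.eq_pow_of_pow_eq_one (ξ := χ i β) (by
      rw [← MulChar.pow_apply_coe, show χ i ^ m = 1 from congrFun (pow_orderOf_eq_one χ) i]; simp)
    exact ⟨fun i => e i + m, fun i => by simp only; omega, fun i => (MulChar.eq_iff hβ _ _).2 (by
      rw [pow_add, θm, mul_one, MulChar.pow_apply_coe, hθ, he])⟩
  obtain ⟨C0, hC⟩ := st (∑ i, ∑ t ∈ range n, Fintype.card k ^ t * e i) m (by omega)
  have cK : Fintype.card K = Fintype.card k ^ n := Module.card_eq_pow_finrank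
  have := lf k l (s * n) (n * 2) (C0 + (∑ i, ∑ t ∈ range n, Fintype.card k ^ t * e i : ℕ)) √(Fintype.card k) (by nlinarith)
    (by omega) (Real.one_le_sqrt.2 (by exact_mod_cast Fintype.card_pos)) (fun d hd => ?_) ?_ fun j j0 => ?_
  · simpa [hl] using this
  · refine mul_left_cancel₀ (Nat.cast_ne_zero.2 (Fintype.card_ne_zero (α := degreeLT k (s * n)))) ?_
    have k1 : ∀ (h : degreeLT k (s * n)), ∀ f ∈ Mo k d, f + h ∈ Mo k d := fun h f hf => by
      rw [mem_Mo] at hf ⊢
      have : h.1.degree < f.degree := (mem_degreeLT.1 h.2).trans_le (by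
        rw [degree_eq_natDegree hf.1.ne_zero, hf.2]; exact_mod_cast hd)
      exact ⟨hf.1.add_of_left this, by rw [natDegree_add_eq_left_of_degree_lt this, hf.2]⟩
    rw [fs, mul_zero, ← nsmul_eq_mul, ← card_univ, ← sum_const, sum_congr rfl fun h _ => (sum_nbij' (g := l) (· + h.1) (· - h.1)
      (k1 h) (fun f hf => by simpa [sub_eq_add_neg] using k1 (-h) f hf) (by simp) (by simp) fun _ _ => rfl).symm, sum_comm]
    simp [V]
  · have := V 0
    simp only [zero_add, fs] at this ⊢
    rw [← add_sum_erase _ _ (mem_univ 0), show l (0 : degreeLT k (s * n)) = 0 by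
      rw [hl]; exact prod_eq_zero (mem_univ i0) (by simp [MulChar.map_zero]), zero_add] at this
    refine mul_left_cancel₀ (Nat.cast_ne_zero.2 (Fintype.card_ne_zero (α := kˣ))) ?_
    rw [mul_zero, ← this, sum_sigma', ← nsmul_eq_mul, ← card_univ, ← sum_const, ← sum_product']
    refine sum_bij (fun x hx => ⟨C x.1.1 * x.2.2, ?_⟩) (fun x hx => ?_) (fun x hx y hy e => ?_) (fun h hh => ?_) fun x hx => ?_
    all_goals try simp only [mem_product, mem_sigma, mem_range, mem_Mo, mem_univ, true_and] at hx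
    · rw [mem_degreeLT, degree_C_mul x.1.ne_zero, degree_eq_natDegree hx.2.1.ne_zero, hx.2.2]; exact_mod_cast hx.1
    · simp [← Subtype.val_inj, hx.2.1.ne_zero]
    · simp only [mem_product, mem_sigma, mem_range, mem_Mo, mem_univ, true_and, Subtype.mk.injEq] at hy e
      have e1 : x.1 = y.1 := Units.ext (by simpa [hx.2.1.leadingCoeff, hy.2.1.leadingCoeff] using congrArg leadingCoeff e)
      have e2 : x.2.2 = y.2.2 := by simpa [e1] using e
      exact Prod.ext e1 (Sigma.ext (by rw [← hx.2.2, ← hy.2.2, e2]) (heq_of_eq e2))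
    · have h0 : h.1 ≠ 0 := fun z => ne_of_mem_erase hh (Subtype.ext z)
      have h1 := leadingCoeff_ne_zero.2 h0
      exact ⟨(Units.mk0 _ h1, ⟨h.1.natDegree, h.1 * C h.1.leadingCoeff⁻¹⟩), by
        simp [mem_Mo, monic_mul_leadingCoeff_inv h0, natDegree_mul_leadingCoeff_inv _ h0,
          (natDegree_lt_iff_degree_lt h0).2 (mem_degreeLT.1 h.2)], Subtype.ext (by
        simp only [Units.val_mk0]; rw [mul_left_comm, ← C_mul, mul_inv_cancel₀ h1, C_1, mul_one])⟩
    · rw [map_mul, hl (C _)]; simp [ev]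
  obtain ⟨L, _, _, _, hL⟩ := ex_ext K (show 0 < 2 * j by omega)
  letI : Algebra k L := ((algebraMap K L).comp (algebraMap k K)).toAlgebra
  haveI : IsScalarTower k K L := .of_algebraMap_eq' rfl
  have hN : finrank k L = n * (2 * j) := by rw [← finrank_mul_finrank k K L, hL]
  refine ⟨L, inferInstance, inferInstance, inferInstance, by rw [hN, mul_assoc], ?_⟩
  have cL : Fintype.card L = (Fintype.card K ^ j) ^ 2 := by rw [Module.card_eq_pow_finrank (K := K), hL, ← pow_mul, mul_comm]
  rw [Fintype.card_units] at mG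
  have hG : Fintype.card K - 1 ∣ Fintype.card L - 1 := by
    simpa [cL, ← pow_mul] using Nat.sub_dvd_pow_sub_pow (Fintype.card K) 1 (j * 2)
  have mA : ∀ i, minpoly k (algebraMap K L (α i)) = minpoly k (α i) := fun i => minpoly.algebraMap_eq (algebraMap K L).injective _
  set f : L[X] := ∏ i, ∏ t ∈ range n, (X - C (algebraMap K L (α i) ^ Fintype.card k ^ (n - t))) ^ (Fintype.card k ^ t * e i)
    with hf
  have fm : f.Monic := monic_prod_of_monic _ _ fun _ _ => monic_prod_of_monic _ _ fun _ _ => (monic_X_sub_C _).pow _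
  have fd : f.natDegree = ∑ i, ∑ t ∈ range n, Fintype.card k ^ t * e i := by
    rw [hf, natDegree_prod_of_monic _ _ fun _ _ => monic_prod_of_monic _ _ fun _ _ => (monic_X_sub_C _).pow _]
    exact sum_congr rfl fun i _ => by rw [natDegree_prod_of_monic _ _ fun _ _ => (monic_X_sub_C _).pow _]; simp [-map_pow]
  replace hC := fun ζ => hC L (Fintype.card K ^ j) f ζ cL (mG.trans hG) fm.ne_zero fd.le fun d hd =>
    orderOf_dvd_of_pow_eq_one (funext fun i => by
      have := hd (algebraMap K L (α i))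
      rw [hf, rm_prod _ fun _ => prod_ne_zero_iff.2 fun _ _ => pow_ne_zero _ (X_sub_C_ne_zero _), sum_eq_single i (fun i' _ ne => by
        rw [rm_prod _ fun _ => pow_ne_zero _ (X_sub_C_ne_zero _)]
        refine sum_eq_zero fun t _ => ?_
        rw [ST.rm_pow (X_sub_C_ne_zero _), rootMultiplicity_X_sub_C, if_neg fun z => ne (inj ?_), mul_zero]
        simp only [← mA, z, mp_pow]) (by simp), rm_prod _ fun _ => pow_ne_zero _ (X_sub_C_ne_zero _),
        sum_eq_single 0 (fun t ht ne => by
          rw [ST.rm_pow (X_sub_C_ne_zero _), rootMultiplicity_X_sub_C, if_neg fun z => ?_, mul_zero]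
          have := Nat.le_of_dvd (Nat.sub_pos_of_lt (mem_range.1 ht)) ((per _ _).1 z.symm)
          rw [mA, hα] at this
          omega) (by simp; omega), ST.rm_pow (X_sub_C_ne_zero _), rootMultiplicity_X_sub_C, if_pos (by
        rw [Nat.sub_zero, ← map_pow, ← cK, FiniteField.pow_card]), pow_zero, one_mul, mul_one] at this
      obtain ⟨c, hc⟩ := this
      rw [Pi.pow_apply, he, ← pow_mul, mul_comm, hc, pow_mul, θm, one_pow]; rfl)
  have key : ∀ x : L, ∃ u : K, l (minpoly k x) ^ (n * 2 * j / (minpoly k x).natDegree) = θ u ∧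
      algebraMap K L u = f.eval x ^ ((Fintype.card L - 1) / (Fintype.card K - 1)) := fun x => by
    refine ⟨∏ i, (aeval (α i) (minpoly k x) ^ (finrank k L / (minpoly k x).natDegree)) ^ e i, ?_, ?_⟩
    · simp only [hl, he, MulChar.pow_apply' _ (e0 _), map_prod, map_pow, hN, mul_assoc, ← prod_pow, ← pow_mul, mul_comm (e _)]
    rw [← Nat.card_eq_fintype_card, ← Nat.card_eq_fintype_card, ← FiniteField.algebraMap_norm_eq_pow,
      FiniteField.algebraMap_norm_eq_prod_pow, hL, Nat.card_eq_fintype_card, cK, hf]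
    simp only [map_prod, map_pow, ← aeval_algebraMap_apply, mp', eval_prod, eval_pow, ← prod_pow, eval_sub, eval_X, eval_C]
    refine Eq.trans ?_ prod_comm
    refine prod_congr rfl fun i _ => ?_
    rw [prod_pow, prod_congr rfl fun t _ => (neg_sub (x ^ _) _).symm, prod_neg, card_range, hN,
      Even.neg_one_pow ⟨n * j, by ring⟩, one_mul, pr, ← prod_pow]
    refine prod_congr rfl fun c _ => ?_
    rw [← prod_pow]
    refine prod_congr rfl fun t ht => ?_
    obtain ⟨φ, hφ⟩ := fr k (L := L) (n * c + t)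
    rw [← pow_mul, ← pow_mul, mul_right_comm, ← pow_add, add_comm t, pow_mul, ← hφ (x - _), map_sub, hφ, hφ, ← pow_mul, ← pow_add,
      show n - t + (n * c + t) = n * (c + 1) by have := mem_range.1 ht; rw [mul_add_one]; omega,
      (per (algebraMap K L _) _).2 (by rw [mA, hα]; exact dvd_mul_right _ _)]
  choose u hu hu' using key
  have G0 : (Fintype.card L - 1) / (Fintype.card K - 1) ≠ 0 := (Nat.div_pos (Nat.le_of_dvd (by
    have := Fintype.one_lt_card (α := L); omega) hG) (by have := Fintype.one_lt_card (α := K); omega)).ne'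
  have b1 : (algebraMap K L β ^ ((Fintype.card K - 1) / m)) ^ m = 1 := by
    rw [← pow_mul, Nat.div_mul_cancel mG, ← map_pow, FiniteField.pow_card_sub_one_eq_one _ β.ne_zero, map_one]
  choose! a ha using fun x (hx : f.eval x ≠ 0) => show ∃ a, (a < m ∧ θ (u x) = ω ^ a) ∧ f.eval x ^ ((Fintype.card L - 1) / m) =
      (algebraMap K L β ^ ((Fintype.card K - 1) / m)) ^ a by
    have u0 : u x ≠ 0 := fun z => pow_ne_zero _ hx ((hu' x).symm.trans (by rw [z, map_zero]))
    obtain ⟨c, hc⟩ := mem_powers_iff_mem_zpowers.2 (hβ (Units.mk0 _ u0))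
    replace hc : u x = β ^ c := (congrArg Units.val hc).symm
    refine ⟨c % m, ⟨Nat.mod_lt _ (by omega), by rw [hc, map_pow, hθ, ← pow_eq_pow_mod _ hω.pow_eq_one]⟩, ?_⟩
    rw [← pow_eq_pow_mod _ b1, pow_right_comm, ← map_pow, ← hc, hu', ← pow_mul, ← Nat.mul_div_assoc _ mG, Nat.div_mul_cancel hG]
  rw [sum_congr rfl fun x _ => hu x, ← sum_filter_of_ne (p := fun x => f.eval x ≠ 0) fun x _ h z => h (by
    rw [(map_eq_zero (algebraMap K L)).1 ((hu' x).trans (by rw [z, zero_pow G0])), MulChar.map_zero]),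
    sum_congr rfl fun x hx => (ha x (mem_filter.1 hx).2).1.2]
  refine (avg _ m2 hω a (fun x hx => (ha x (mem_filter.1 hx).2).1.1) (T := (Fintype.card L + C0 * Fintype.card K ^ j : ℕ))
    fun i => ?_).trans ?_
  · have := (Nat.mul_le_mul_left m (Set.ncard_le_ncard (s := ↑({x ∈ {x ∈ univ | f.eval x ≠ 0} | a x = i} : Finset L))
      fun x hx => ?_)).trans (hC _ (by rw [pow_right_comm, b1, one_pow (M := L) i]))
    · rw [Set.ncard_coe_finset] at this; exact_mod_cast this
    · simp only [coe_filter, mem_filter, mem_univ, true_and, Set.mem_ofPred_eq] at hx ⊢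
      rw [(ha x hx.1).2, hx.2]
  have h1 := card_filter_add_card_filter_not (s := univ) fun x => f.eval x ≠ 0
  have h2 : #{x | ¬ f.eval x ≠ 0} ≤ f.natDegree := card_le_degree_of_subset_roots fun x hx => by
    simpa [fm.ne_zero] using hx
  have h3 : √(Fintype.card k : ℝ) ^ (n * 2 * j) = (Fintype.card K ^ j : ℕ) := by
    rw [mul_comm n, mul_assoc, pow_mul, Real.sq_sqrt (by positivity), cK, ← pow_mul]; push_cast; rfl
  have h4 : 1 ≤ Fintype.card K ^ j := Nat.one_le_pow _ _ Fintype.card_pos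
  rw [h3, ← fd, sub_le_iff_le_add]
  rw [card_univ] at h1
  exact_mod_cast (by nlinarith [Nat.mul_le_mul_left f.natDegree h4])

theorem wb : WB.{u} := w3 st lf

end H4.US
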