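import Cfsg.Agent.H4.US1
import Cfsg.Agent.H4.US6

/-! S5810: applications of the Weil bound. -/

set_option autoImplicit false
set_option linter.unusedSectionVars false

open Polynomial Finset Module

namespace H4.US

universe u

theorem rs (K : Type*) [Field K] [Fintype K] {M : ℕ} (h : M ∣ Fintype.card K - 1) :
    ∃ χ : MulChar K ℂ, orderOf χ = M ∧ ∀ w, w ≠ 0 → (χ w = 1 ↔ w ^ ((Fintype.card K - 1) / M) = 1) := by
  classical
  have G0 : 0 < Fintype.card K - 1 := Nat.sub_pos_of_lt Fintype.one_lt_card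
  have M0 := Nat.pos_of_dvd_of_pos h G0
  obtain ⟨β, hβ⟩ := IsCyclic.exists_generator (α := Kˣ)
  have hω := Complex.isPrimitiveRoot_exp M M0.ne'
  generalize Complex.exp _ = ω at hω
  obtain ⟨θ, hθ⟩ : ∃ θ : MulChar K ℂ, θ β = ω := ⟨_, MulChar.ofRootOfUnity_spec (ζ := (hω.isUnit M0.ne').unit)
    ((mem_rootsOfUnity' _ _).2 ((hω.pow_eq_one_iff_dvd _).2 (by rwa [Fintype.card_units]))) hβ⟩
  refine ⟨θ, Nat.dvd_antisymm (orderOf_dvd_of_pow_eq_one ((MulChar.eq_iff hβ _ _).2 (by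
    simp [MulChar.pow_apply_coe, hθ, hω.pow_eq_one]))) (hω.dvd_of_pow_eq_one _ (by
      rw [← hθ, ← MulChar.pow_apply_coe, pow_orderOf_eq_one]; simp)), fun w w0 => ?_⟩
  obtain ⟨c, hc⟩ := mem_powers_iff_mem_zpowers.2 (hβ (Units.mk0 _ w0))
  obtain rfl : w = β ^ c := (congrArg Units.val hc).symm
  rw [map_pow, hθ, hω.pow_eq_one_iff_dvd, ← pow_mul, ← Units.val_pow_eq_pow_val, Units.val_eq_one, ← orderOf_dvd_iff_pow_eq_one,
    orderOf_eq_card_of_forall_mem_zpowers hβ, Nat.card_eq_fintype_card, Fintype.card_units]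
  conv_rhs => lhs; rw [← Nat.mul_div_cancel' h]
  exact (Nat.mul_dvd_mul_iff_right (Nat.div_pos (Nat.le_of_dvd G0 h) M0)).symm

theorem og {M : ℕ} {z : ℂ} (h : z ^ M = 1) : ∑ j ∈ range M, z ^ j = if z = 1 then (M : ℂ) else 0 := by
  split_ifs with e
  · simp [e]
  · exact mul_right_cancel₀ (sub_ne_zero.2 e) (by rw [geom_sum_mul, h]; simp)

theorem four {M : ℕ} (M0 : 0 < M) (X : Finset ℂ) (hX : ∀ ζ ∈ X, ζ ^ M = 1) : ∃ x : ℕ → ℂ, x 0 = #X / M ∧
    (∑ j ∈ range M, ‖x j‖) ^ 2 ≤ #X ∧ ∀ z, z ^ M = 1 → ∑ j ∈ range M, x j * z ^ j = if z ∈ X then 1 else 0 := by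
  have m0 : (M : ℂ) ≠ 0 := by exact_mod_cast M0.ne'
  have k : ∀ z, z ^ M = 1 → ∑ j ∈ range M, (∑ ζ ∈ X, ζ⁻¹ ^ j) / M * z ^ j = if z ∈ X then 1 else 0 := fun z hz => by
    simp only [div_mul_eq_mul_div, ← sum_div, sum_mul, ← mul_pow]
    rw [sum_comm, sum_congr rfl fun ζ h => (og (by rw [mul_pow, inv_pow, hX ζ h, hz]; simp)).trans (if_congr
      (inv_mul_eq_one₀ (by rintro rfl; simpa [M0.ne'] using hX _ h)) rfl rfl), sum_ite_eq']
    split_ifs <;> simp [m0]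
  refine ⟨fun j => (∑ ζ ∈ X, ζ⁻¹ ^ j) / M, by simp, sq_sum_le_card_mul_sum_sq.trans (le_of_eq ?_), k⟩
  have : ∀ j, ((‖(∑ ζ ∈ X, ζ⁻¹ ^ j) / M‖ ^ 2 : ℝ) : ℂ) = (∑ ζ ∈ X, (∑ ζ ∈ X, ζ⁻¹ ^ j) / M * ζ ^ j) / M := fun j => by
    rw [← Complex.normSq_eq_norm_sq, ← Complex.mul_conj, ← mul_sum, mul_div_assoc, map_div₀, map_sum, Complex.conj_natCast]
    congr 2
    exact sum_congr rfl fun ζ h => by
      rw [map_pow, Complex.inv_eq_conj (Complex.norm_eq_one_of_pow_eq_one (hX ζ h) M0.ne'), Complex.conj_conj]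
  apply Complex.ofReal_injective
  simp only [Complex.ofReal_mul, Complex.ofReal_sum, this, ← sum_div]
  rw [sum_comm, sum_congr rfl fun ζ h => (k ζ (hX ζ h)).trans (if_pos h)]
  simp [mul_div_cancel₀ _ m0]

theorem cnt2 {Γ : Type*} [Fintype Γ] {M : ℕ} (M0 : 0 < M) {X Y : Finset ℂ} (hX : ∀ ζ ∈ X, ζ ^ M = 1) (hY : ∀ ζ ∈ Y, ζ ^ M = 1)
    {v w : Γ → ℂ} (hv : ∀ γ, v γ ^ M = 1) (hw : ∀ γ, w γ ^ M = 1) {B : ℝ} (B0 : 0 ≤ B)
    (h : ∀ i < M, ∀ j < M, (i ≠ 0 ∨ j ≠ 0) → ‖∑ γ, v γ ^ i * w γ ^ j‖ ≤ B) :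
    #X * #Y * Fintype.card Γ / (M : ℝ) ^ 2 - √(#X * #Y) * B ≤ #{γ | v γ ∈ X ∧ w γ ∈ Y} := by
  obtain ⟨x, x0, x1, x2⟩ := four M0 X hX
  obtain ⟨y, y0, y1, y2⟩ := four M0 Y hY
  have e : ((#X * #Y * Fintype.card Γ / (M : ℝ) ^ 2 - #{γ | v γ ∈ X ∧ w γ ∈ Y} : ℝ) : ℂ) = ∑ i ∈ range M, ∑ j ∈ range M,
      x i * y j * ((if j = 0 then if i = 0 then (Fintype.card Γ : ℂ) else 0 else 0) - ∑ γ, v γ ^ i * w γ ^ j) := by
    have : (#{γ | v γ ∈ X ∧ w γ ∈ Y} : ℂ) = ∑ γ, (∑ i ∈ range M, x i * v γ ^ i) * ∑ j ∈ range M, y j * w γ ^ j := by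
      simp [x2 _ (hv _), y2 _ (hw _), ite_and, ← sum_filter, filter_filter, and_comm]
    push_cast
    rw [this]
    simp only [sum_mul_sum]
    simp only [mul_sub, sum_sub_distrib, mul_ite, mul_zero, sum_ite_eq', mem_range, M0, if_true, x0, y0, mul_sum]
    congr 1
    · ring
    · rw [sum_comm]
      refine sum_congr rfl fun i _ => ?_
      rw [sum_comm]
      exact sum_congr rfl fun j _ => sum_congr rfl fun γ _ => by ring
  rw [sub_le_comm]
  refine (le_abs_self _).trans ?_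
  rw [← Real.norm_eq_abs, ← Complex.norm_real, e]
  refine (norm_sum_le_of_le _ fun i hi => norm_sum_le_of_le _ (n := fun j => ‖x i‖ * ‖y j‖ * B) fun j hj => ?_).trans ?_
  · rw [norm_mul, norm_mul]
    refine mul_le_mul_of_nonneg_left ?_ (by positivity)
    by_cases k : i ≠ 0 ∨ j ≠ 0
    · rw [show (if j = 0 then if i = 0 then (Fintype.card Γ : ℂ) else 0 else 0) = 0 by split_ifs <;> simp_all, zero_sub, norm_neg]
      exact h i (mem_range.1 hi) j (mem_range.1 hj) k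
    · push Not at k; simpa [k]
  · simp only [← sum_mul, ← mul_sum]
    refine mul_le_mul_of_nonneg_right (Real.le_sqrt_of_sq_le ?_) B0
    rw [mul_pow]
    exact mul_le_mul x1 y1 (by positivity) (by positivity)

theorem deg_of {k K : Type*} [Field k] [Field K] [Algebra k K] [FiniteDimensional k K] (h : (finrank k K).Prime) {x : K}
    (hx : x ∉ Set.range (algebraMap k K)) : (minpoly k x).natDegree = finrank k K :=
  ((Nat.dvd_prime h).1 (minpoly.degree_dvd (Algebra.IsIntegral.isIntegral x))).resolve_left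
    (mt minpoly.natDegree_eq_one_iff.1 hx)

theorem cw : CW.{u} := fun wb c13 c27 F K _ _ _ _ _ q γ fd hγ => by
  classical
  have γF : ∀ {x : K}, x = γ ∨ x = -γ → x ∉ Set.range (algebraMap F K) := by
    rintro _ (rfl | rfl) ⟨a, e⟩
    exacts [fd.Ek_F hγ (fd.mem_F.1 ⟨a, e⟩), fd.Ek_F hγ (fd.mem_F.1 ⟨-a, by simp [e]⟩)]
  have w0 : ∀ a, γ + algebraMap F K a ≠ 0 := fun a e => γF (.inr rfl) ⟨a, eq_neg_of_add_eq_zero_right e⟩
  have hN := fd.NN_mul
  have q2 := fd.q2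
  obtain g | g := (ar q fd.q2).2.2.2.2.2.1
  · obtain ⟨κ, h⟩ := fd.ex_k
    rw [g, one_mul] at hN
    exact ⟨κ, h, by rw [← pow_mul, hN, FiniteField.pow_card_sub_one_eq_one _ (w0 κ)]⟩
  have g7 : 7 ∣ q + 1 := g ▸ Nat.gcd_dvd_right 7 _
  have e7 : NN q * (q + 1) = (Fintype.card K - 1) / 7 := by rw [← hN, g, mul_left_comm, Nat.mul_div_cancel_left _ (by norm_num)]
  have d1 : 7 ∣ q ^ 2 - 1 := by rw [← one_pow 2, Nat.sq_sub_sq]; exact g7.mul_right _
  have d2 : q ^ 2 - 1 ∣ Fintype.card K - 1 := by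
    rw [fd.cK, show q ^ 14 = (q ^ 2) ^ 7 by ring]; simpa using Nat.sub_dvd_pow_sub_pow (q ^ 2) 1 7
  have nm : ∀ w : K, w ^ ((Fintype.card K - 1) / 7) = algebraMap F K (Algebra.norm F w ^ ((q ^ 2 - 1) / 7)) := fun w => by
    rw [map_pow, FiniteField.algebraMap_norm_eq_pow, Nat.card_eq_fintype_card, Nat.card_eq_fintype_card, fd.hF, ← pow_mul,
      ← Nat.mul_div_assoc _ d1, Nat.div_mul_cancel d2]
  have p7 : (finrank F K).Prime := by rw [fd.hK]; norm_num
  simp only [← pow_mul, e7]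
  by_cases hq : q = 13 ∨ q = 27
  · have cp : CVP.{u} q := by rcases hq with rfl | rfl <;> assumption
    have m := minpoly.monic (Algebra.IsIntegral.isIntegral (R := F) (-γ))
    have d := (deg_of p7 (γF (.inr rfl))).trans fd.hK
    have e : (minpoly F (-γ)).map fd.sg = minpoly F (-γ) := eq_of_monic_of_dvd_of_natDegree_le m (m.map _)
      (minpoly.dvd _ _ (by
        have := congrArg fd.br (minpoly.aeval F (-γ))
        rwa [aeval_def, hom_eval₂, map_neg, show fd.br γ = γ from hγ.1, map_zero, show fd.br.comp (algebraMap F K) =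
          (algebraMap F K).comp fd.sg from RingHom.ext fd.br_alg, ← eval₂_map] at this)) natDegree_map_le
    obtain ⟨κ, h1, h2⟩ := cp F (minpoly F (-γ)).coeff fd.hF fun i => by
      conv_rhs => rw [← e, coeff_map]
      rfl
    refine ⟨κ, h1, ?_⟩
    rw [nm, ← map_one (algebraMap F K), ← h2]
    congr 2
    refine (algebraMap F K).injective ?_
    rw [add_comm (κ ^ 7), ← one_mul (κ ^ 7), ← m.coeff_natDegree, d, ← sum_range_succ (fun i => (minpoly F (-γ)).coeff i * κ ^ i),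
      ← d, ← eval_eq_sum_range, ← eval₂_at_apply, ← eval_map, W3.mp, eval_prod, d, fd.nm_eq, fd.hF]
    refine prod_congr rfl fun i _ => ?_
    rw [eval_sub, eval_X, eval_C, ← pow_mul, ← fd.fr_apply, ← fd.fr_apply, map_add, map_neg, fd.fr_apply _ (algebraMap F K κ),
      ← map_pow, pow_mul, ← fd.hF, FiniteField.pow_card_pow]
    ring
  have q41 : 41 ≤ q := by
    obtain ⟨p, k, pp, -, -, e⟩ := H11.exists_prime_pow_of_card_sq fd.hF
    have : ∀ r, r.Prime → r ∣ q → r = p := fun r hr h => (Nat.prime_dvd_prime_iff_eq hr pp).1 (hr.dvd_of_dvd_pow (e ▸ h))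
    have h2 := this 2 Nat.prime_two
    have h3 := this 3 Nat.prime_three
    have h5 := this 5 Nat.prime_five
    have h17 := this 17 (by norm_num)
    omega
  by_contra! n
  obtain ⟨χ, o, hχ⟩ := rs K (d1.trans d2)
  have b : ∀ j ∈ range 6, ‖1 + ∑ a : F, χ (γ - algebraMap F K a) ^ (j + 1)‖ ≤ 5 * q := fun j hj => by
    have := wb F K 1 (fun _ => γ) (fun _ => χ ^ (j + 1)) (by rw [fd.hK]; norm_num) (fun _ => deg_of p7 (γF (.inl rfl)))
      (fun _ _ _ => Subsingleton.elim _ _) ⟨0, pow_ne_one_of_lt_orderOf j.succ_ne_zero (by have := mem_range.1 hj; omega)⟩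
      fun a a0 => by
        rw [Fin.prod_univ_one, MulChar.pow_apply' _ j.succ_ne_zero, (hχ _ (by simpa)).2, one_pow]
        rw [nm, Algebra.norm_algebraMap, fd.hK, ← pow_mul, Nat.mul_div_cancel' d1, ← fd.hF,
          FiniteField.pow_card_sub_one_eq_one _ a0, map_one]
    simp only [Fin.prod_univ_one, MulChar.pow_apply' _ j.succ_ne_zero, fd.hK, fd.hF] at this
    refine this.trans (le_of_eq ?_)
    rw [Nat.cast_pow, Real.sqrt_sq (by positivity)]; norm_num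
  have s : (q : ℂ) ^ 2 - 6 = 7 * #{a : F | χ (γ - algebraMap F K a) = 1} -
      ∑ j ∈ range 6, (1 + ∑ a : F, χ (γ - algebraMap F K a) ^ (j + 1)) := by
    have : ∑ a : F, ∑ j ∈ range 7, χ (γ - algebraMap F K a) ^ j = 7 * #{a : F | χ (γ - algebraMap F K a) = 1} := by
      rw [sum_congr rfl fun a _ => og (M := 7) (by
        rw [← MulChar.pow_apply' _ (by norm_num), ← o, pow_orderOf_eq_one, MulChar.one_apply (Ne.isUnit (by
          simpa [sub_eq_add_neg] using w0 (-a)))]), ← sum_filter]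
      simp [mul_comm]
    rw [← this, sum_comm, sum_range_succ', sum_add_distrib]
    simp [fd.hF]; ring
  have c : (#{a : F | χ (γ - algebraMap F K a) = 1} : ℝ) ≤ q := by
    rw [Nat.cast_le, ← fd.card_k, ← Set.ncard_coe_finset]
    refine Set.ncard_le_ncard fun a ha => by_contra fun z => n (-a) (fun e => z ?_) ((hχ _ (w0 _)).1 ?_)
    · exact neg_injective ((map_neg fd.sg a).symm.trans e)
    · simpa [sub_eq_add_neg] using ha
  have := (norm_sub_le _ _).trans_eq' (congrArg norm s).symm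
  have h2 := norm_sum_le_of_le _ b
  rw [show (q : ℂ) ^ 2 - 6 = ((q ^ 2 - 6 : ℝ) : ℂ) by simp, Complex.norm_real] at this
  simp only [norm_mul, Complex.norm_ofNat, Complex.norm_natCast, sum_const, card_range, nsmul_eq_mul, Nat.cast_ofNat] at this h2
  have h3 : (41 : ℝ) ≤ q := by exact_mod_cast q41
  nlinarith [le_abs_self ((q : ℝ) ^ 2 - 6), Real.norm_eq_abs ((q : ℝ) ^ 2 - 6)]

theorem co : CO.{u} := fun wb cv F K _ _ _ _ _ q G fd q3 iv => by
  classical
  have hN := fd.NN_mul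
  have g17 := (ar q fd.q2).2.2.2.2.2.1
  set M := gg q * (q + 1) with hM
  have M0 : 0 < M := by rcases g17 with e | e <;> simp [hM, e]
  obtain ⟨χ, o, hχ⟩ := rs K (M := M) ⟨_, by rw [← hN, mul_comm]⟩
  rw [← hN, Nat.mul_div_cancel _ M0] at hχ
  let E : Subfield K := fd.br.eqLocusField (RingHom.id K)
  have cE : Fintype.card E = q ^ 7 := by rw [← fd.card_E, ← Nat.card_eq_fintype_card]; rfl
  have dE : finrank E K = 2 := Nat.pow_right_injective (Fintype.one_lt_card (α := E)) (by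
    simp only [← Module.card_eq_pow_finrank]; rw [fd.cK', cE])
  have κE : ∀ {κ : F}, κ ^ q ≠ κ → algebraMap F K κ ∉ Set.range (algebraMap E K) := fun {κ} h ⟨a, e⟩ =>
    h ((algebraMap F K).injective ((fd.br_alg κ).symm.trans (e ▸ a.2)))
  have w0 : ∀ {κ : F} {γ : K}, κ ^ q ≠ κ → γ ^ q ^ 7 = γ → γ + algebraMap F K κ ≠ 0 := fun h a e =>
    κE h ⟨-⟨_, a⟩, (eq_neg_of_add_eq_zero_right e).symm⟩
  have pM : ∀ {w}, w ≠ 0 → χ w ^ M = 1 := fun h => by
    rw [← MulChar.pow_apply' _ M0.ne', ← o, pow_orderOf_eq_one, MulChar.one_apply h.isUnit]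
  let U := nthRootsFinset (q + 1) (1 : ℂ)
  have mU : ∀ {z}, z ∈ U ↔ z ^ (q + 1) = 1 := mem_nthRootsFinset q.succ_pos _
  have cU : #U = q + 1 := (Complex.isPrimitiveRoot_exp _ q.succ_ne_zero).card_nthRootsFinset
  have hU : ∀ {w}, w ≠ 0 → (χ w ∈ U ↔ (w ^ NN q) ^ (q + 1) = 1) := fun h => by
    rw [mU, ← map_pow, hχ _ (pow_ne_zero _ h), pow_right_comm]
  replace iv : ∀ {κ : F} {γ γ'}, κ ^ q ≠ κ → Ek q γ → Ek q γ' → χ (γ + algebraMap F K κ) = χ (γ' + algebraMap F K κ) →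
      χ (γ + algebraMap F K κ) ∈ U → G γ = G γ' := fun h a b e u => iv _ _ _ h a b (by
    have h1 := w0 h b.1
    rw [← div_eq_one_iff_eq (pow_ne_zero _ h1), ← div_pow, ← hχ _ (div_ne_zero (w0 h a.1) h1)]
    exact mul_right_cancel₀ (ne_zero_pow M0.ne' ((pM h1).trans_ne one_ne_zero)) (by
      rw [← map_mul, div_mul_cancel₀ _ h1, e, one_mul])) ((hU (w0 h a.1)).1 u)
  have big : ∀ {κ κ' : F}, κ ^ q ≠ κ → κ' ^ q ≠ κ' → κ' ≠ κ → κ' ≠ κ ^ q → ∀ X ⊆ U, ∀ Y ⊆ U, q ≤ #X * #Y →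
      ∃ γ, Ek q γ ∧ χ (γ + algebraMap F K κ) ∈ X ∧ χ (γ + algebraMap F K κ') ∈ Y := fun {κ κ'} h h' n1 n2 X hX Y hY c => by
    have k : ∀ {X}, X ⊆ U → ∀ ζ ∈ X, ζ ^ M = 1 := fun hX ζ a => by rw [hM, mul_comm, pow_mul, mU.1 (hX a), one_pow]
    have := cnt2 M0 (k hX) (k hY) (v := fun γ : E => χ (γ + algebraMap F K κ)) (w := fun γ : E => χ (γ + algebraMap F K κ'))
      (fun γ => pM (w0 h γ.2)) (fun γ => pM (w0 h' γ.2)) (B := 2 * (q ^ 3 * √q) + 1) (by positivity) fun i hi j hj ij => by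
        have := wb E K 2 ![algebraMap F K κ, algebraMap F K κ'] ![χ ^ i, χ ^ j] dE.ge (fun t => deg_of (dE ▸ Nat.prime_two) (by
          fin_cases t; exacts [κE h, κE h'])) (by
            have : minpoly E (algebraMap F K κ) ≠ minpoly E (algebraMap F K κ') := fun e => by
              have := minpoly.aeval E (algebraMap F K κ')
              rw [← e, ← eval_map_algebraMap, W3.mp, deg_of (dE ▸ Nat.prime_two) (κE h), dE, cE] at this
              simp [prod_range_succ, sub_eq_zero, ← map_pow, fd.p7, n1, n2] at this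
            intro a b e
            fin_cases a <;> fin_cases b <;> simp_all) (by
            rcases ij with e | e
            exacts [⟨0, pow_ne_one_of_lt_orderOf e (o ▸ hi)⟩, ⟨1, pow_ne_one_of_lt_orderOf e (o ▸ hj)⟩]) fun a a0 => by
            have a1 : (a : K) ≠ 0 := by simpa
            have : χ (Units.mk0 _ a1) = 1 := (hχ _ a1).2 (by
              rw [NN, pow_mul, ← cE, ← SubmonoidClass.coe_pow, FiniteField.pow_card_sub_one_eq_one _ a0]; simp)
            change ∏ t, (![χ ^ i, χ ^ j] t) (Units.mk0 _ a1) = 1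
            simp only [Fin.prod_univ_two, Matrix.cons_val_zero, Matrix.cons_val_one, MulChar.pow_apply_coe, this, one_pow,
              mul_one]
        rw [← Equiv.sum_comp (Equiv.neg E), dE, cE] at this
        have e : ∀ (i : ℕ) {κ : F} (γ : E), κ ^ q ≠ κ → (χ ^ i) (algebraMap F K κ - algebraMap E K (-γ)) =
            χ (γ + algebraMap F K κ) ^ i := fun i κ γ h => by
          rw [map_neg, sub_neg_eq_add, add_comm]; exact MulChar.pow_apply_coe χ i (Units.mk0 _ (w0 h γ.2))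
        simp only [Fin.prod_univ_two, Matrix.cons_val_zero, Matrix.cons_val_one, Equiv.neg_apply, e _ _ h, e _ _ h'] at this
        refine (norm_le_add_norm_add' 1 _).trans ?_
        rw [show (q : ℝ) ^ 3 * √q = √((q ^ 7 : ℕ) : ℝ) by
          rw [← Real.sqrt_sq (show (0 : ℝ) ≤ q ^ 3 by positivity), ← Real.sqrt_mul (by positivity)]; congr 1; push_cast; ring]
        norm_num at this ⊢
        exact this
    by_contra! n
    have c2 : (#{γ : E | χ (γ + algebraMap F K κ) ∈ X ∧ χ (γ + algebraMap F K κ') ∈ Y} : ℝ) ≤ q := by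
      rw [Nat.cast_le, ← Set.ncard_coe_finset]
      refine le_trans (Set.ncard_le_ncard_of_injOn Subtype.val (fun γ a => ?_) Subtype.val_injective.injOn)
        (H27.ncard_pow_eq_le (F := K) fd.q2).2
      simp only [coe_filter, mem_univ, true_and, Set.mem_ofPred_eq] at a
      exact by_contra fun z => n γ ⟨γ.2, z⟩ a.1 a.2
    have c3 : M ^ 2 * (2 * q ^ 3 + 2) < q ^ 7 := by
      rcases g17 with e | e
      · obtain ⟨r, rfl⟩ := Nat.exists_eq_add_of_le' q3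
        rw [hM, e]; ring_nf; omega
      · have : 7 ∣ q + 1 := e ▸ Nat.gcd_dvd_right 7 _
        obtain ⟨p, k, pp, -, -, e'⟩ := H11.exists_prime_pow_of_card_sq fd.hF
        have h1 : ∀ r, r.Prime → r ∣ q → r = p := fun r hr h => (Nat.prime_dvd_prime_iff_eq hr pp).1 (hr.dvd_of_dvd_pow (e' ▸ h))
        have h2 := h1 2 Nat.prime_two
        have h3 := h1 3 Nat.prime_three
        obtain ⟨r, rfl⟩ := Nat.exists_eq_add_of_le' (show 13 ≤ q by omega)
        rw [hM, e]; ring_nf; omega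
    have c4 : (2 * q ^ 3 + 2 : ℝ) < (q ^ 7 : ℕ) / (M : ℝ) ^ 2 := by
      rw [lt_div_iff₀' (by positivity)]; exact_mod_cast c3
    have r1 : √(q : ℝ) ≤ √(#X * #Y) := Real.sqrt_le_sqrt (by exact_mod_cast c)
    have r2 : 1 ≤ √(q : ℝ) := Real.one_le_sqrt.2 (by exact_mod_cast (by omega : 1 ≤ q))
    have r3 := Real.mul_self_sqrt (show (0 : ℝ) ≤ q by positivity)
    rw [cE, mul_div_assoc, ← Real.mul_self_sqrt (show (0 : ℝ) ≤ #X * #Y by positivity), Real.sqrt_mul_self (by positivity)] at this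
    generalize √((#X : ℝ) * #Y) = s at this r1
    generalize √(q : ℝ) = r at this r1 r2 r3
    generalize ((q ^ 7 : ℕ) : ℝ) / (M : ℝ) ^ 2 = A at this c4
    have q0 : (0 : ℝ) ≤ q ^ 3 := by positivity
    have k1 : r * (2 * q ^ 3 + 2) < s * A := mul_lt_mul' r1 c4 (by positivity) (by linarith)
    have k2 : r * r < s * (s * A - (2 * (q ^ 3 * r) + 1)) := mul_lt_mul' r1 (by linarith) (by linarith) (by linarith)
    linarith
  have two : ∀ {κ κ' : F} {γ : K}, κ ^ q ≠ κ → κ' ^ q ≠ κ' → κ' ≠ κ → κ' ≠ κ ^ q → Ek q γ → χ (γ + algebraMap F K κ) ∈ U →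
      ∀ δ, Ek q δ → χ (δ + algebraMap F K κ') ∈ U → G δ = G γ := fun {κ κ' γ} h h' n1 n2 hγ u δ hδ u' => by
    let X := {ζ ∈ U | ∃ δ, Ek q δ ∧ χ (δ + algebraMap F K κ) = ζ ∧ G δ = G γ}
    let Y := {ζ ∈ U | ∃ δ, Ek q δ ∧ χ (δ + algebraMap F K κ') = ζ ∧ G δ = G γ}
    have sX : X ⊆ U := filter_subset _ _
    have sY : Y ⊆ U := filter_subset _ _
    have k1 : #X * #(U \ Y) < q := lt_of_not_ge fun c => by
      obtain ⟨δ, a, b, c⟩ := big h h' n1 n2 _ sX _ sdiff_subset c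
      obtain ⟨b, ε, d, e, f⟩ := mem_filter.1 b
      exact (mem_sdiff.1 c).2 (mem_filter.2 ⟨(mem_sdiff.1 c).1, δ, a, rfl, (iv h a d e.symm b).trans f⟩)
    have k2 : #(U \ X) * #Y < q := lt_of_not_ge fun c => by
      obtain ⟨δ, a, c, b⟩ := big h h' n1 n2 _ sdiff_subset _ sY c
      obtain ⟨b, ε, d, e, f⟩ := mem_filter.1 b
      exact (mem_sdiff.1 c).2 (mem_filter.2 ⟨(mem_sdiff.1 c).1, δ, a, rfl, (iv h' a d e.symm b).trans f⟩)
    have k3 : 0 < #X := card_pos.2 ⟨_, mem_filter.2 ⟨u, γ, hγ, rfl, rfl⟩⟩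
    have k4 := card_sdiff_add_card_eq_card sX
    have k5 := card_sdiff_add_card_eq_card sY
    have : #(U \ Y) = 0 := by_contra fun z => by
      generalize #(U \ Y) = a at *
      generalize #(U \ X) = b at *
      generalize #X = c at *
      generalize #Y = d at *
      obtain ⟨a, rfl⟩ := Nat.exists_eq_add_one_of_ne_zero z
      obtain ⟨c, rfl⟩ := Nat.exists_eq_add_one_of_ne_zero k3.ne'
      rcases b with _ | b
      · nlinarith
      rcases d with _ | d <;> nlinarith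
    obtain ⟨b, ε, d, e, f⟩ := mem_filter.1 (sdiff_eq_empty_iff_subset.1 (card_eq_zero.1 this) u')
    exact (iv h' hδ d e.symm b).trans f
  intro γ γ' a a'
  obtain ⟨κ, h, u⟩ := cv F K q γ fd a
  obtain ⟨κ', h', u'⟩ := cv F K q γ' fd a'
  obtain ⟨l, hl⟩ : ∃ l, l ∉ {a : F | a ^ q = a} ∪ {κ, κ ^ q, κ', κ' ^ q} := by
    by_contra! n
    have := (Set.ncard_le_ncard (s := Set.univ) fun l _ => n l).trans (Set.ncard_union_le _ _)
    have h4 : ({κ, κ ^ q, κ', κ' ^ q} : Set F).ncard ≤ 4 := (Set.ncard_insert_le _ _).trans (Nat.succ_le_succ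
      ((Set.ncard_insert_le _ _).trans (Nat.succ_le_succ ((Set.ncard_insert_le _ _).trans (by simp)))))
    rw [fd.card_k, Set.ncard_univ, Nat.card_eq_fintype_card, fd.hF] at this
    nlinarith
  simp only [Set.mem_union, Set.mem_ofPred_eq, Set.mem_insert_iff, Set.mem_singleton_iff, not_or] at hl
  obtain ⟨δ, d1, -, d2⟩ := big h hl.1 hl.2.1 hl.2.2.1 U subset_rfl U subset_rfl (by rw [cU]; nlinarith)
  rw [← two h hl.1 hl.2.1 hl.2.2.1 a ((hU (w0 h a.1)).2 u) δ d1 d2,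
    two h' hl.1 hl.2.2.2.1 hl.2.2.2.2 a' ((hU (w0 h' a'.1)).2 u') δ d1 d2]

end H4.US
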