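import Cfsg.Agent.H4.US0

/-! S5810: a bitset certificate checker for seventh powers among polynomial values. -/

set_option autoImplicit false
set_option linter.unusedSectionVars false

open Polynomial Finset

namespace H4.US.CP

universe u

/-- digitwise `x + d y` -/
noncomputable def cma (p d n : ℕ) : ℕ → ℕ → ℕ :=
  Nat.rec (fun _ _ => 0) (fun _ r x y => Nat.add (Nat.mod (Nat.add x (Nat.mul d y)) p) (Nat.mul p (r (Nat.div x p) (Nat.div y p)))) n
/-- linear combinations of codes -/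
noncomputable def lin (p n : ℕ) (w : ℕ → ℕ) (m : ℕ) : ℕ → ℕ → ℕ :=
  Nat.rec (fun _ _ => 0) (fun _ r j c => cma p c n (r (Nat.succ j) (Nat.div c p)) (w j)) m
/-- table lookup -/
def gt (T e : ℕ) : ℕ := Nat.mod (Nat.shiftRight T (Nat.mul 10 e)) 1024
/-- periodic extension -/
noncomputable def dbl (k : ℕ) : ℕ → ℕ → ℕ :=
  Nat.rec (fun _ M => M) (fun _ r s M => r (Nat.mul 2 s) (Nat.lor M (Nat.shiftLeft M s))) k
/-- masks -/
noncomputable def mk (p S n : ℕ) : ℕ → List (ℕ × ℕ × ℕ) := Nat.rec (fun _ => []) (fun _ r s =>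
  (s, dbl (Nat.log2 (S / (s * p)) + 1) (s * p) (2 ^ s - 1), dbl (Nat.log2 (S / (s * p)) + 1) (s * p) (2 ^ ((p - 1) * s) - 1)) ::
    r (s * p)) n
/-- rotation of one digit -/
def rot (p : ℕ) (m : ℕ × ℕ × ℕ) (X : ℕ) : ℕ :=
  Nat.lor (Nat.land (Nat.shiftRight X m.1) m.2.2) (Nat.shiftLeft (Nat.land X m.2.1) (Nat.mul (Nat.sub p 1) m.1))
/-- translation -/
noncomputable def rotv (p : ℕ) (ms : List (ℕ × ℕ × ℕ)) : ℕ → ℕ → ℕ := List.rec (fun _ X => X)
  (fun m _ r v X => r (Nat.div v p) (Nat.rec X (fun _ Y => rot p m Y) (Nat.mod v p))) ms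
/-- concatenation -/
noncomputable def cat (R : ℕ → ℕ) (s o k : ℕ) : ℕ → ℕ :=
  Nat.rec (fun _ => 0) (fun _ r X => Nat.lor (Nat.land X o) (Nat.shiftLeft (r (R X)) s)) k
/-- levels -/
noncomputable def lev (p : ℕ) (ms : List (ℕ × ℕ × ℕ)) (V m : ℕ) : ℕ → ℕ → ℕ := Nat.rec (fun _ X => X)
  (fun _ r l X => r (Nat.succ l) (cat (rotv p ms (gt V l)) (Nat.pow p l) (Nat.sub (Nat.pow 2 (Nat.pow p l)) 1) p X)) m
/-- the union -/
noncomputable def go (g : ℕ × ℕ × ℕ → ℕ) (o : ℕ) (l : List (ℕ × ℕ × ℕ)) : ℕ → Bool := List.rec (fun _ => false)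
  (fun x _ r a => cond (Nat.beq (Nat.lor a (g x)) o) true (r (Nat.lor a (g x)))) l
/-- one block -/
noncomputable def blk (p n L : ℕ) (l : List (ℕ × ℕ × ℕ)) (D : ℕ) : Bool :=
  go (fun x => lev p (mk p (p ^ (L - 1)) n 1) x.2.2 (L - n) n (rotv p (mk p (p ^ (L - 1)) n 1)
    (lin p n (gt x.2.2) (4 * n - L) L D) x.2.1)) (2 ^ p ^ L - 1) l 0

section val
variable {F : Type*} [Field F] (p : ℕ)

/-- the value of a code -/
def val (b : ℕ → F) : ℕ → ℕ → ℕ → F
  | 0, _, _ => 0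
  | n + 1, i, c => c * b i + val b n (i + 1) (c / p)

variable {p} [CharP F p] (p0 : 0 < p) {b : ℕ → F}

theorem val_zero (n i : ℕ) : val p b n i 0 = 0 := by induction n generalizing i <;> simp [val, *]

theorem val_mul (x : F) {b' : ℕ → F} (n : ℕ) : ∀ i j c, (∀ t < n, b' (j + t) = x * b (i + t)) →
    val p b' n j c = x * val p b n i c := by
  induction n with
  | zero => simp [val]
  | succ n ih =>
    intro i j c h
    have := h 0 n.succ_pos
    rw [val, val, ih (i + 1) _ _ fun t ht => by simpa [add_assoc, add_comm 1] using h (t + 1) (by omega)]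
    simp_all; ring

theorem val_add (m n : ℕ) : ∀ i c, val p b (m + n) i c = val p b m i c + val p b n (i + m) (c / p ^ m) := by
  induction m with
  | zero => simp [val]
  | succ m ih => intro i c; rw [Nat.add_right_comm, val, val, ih, Nat.div_div_eq_div_mul, pow_succ', add_assoc, add_assoc, add_comm 1]

theorem val_mod (m : ℕ) : ∀ i c, val p b m i (c % p ^ m) = val p b m i c := by
  induction m with
  | zero => simp [val]
  | succ m ih =>
    intro i c
    rw [val, val, pow_succ', Nat.mod_mul_right_div_self, ih, (CharP.cast_eq_iff_mod_eq F p).2 (Nat.mod_mul_right_mod _ _ _)]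

include p0
theorem val_cma (d n : ℕ) : ∀ i x y, val p b n i (cma p d n x y) = val p b n i x + d * val p b n i y := by
  induction n with
  | zero => simp [val]
  | succ n ih =>
    intro i x y
    rw [show cma p d (n + 1) x y = (x + d * y) % p + p * cma p d n (x / p) (y / p) from rfl, val, val, val,
      Nat.add_mul_div_left _ _ p0, Nat.div_eq_of_lt (Nat.mod_lt _ p0), zero_add, ih, Nat.cast_add,
      ← CharP.cast_eq_mod F p]
    simp; ring

theorem val_lin {b' : ℕ → F} {w : ℕ → ℕ} (n m : ℕ) : ∀ j c, (∀ t, j ≤ t → t < j + m → val p b n 0 (w t) = b' t) →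
    val p b n 0 (lin p n w m j c) = val p b' m j c := by
  induction m with
  | zero => intro j c _; exact val_zero _ _
  | succ m ih =>
    intro j c h
    rw [show lin p n w (m + 1) j c = cma p c n (lin p n w m (j + 1) (c / p)) (w j) from rfl, val_cma p0, val,
      ih _ _ fun t a e => h t (by omega) (by omega), h j le_rfl (by omega), add_comm]

theorem val_dig (j t : ℕ) : ∀ n i c, t < n → c % (p ^ t * p) + j * p ^ t < p ^ t * p →
    val p b n i (c + j * p ^ t) = val p b n i c + j * b (i + t) := by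
  induction t with
  | zero =>
    rintro (_ | n) i c h e
    · omega
    simp only [pow_zero, one_mul, mul_one] at e ⊢
    rw [val, val, Nat.add_div_eq_of_add_mod_lt (by rwa [Nat.mod_eq_of_lt (a := j) (by omega)]), Nat.div_eq_of_lt (a := j) (by omega)]
    simp; ring
  | succ t ih =>
    rintro (_ | n) i c h e
    · omega
    rw [val, val, pow_succ, ← mul_assoc, Nat.add_mul_div_right _ _ p0, ih _ _ _ (by omega) (by
      rw [← Nat.mod_mul_right_div_self, ← Nat.add_mul_div_right _ _ p0]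
      exact Nat.div_lt_of_lt_mul (by rwa [mul_assoc, ← pow_succ, mul_comm p]))]
    simp [add_assoc, add_comm 1]

omit p0 in
theorem dbl_sp {m e : ℕ} (k : ℕ) : ∀ s M, m ∣ s → (∀ x, M.testBit x → x % m < e) → ∀ x, (dbl k s M).testBit x → x % m < e := by
  induction k with
  | zero => exact fun _ _ _ h => h
  | succ k ih =>
    intro s M hs h
    refine ih (2 * s) (M ||| M <<< s) (hs.mul_left _) fun x hx => ?_
    simp only [Nat.testBit_or, Nat.testBit_shiftLeft, Bool.or_eq_true, Bool.and_eq_true, decide_eq_true_eq] at hx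
    obtain hx | ⟨a, hx⟩ := hx
    · exact h x hx
    · obtain ⟨y, rfl⟩ := Nat.exists_eq_add_of_le a
      obtain ⟨r, rfl⟩ := hs
      simpa using h _ hx

variable {P : F → Prop} {N : ℕ}

omit p0 in
variable (p b P N) in
/-- the invariant -/
def Inv (u : F) (X : ℕ) : Prop := ∀ x, X.testBit x → P (u + val p b N 0 x)

theorem rot_sp {i : ℕ} (hi : i < N) (k : ℕ) {u : F} {X : ℕ} (h : Inv p b P N u X) : Inv p b P N (u + b i) (rot p (p ^ i,
    dbl k (p ^ i * p) (2 ^ p ^ i - 1), dbl k (p ^ i * p) (2 ^ ((p - 1) * p ^ i) - 1)) X) := fun x hx => by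
  have k1 : ∀ {e x}, (dbl k (p ^ i * p) (2 ^ e - 1)).testBit x → x % (p ^ i * p) < e := fun {e x} => dbl_sp k _ _ dvd_rfl
    (fun x hx => (Nat.mod_le _ _).trans_lt (by simpa using hx)) x
  obtain ⟨r, rfl⟩ := Nat.exists_eq_add_of_le' p0
  change ((X >>> _ &&& _) ||| (X &&& _) <<< (r * _)).testBit x at hx
  simp only [Nat.testBit_or, Nat.testBit_shiftLeft, Nat.testBit_and, Nat.testBit_shiftRight, Bool.or_eq_true, Bool.and_eq_true,
    decide_eq_true_eq] at hx
  obtain ⟨hx, a⟩ | ⟨a, hx, c⟩ := hx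
  · have := h _ hx
    rw [add_comm _ x, ← one_mul (_ ^ i), val_dig p0 _ _ _ _ _ hi (by have := k1 a; simp at this; linarith)] at this
    convert this using 1; simp; ring
  · obtain ⟨y, rfl⟩ := Nat.exists_eq_add_of_le' a
    rw [Nat.add_sub_cancel] at hx c
    rw [val_dig p0 _ _ _ _ _ hi (by have := k1 c; linarith)]
    convert h _ hx using 1
    have := CharP.cast_eq_zero F (r + 1)
    push_cast at this
    rw [zero_add]; linear_combination b i * this

theorem rotv_sp (S n : ℕ) : ∀ i v u X, i + n ≤ N → Inv p b P N u X →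
    Inv p b P N (u + val p b n i v) (rotv p (mk p S n (p ^ i)) v X) := by
  induction n with
  | zero => intro i v u X _ h; rw [val, add_zero]; exact h
  | succ n ih =>
    intro i v u X e h
    rw [val, ← add_assoc, CharP.cast_eq_mod F p v]
    refine ih (i + 1) (v / p) _ _ (by omega) ?_
    change Inv p b P N _ (Nat.rec X _ (v % p))
    induction v % p with
    | zero => simpa using h
    | succ j ih => rw [Nat.cast_succ, add_one_mul, ← add_assoc]; exact rot_sp p0 (by omega) _ ih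

theorem cat_sp {R : ℕ → ℕ} {l : ℕ} (hl : l < N) (hR : ∀ u X, Inv p b P N u X → Inv p b P N (u + b l) (R X)) (k : ℕ) :
    ∀ u X, k ≤ p → Inv p b P N u X → ∀ x, (cat R (p ^ l) (2 ^ p ^ l - 1) k X).testBit x →
      x < k * p ^ l ∧ P (u + val p b N 0 x) := by
  induction k with
  | zero => intro u X _ _ x hx; simp [cat] at hx
  | succ k ih =>
    intro u X e h x hx
    change ((X &&& _) ||| cat R _ _ k (R X) <<< _).testBit x at hx
    simp only [Nat.testBit_or, Nat.testBit_shiftLeft, Nat.testBit_and, Bool.or_eq_true, Bool.and_eq_true, decide_eq_true_eq,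
      Nat.testBit_two_pow_sub_one] at hx
    obtain ⟨hx, a⟩ | ⟨a, hx⟩ := hx
    · exact ⟨by nlinarith, h x hx⟩
    · obtain ⟨y, rfl⟩ := Nat.exists_eq_add_of_le' a
      obtain ⟨h1, h2⟩ := ih _ _ (by omega) (hR _ _ h) _ (Nat.add_sub_cancel .. ▸ hx)
      refine ⟨by linarith, ?_⟩
      rw [← one_mul (p ^ l), val_dig p0 _ _ _ _ _ hl (by
        nlinarith [Nat.mod_le y (p ^ l * p), Nat.mul_le_mul_right (p ^ l) e])]
      convert h2 using 1; simp; ring

theorem lev_sp {S n V : ℕ} (hn : n ≤ N) (m : ℕ) : ∀ l u X, l + m ≤ N → (∀ t, l ≤ t → t < l + m → val p b n 0 (gt V t) = b t) →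
    Inv p b P N u X → Inv p b P N u (lev p (mk p S n 1) V m l X) := by
  induction m with
  | zero => exact fun _ _ _ _ _ h => h
  | succ m ih =>
    intro l u X e hV h
    refine ih (l + 1) u _ (by omega) (fun t a c => hV t (by omega) (by omega)) fun x hx =>
      (cat_sp p0 (l := l) (by omega) (fun u X h => ?_) p u X le_rfl h x hx).2
    rw [← hV l le_rfl (by omega)]
    exact rotv_sp p0 S n 0 _ u X (by omega) h

omit p0 in
theorem go_sp {g : ℕ × ℕ × ℕ → ℕ} {o x : ℕ} (hx : o.testBit x) (l : List (ℕ × ℕ × ℕ)) :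
    ∀ a, go g o l a = true → a.testBit x ∨ ∃ y ∈ l, (g y).testBit x := by
  induction l with
  | nil => intro a h; cases h
  | cons y l ih =>
    intro a h
    change cond (Nat.beq (a ||| g y) o) true (go g o l (a ||| g y)) = true at h
    have : (a ||| g y).testBit x ∨ ∃ y ∈ l, (g y).testBit x := by
      cases e : Nat.beq (a ||| g y) o
      · exact ih _ (by simpa [e] using h)
      · exact .inl (by rwa [Nat.eq_of_beq_eq_true e])
    simpa [or_assoc] using this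

theorem blk_sp {n L c : ℕ} {l : List (ℕ × ℕ × ℕ)} (h1 : n ≤ L) (h2 : L ≤ 4 * n) (h : blk p n L l (c / p ^ L) = true)
    (b : ℕ × ℕ × ℕ → ℕ → F) (hB : ∀ y ∈ l, ∀ x, y.2.1.testBit x → x < p ^ n ∧ P (val p (b y) n 0 x))
    (hV : ∀ y ∈ l, ∀ t < 4 * n, val p (b y) n 0 (gt y.2.2 t) = b y t) : ∃ y ∈ l, P (val p (b y) (4 * n) 0 c) := by
  obtain e | ⟨y, hy, e⟩ := go_sp (x := c % p ^ L) (by simpa using Nat.mod_lt _ (by positivity)) l 0 h
  · simp at e
  refine ⟨y, hy, ?_⟩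
  have := lev_sp p0 (P := P) h1 (L - n) n _ _ (by omega) (fun t _ _ => hV y hy t (by omega)) (rotv_sp p0 _ n 0 _ 0 _ (by omega)
    fun x hx => by
      rw [← Nat.add_sub_cancel' h1, val_add, Nat.div_eq_of_lt (hB y hy x hx).1, val_zero]
      simpa using (hB y hy x hx).2) _ e
  rw [← Nat.add_sub_cancel' h2, val_add, zero_add]
  rwa [val_mod, val_lin p0 _ _ _ _ fun t _ _ => hV y hy t (by omega), add_comm, zero_add] at this

/-- codes of coefficient vectors -/
def cd (q : ℕ) (d : ℕ → ℕ) : ℕ → ℕ → ℕ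
  | 0, _ => 0
  | M + 1, j => d j + q * cd q d M (j + 1)

theorem val_cd {f : ℕ} (f0 : 0 < f) (η κ : F) {d : ℕ → ℕ} (hd : ∀ m, d m < p ^ f) (M : ℕ) : ∀ j,
    val p (fun t => η ^ (t % f) * κ ^ (t / f)) (f * M) (f * j) (cd (p ^ f) d M j) =
      ∑ m ∈ range M, val p (η ^ ·) f 0 (d (j + m)) * κ ^ (j + m) := by
  induction M with
  | zero => simp [val]
  | succ M ih =>
    intro j
    rw [mul_add_one, add_comm (f * M), val_add, ← mul_add_one, cd, Nat.add_mul_div_left _ _ (by positivity),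
      Nat.div_eq_of_lt (hd _), zero_add, ih, sum_range_succ', add_comm, ← val_mod, Nat.add_mul_mod_self_left, val_mod,
      val_mul (b := (η ^ ·)) (κ ^ j) f 0 _ _ fun t ht => by
        rw [Nat.mul_add_mod, Nat.mul_add_div f0, Nat.mod_eq_of_lt ht, Nat.div_eq_of_lt ht, mul_comm]; simp]
    simp [add_assoc, add_comm 1, mul_comm]

theorem tab {n r T W N : ℕ} {θ : F} (hθ : θ ^ (n + 1) = val p (θ ^ ·) (n + 1) 0 r) (p1 : 1 < p) (w1 : ∀ t < n, gt W t = p ^ (t + 1))
    (w2 : gt W n = r) (t0 : gt T 0 = 1) (t1 : ∀ e < N, gt T (e + 1) = lin p (n + 1) (gt W) (n + 1) 0 (gt T e)) :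
    ∀ e ≤ N, val p (θ ^ ·) (n + 1) 0 (gt T e) = θ ^ e := by
  have k : ∀ t < n + 1, val p (θ ^ ·) (n + 1) 0 (p ^ t) = θ ^ t := fun t ht => by
    simpa [val_zero] using val_dig p0 (b := (θ ^ ·)) 1 t (n + 1) 0 0 ht (by simpa using lt_mul_of_one_lt_right (by positivity) p1)
  intro e he
  induction e with
  | zero => rw [t0]; exact k 0 n.succ_pos
  | succ e ih =>
    rw [t1 e he, val_lin p0 (b' := fun t => θ * θ ^ t), val_mul θ _ 0 _ _ fun _ _ => rfl, ih (by omega), pow_succ']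
    intro t _ ht
    rw [← pow_succ']
    obtain h | rfl := Nat.lt_succ_iff_lt_or_eq.1 (zero_add (n + 1) ▸ ht)
    exacts [w1 t h ▸ k _ (by omega), w2 ▸ hθ.symm]
end val

/-- bounded quantifier -/
noncomputable def al (g : ℕ → Bool) (n : ℕ) : Bool := Nat.rec true (fun i r => cond (g i) r false) n

theorem al_sp {g : ℕ → Bool} {n : ℕ} (h : al g n = true) : ∀ i < n, g i = true := by
  induction n with
  | zero => simp
  | succ n ih =>
    change cond (g n) (al g n) false = true at h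
    cases e : g n <;> simp only [e, cond] at h
    · cases h
    · exact fun i hi => (Nat.lt_succ_iff_lt_or_eq.1 hi).elim (ih h i) fun a => a ▸ e

/-- the checks for one point -/
noncomputable def okb (p f T G i B V : ℕ) : Bool :=
  let w := fun t => gt T (((p ^ f + 1) * (t % f) + i * (t / f)) % ((p ^ f) ^ 2 - 1))
  decide (i % (p ^ f + 1) ≠ 0) && Nat.blt B (2 ^ p ^ (2 * f)) &&
    al (fun t => Nat.beq (lin p (2 * f) w (2 * f) 0 (gt V t)) (w t)) (4 * (2 * f)) &&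
    al (fun x => cond (Nat.beq (Nat.mod (Nat.shiftRight B x) 2) 0) true (Nat.beq (gt T (7 * (gt G
      (lin p (2 * f) w (2 * f) 0 x) / 7) % ((p ^ f) ^ 2 - 1))) (lin p (2 * f) w (2 * f) 0 x))) (p ^ (2 * f))

/-- the facts for one point -/
def ok (p f T G : ℕ) (y : ℕ × ℕ × ℕ) : Prop :=
  let w := fun t => gt T (((p ^ f + 1) * (t % f) + y.1 * (t / f)) % ((p ^ f) ^ 2 - 1))
  y.1 % (p ^ f + 1) ≠ 0 ∧ y.2.1 < 2 ^ p ^ (2 * f) ∧ (∀ t < 4 * (2 * f), lin p (2 * f) w (2 * f) 0 (gt y.2.2 t) = w t) ∧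
    ∀ x < p ^ (2 * f), y.2.1.testBit x → gt T (7 * (gt G (lin p (2 * f) w (2 * f) 0 x) / 7) % ((p ^ f) ^ 2 - 1)) =
      lin p (2 * f) w (2 * f) 0 x

theorem ok_of {p f T G : ℕ} {l : List (ℕ × ℕ × ℕ)} (h : l.all (fun y => okb p f T G y.1 y.2.1 y.2.2) = true) :
    ∀ y ∈ l, ok p f T G y := fun y hy => by
  have := List.all_eq_true.1 h y hy
  simp only [okb, Bool.and_eq_true, decide_eq_true_eq, Nat.blt_eq] at this
  refine ⟨this.1.1.1, this.1.1.2, fun t ht => Nat.eq_of_beq_eq_true (al_sp this.1.2 t ht), fun x hx e => ?_⟩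
  have k := al_sp this.2 x hx
  rw [show Nat.mod (Nat.shiftRight y.2.1 x) 2 = 1 by
    rw [Nat.testBit_eq_decide_div_mod_eq, ← Nat.shiftRight_eq_div_pow] at e; exact of_decide_eq_true e] at k
  exact Nat.eq_of_beq_eq_true k

theorem cvp {p f L n T G W K r r0 r1 ce : ℕ} {l : List (ℕ × ℕ × ℕ)} (pp : p.Prime) (p7 : ¬ p ∣ 7) (hn : 2 * f = n + 2)
    (h1 : 2 * f ≤ L) (h2 : L ≤ 4 * (2 * f)) (d7 : 7 ∣ (p ^ f) ^ 2 - 1)
    (hr : ∀ (F : Type u) [Field F] (θ : F), val p (θ ^ ·) (n + 2) 0 r = r0 + r1 * θ)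
    (w1 : ∀ t < n + 1, gt W t = p ^ (t + 1)) (w2 : gt W (n + 1) = r) (t0 : gt T 0 = 1) (tN : gt T ((p ^ f) ^ 2 - 1) = 1)
    (t1 : ∀ e < (p ^ f) ^ 2 - 1, gt T (e + 1) = lin p (n + 2) (gt W) (n + 2) 0 (gt T e))
    (t2 : ∀ e < (p ^ f) ^ 2 - 1, 0 < e → gt T (gt G (cma p (p - 1) (n + 2) (gt T e) 1) % ((p ^ f) ^ 2 - 1)) =
      cma p (p - 1) (n + 2) (gt T e) 1)
    (t3 : ∀ i < p ^ f - 1, gt K i < p ^ f ∧ lin p (n + 2) (fun t => gt T ((p ^ f + 1) * t % ((p ^ f) ^ 2 - 1))) f 0 (gt K i) =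
      gt T ((p ^ f + 1) * i % ((p ^ f) ^ 2 - 1))) (k0 : gt K 0 = 1) (k1 : gt K 1 = ce) (hl : ∀ y ∈ l, ok p f T G y)
    (hb : ∀ d : ℕ → ℕ, (∀ m, d m < p ^ f) → (d 5 = 0 ∨ d 5 = 1 ∨ d 5 = ce) → d 6 = 0 → d 7 = 1 →
      blk p (2 * f) L l (cd (p ^ f) d 8 0 / p ^ L) = true) : CVP.{u} (p ^ f) := fun F _ _ a hF ha => by
  classical
  have p0 := pp.pos
  have f0 : 0 < f := by omega
  haveI := Fact.mk pp
  haveI : CharP F p := (CharP.charP_iff_prime_eq_zero pp).2 (by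
    have := FiniteField.cast_card_eq_zero F
    rw [hF] at this; exact_mod_cast pow_eq_zero_iff f0.ne' |>.1 (pow_eq_zero_iff two_ne_zero |>.1 (by exact_mod_cast this)))
  have q2 : 2 ≤ p ^ f := Nat.one_lt_pow f0.ne' pp.one_lt
  obtain ⟨s, hs⟩ := Nat.exists_eq_add_of_le' q2
  have hN : (p ^ f) ^ 2 - 1 = (p ^ f + 1) * (p ^ f - 1) := by rw [← Nat.sq_sub_sq]
  set N := (p ^ f) ^ 2 - 1 with eN
  have N0 : 0 < N := by rw [hN, hs]; simp
  obtain ⟨θ, hθ⟩ : ∃ θ : F, θ ^ (n + 2) = r0 + r1 * θ := by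
    obtain ⟨z, hz⟩ := IsAlgClosed.exists_root (X ^ (n + 2) - (C (r1 : AlgebraicClosure F) * X + C (r0 : AlgebraicClosure F))) (by
      rw [degree_sub_eq_left_of_degree_lt (degree_linear_lt.trans_le (by simp; norm_cast; omega))]; simp; norm_cast)
    replace hz : z ^ (n + 2) = r0 + r1 * z := by simpa [sub_eq_zero, add_comm] using hz
    have k := tab p0 (hz.trans (hr _ z).symm) pp.one_lt w1 w2 t0 t1
    obtain ⟨θ, rfl⟩ := (splits_iff_card_roots.2 (by
      rw [FiniteField.roots_X_pow_card_sub_X, FiniteField.X_pow_card_sub_X_natDegree_eq _ Fintype.one_lt_card]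
      rfl)).mem_range_of_isRoot (FiniteField.X_pow_card_sub_X_ne_zero F Fintype.one_lt_card) (i := algebraMap F _) (x := z) (by
        have := (k 0 N0.le).symm.trans ((tN.trans t0.symm) ▸ k _ le_rfl)
        simp [hF, show (p ^ f) ^ 2 = N + 1 by omega, pow_succ z, ← this])
    exact ⟨θ, (algebraMap F (AlgebraicClosure F)).injective (by simpa using hz)⟩
  have k := tab p0 (hθ.trans (hr _ θ).symm) pp.one_lt w1 w2 t0 t1
  have k1' : val p (θ ^ ·) (n + 2) 0 1 = 1 := by simpa [t0] using k 0 N0.le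
  have θN : θ ^ N = 1 := by rw [← k _ le_rfl, tN, k1']
  have θ0 : θ ≠ 0 := ne_zero_pow N0.ne' (θN ▸ one_ne_zero)
  replace k : ∀ e, val p (θ ^ ·) (n + 2) 0 (gt T (e % N)) = θ ^ e := fun e => by
    rw [k _ (Nat.mod_lt _ N0).le, ← pow_eq_pow_mod _ θN]
  have pθ : IsPrimitiveRoot θ N := .mk_of_lt _ N0 θN fun e e0 he z => pow_ne_zero _ θ0 (by
    rw [← k, t2 e he e0, val_cma p0, ← Nat.mod_eq_of_lt he, k, z, k1', Nat.cast_pred p0]; simp)
  have pη : IsPrimitiveRoot (θ ^ (p ^ f + 1)) (p ^ f - 1) := pθ.pow N0 hN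
  set η := θ ^ (p ^ f + 1) with eη
  have η0 : η ≠ 0 := pow_ne_zero _ θ0
  haveI : NeZero (p ^ f - 1) := ⟨by omega⟩
  have kη : ∀ x : F, x ^ p ^ f = x → x = 0 ∨ ∃ i < p ^ f - 1, η ^ i = x := fun x hx => or_iff_not_imp_left.2 fun x0 =>
    pη.eq_pow_of_pow_eq_one (mul_right_cancel₀ x0 (by rw [← pow_succ, Nat.sub_add_cancel (by omega), hx, one_mul]))
  have kK : ∀ i < p ^ f - 1, val p (η ^ ·) f 0 (gt K i) = η ^ i := fun i hi => by
    rw [← val_lin p0 (b := (θ ^ ·)) (n + 2) f 0 _ fun t _ _ => (k _).trans (pow_mul ..), (t3 i hi).2, k, pow_mul]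
  have core : ∀ a : ℕ → F, (∀ i, a i ^ p ^ f = a i) → (a 5 = 0 ∨ ∃ i < 2, a 5 = η ^ i) → a 6 = 0 → a 7 = 1 →
      ∃ κ : F, κ ^ p ^ f ≠ κ ∧ (∑ m ∈ range 8, a m * κ ^ m) ^ (N / 7) = 1 := fun a ha a5 a6 a7 => by
    have q3 : 1 < p ^ f - 1 := by
      by_contra h
      rw [hN, show p ^ f = 2 by omega] at d7
      omega
    have : ∀ m, ∃ d < p ^ f, val p (η ^ ·) f 0 d = a m ∧ (m = 5 → d = 0 ∨ d = 1 ∨ d = ce) ∧ (m = 6 → d = 0) ∧ (m = 7 → d = 1) := by
      intro m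
      by_cases z : a m = 0
      · exact ⟨0, by omega, z ▸ val_zero _ _, by simp, by simp, by rintro rfl; simp [a7] at z⟩
      by_cases m7 : m = 7
      · exact ⟨1, q2, by rw [← k0, kK _ (by omega), m7, a7, pow_zero], by simp, by omega, by simp⟩
      by_cases m5 : m = 5
      · obtain ⟨i, hi, e⟩ := a5.resolve_left (m5 ▸ z)
        exact ⟨_, (t3 i (by omega)).1, by rw [kK i (by omega), m5, e], fun _ => by interval_cases i <;> simp [k0, k1], by omega,
          by omega⟩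
      obtain ⟨i, hi, e⟩ := (kη _ (ha m)).resolve_left z
      exact ⟨_, (t3 i hi).1, (kK i hi).trans e, by omega, by rintro rfl; exact absurd a6 z, by omega⟩
    choose d d1 d2 d3 d4 d5 using this
    have kw : ∀ (y : ℕ × ℕ × ℕ) c, val p (θ ^ ·) (2 * f) 0 (lin p (2 * f) (fun t => gt T (((p ^ f + 1) * (t % f) + y.1 * (t / f)) % N))
        (2 * f) 0 c) = val p (fun t => η ^ (t % f) * (θ ^ y.1) ^ (t / f)) (2 * f) 0 c := fun y c =>
      val_lin p0 _ _ _ _ fun t _ _ => by rw [hn, k, pow_add, pow_mul, pow_mul]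
    obtain ⟨y, hy, e⟩ := blk_sp p0 (P := fun x => x ^ (N / 7) = 1) h1 h2 (hb d d1 (d3 5 rfl) (d4 6 rfl) (d5 7 rfl))
      (fun y t => η ^ (t % f) * (θ ^ y.1) ^ (t / f)) (fun y hy x hx => by
        have h := (Nat.pow_lt_pow_iff_right one_lt_two).1 ((Nat.ge_two_pow_of_testBit hx).trans_lt (hl y hy).2.1)
        refine ⟨h, ?_⟩
        rw [← kw, ← (hl y hy).2.2.2 x h hx, hn, k, ← pow_mul, mul_right_comm, Nat.mul_div_cancel' d7, pow_mul, θN, one_pow])
      fun y hy t ht => by rw [← kw, (hl y hy).2.2.1 t ht, hn, k, pow_add, pow_mul, pow_mul]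
    refine ⟨θ ^ y.1, fun z => (hl y hy).1 (Nat.mod_eq_zero_of_dvd (Nat.dvd_of_mul_dvd_mul_right (k := p ^ f - 1) (by omega) ?_)), ?_⟩
    · rw [← hN, ← pθ.pow_eq_one_iff_dvd, pow_mul]
      exact mul_right_cancel₀ (pow_ne_zero _ θ0) (by rw [← pow_succ, Nat.sub_add_cancel (by omega), z, one_mul])
    · have := val_cd p0 f0 η (θ ^ y.1) d1 8 0
      simp only [zero_add, mul_zero, d2] at this
      rwa [show 4 * (2 * f) = f * 8 by ring, this] at e
  let S := (iterateFrobenius F p f).eqLocusField (RingHom.id F)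
  have mS : ∀ x, x ∈ S ↔ x ^ p ^ f = x := fun x => Iff.rfl
  have h7 : (7 : F) ≠ 0 := fun z => p7 ((CharP.cast_eq_zero_iff F p 7).1 (by exact_mod_cast z))
  obtain ⟨β, hβ, eβ⟩ : ∃ β ∈ S, a 6 = -7 * β := ⟨-a 6 / 7, div_mem (neg_mem (ha 6)) (ofNat_mem S 7), by field_simp⟩
  let A := fun i => ∑ j ∈ range 8, (j.choose i : F) * (if j = 7 then 1 else a j) * β ^ (j - i)
  have hA : ∀ i, A i ∈ S := fun i => sum_mem fun j _ => mul_mem (mul_mem (natCast_mem S _) (by
    split_ifs; exacts [one_mem _, ha j])) (pow_mem hβ _)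
  obtain ⟨σ, σ0, hσ, e⟩ : ∃ σ : F, σ ≠ 0 ∧ σ ∈ S ∧ (A 5 * σ ^ (7 - 5) = 0 ∨ ∃ i < 2, A 5 * σ ^ (7 - 5) = η ^ i) := by
    obtain z | ⟨i, -, e⟩ := kη _ (hA 5)
    · exact ⟨1, one_ne_zero, one_mem _, .inl (by simp [z])⟩
    refine ⟨(η ^ (i / 2))⁻¹, by simp [η0], inv_mem (pow_mem (show η ^ p ^ f = η by
      rw [← Nat.sub_add_cancel (show 1 ≤ p ^ f by omega), pow_succ, pη.pow_eq_one, one_mul]) _), .inr ⟨i % 2, by omega, ?_⟩⟩
    rw [← e, inv_pow, mul_inv_eq_iff_eq_mul₀ (by simp [η0]), ← pow_mul η, ← pow_add]; congr 1; omega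
  obtain ⟨κ, h3, h4⟩ := core (fun i => A i * σ ^ (7 - i)) (fun i => mul_mem (hA i) (pow_mem hσ _)) e
    (by simp [A, sum_range_succ, Nat.choose, eβ]) (by simp [A, sum_range_succ, Nat.choose])
  refine ⟨κ / σ + β, fun z => h3 ?_, ?_⟩
  · simpa [σ0, mS] using mul_mem (sub_mem ((mS _).2 z) hβ) hσ
  have : σ ^ 7 * ((κ / σ + β) ^ 7 + ∑ i ∈ range 7, a i * (κ / σ + β) ^ i) = ∑ m ∈ range 8, A m * σ ^ (7 - m) * κ ^ m := by
    simp [A, sum_range_succ, Nat.choose]; field_simp; ring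
  rwa [← this, mul_pow, ← pow_mul, Nat.mul_div_cancel' d7, eN, ← hF, FiniteField.pow_card_sub_one_eq_one _ σ0, one_mul,
    hF] at h4

end H4.US.CP
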