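import Cfsg.Agent.H12.RO6b

/-! Stabilisers of orthonormal frames in dimension at least seven. -/

set_option autoImplicit false

namespace H4.US

open Module H11 H12 Cfsg Cfsg.Geo

theorem uframe7 {F : Type*} [Field F] {V : Type*} [AddCommGroup V] [Module F V] {σ : F →+* F} {hσ2 : ∀ a, σ (σ a) = a}
    {C : CForm (hermType σ hσ2) V} {κ : Type*} [Fintype κ] [FiniteDimensional F V] [Fintype F]
    (hσ : σ ≠ RingHom.id F) (hN : ∀ a, σ a = a → ∃ b, b * σ b = a) {D : κ → Submodule F V}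
    (hD : OrthDec C D) (hC : C.Nondeg) (h1 : ∀ i, finrank F (D i) = 1) (h7 : 7 ≤ Fintype.card κ) (h2 : (2 : F) = 0) :
    IsMaximalIn (C.isom ⊓ SLV F V) (decStab D ⊓ (C.isom ⊓ SLV F V)) := by
  classical
  haveI : Nontrivial κ := Fintype.one_lt_card_iff_nontrivial.1 (by omega)
  have : ∀ j, ∃ y ∈ D j, C.N y = 1 := fun j => by
    obtain ⟨x, hx, hx0⟩ := herm_exists_nonisotropic hσ (hD.nondeg j) (hD.ne_bot j)
    obtain ⟨b, hb⟩ := hN (C.N x)⁻¹ (by rw [map_inv₀, herm_σN])
    exact ⟨b • x, (D j).smul_mem b hx, by rw [H12.herm_N_smul, hb, inv_mul_cancel₀ hx0]⟩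
  choose e he he' using this
  obtain rfl : D = frD F e := funext fun j => (Submodule.eq_of_le_of_finrank_eq
    ((Submodule.span_singleton_le_iff_mem _ _).2 (he j)) (by
      rw [h1, finrank_span_singleton (ne_of_apply_ne C.N (by simp [he', C.N_zero]))])).symm
  have hF : UFr C e := ⟨hC, he', fun i j hij => hD.B_eq_zero hij (he i) (he j),
    fun y hy => hD.eq_zero hC fun j => C.mem_perp_singleton.2 (hy j)⟩
  obtain ⟨π, hπ⟩ := hD.exists_isProj
  have h3 := hπ.finrank_eq h1
  refine isMaximalIn_of _ _ inf_le_right (fun e => (spec_herm hσ hN hC).not_le_decStab (by omega)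
    hD (e.trans inf_le_left)) fun M h4 h5 g hg hg' => ?_
  by_contra hc
  exact hg' ⟨UX.le_of_even ⟨hF, h5, h4⟩ h2 hσ hN h7 hc hg, h5 hg⟩

theorem frame7 {F : Type*} [Field F] [Fintype F] {n q : ℕ} (hF : Fintype.card F = q ^ 2) (hn : 7 ≤ n)
    {D : Fin n → Submodule F (Fin n → F)} (hD : IsNondegenerateMDecomposition (hermForm n F q) 1 D) :
    IsMaximalIn (GU n F q ⊓ specialLinear (Fin n) F) (decompositionStabilizer D ⊓ (GU n F q ⊓ specialLinear (Fin n) F)) := by
  obtain hq | hq := le_or_gt 3 q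
  · exact sul_frame6 hF (by omega) hq hD
  have hC := hermC_nondeg (ι := Fin n) hF
  have h1 := fun i => nondegOn_of_geo _ (Or.inr (hermC_B_eq hF n)) (hD.nondegenerate i)
  have h2 := hD.decomp.finrank_eq
  have hD' := orthDec_of_geo _ (Or.inr (hermC_B_eq hF n)) hD fun i j =>
    hermT_iso hF ((CForm.restrict_nondeg_iff _).2 (h1 i)) ((CForm.restrict_nondeg_iff _).2 (h1 j)) (by rw [h2, h2])
  rw [SU_eq hF, decompositionStabilizer_eq, ← Subgroup.comap_inf]
  refine isMaximalIn_comap _ (uframe7 (frob_ne_id hF) (exists_norm_of_finite (frob_frob hF) (frob_ne_id hF)) hD' hC h2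
    (by simpa) (pow_eq_zero_iff two_ne_zero |>.1 ?_))
  have := FiniteField.cast_card_eq_zero F
  have h3 := Fintype.one_lt_card (α := F)
  rw [hF] at this h3
  interval_cases q <;> simp at h3
  exact_mod_cast this

end H4.US
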