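import Cfsg.Agent.H4.Basic

/-! Breadth and class (Leedham-Green, Neumann, Wiegold). -/

namespace H4
open Subgroup Finset
open scoped commutatorElement

variable {G : Type*} [Group G] [Finite G] {p : ℕ} [hp : Fact p.Prime]

/-- centralizer of `Z_{i+2}/Z_i` -/
def zc (G : Type*) [Group G] (i : ℕ) : Subgroup G where
  carrier := {x | ∀ z ∈ Subgroup.upperCentralSeries G (i + 2), ⁅z, x⁆ ∈ Subgroup.upperCentralSeries G i}
  one_mem' := fun z _ => by simp
  mul_mem' := fun {a b} ha hb z hz => by
    have := Subgroup.mul_mem _ (ha z hz)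
      ((inferInstance : (Subgroup.upperCentralSeries G i).Normal).conj_mem _ (hb z hz) a)
    convert this using 1
    simp only [commutatorElement_def]; group
  inv_mem' := fun {a} ha z hz => by
    have := (inferInstance : (Subgroup.upperCentralSeries G i).Normal).conj_mem _
      (Subgroup.inv_mem _ (ha z hz)) a⁻¹
    convert this using 1
    simp only [commutatorElement_def]; group

theorem zc_card (hG : IsPGroup p G) (x : G) (k : ℕ) [DecidablePred fun i => x ∉ zc G i] :
    Nat.card (centralizer {x}) * p ^ #{i ∈ range k | x ∉ zc G i} ≤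
      Nat.card (Subgroup.upperCentralSeries G (k + 1) ⊔ centralizer {x} : Subgroup G) := by
  induction k with
  | zero => simpa using card_le_of_le le_sup_right
  | succ k ih =>
    have hle : Subgroup.upperCentralSeries G (k + 1) ⊔ centralizer {x} ≤
        Subgroup.upperCentralSeries G (k + 1 + 1) ⊔ centralizer {x} :=
      sup_le_sup_right (Subgroup.upperCentralSeries_mono G (by omega)) _
    rw [range_add_one, filter_insert]
    split_ifs with h
    · exact ih.trans (card_le_of_le hle)
    · rw [card_insert_of_notMem (by simp), pow_succ, ← mul_assoc]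
      refine (Nat.mul_le_mul_right _ ih).trans (card_mul_le_of_lt hG (lt_of_le_not_ge hle
        fun e => h fun z hz => ?_))
      have := e (mem_sup_left hz)
      rw [← SetLike.mem_coe, normal_mul] at this
      obtain ⟨w, hw, c, hc, rfl⟩ := this
      have hc' := mem_centralizer_singleton_iff.1 hc
      have : ⁅w * c, x⁆ = ⁅w, x⁆ := by
        simp only [commutatorElement_def]
        rw [mul_assoc w, hc']; group
      exact this ▸ Subgroup.mem_upperCentralSeries_succ_iff.1 hw x

theorem breadth_class (hG : IsPGroup p G) {b : ℕ} (hb0 : b ≠ 0)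
    (hb : ∀ x : G, (centralizer ({x} : Set G)).index ≤ p ^ b) :
    (Group.nilpotencyClass G - 1) * (p - 1) < b * p := by
  classical
  have := hG.isNilpotent
  have := Fintype.ofFinite G
  set k := Group.nilpotencyClass G - 1
  have h1 : ∀ x : G, #{i ∈ range k | x ∉ zc G i} ≤ b := fun x => by
    have h2 := (zc_card hG x k).trans (card_le_of_le (le_top))
    rw [card_top, ← (centralizer {x}).card_mul_index] at h2
    exact (Nat.pow_le_pow_iff_right hp.out.one_lt).1
      ((Nat.le_of_mul_le_mul_left h2 Nat.card_pos).trans (hb x))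
  have h2 : ∑ x : G, #{i ∈ range k | x ∉ zc G i} < Nat.card G * b := by
    rw [Nat.card_eq_fintype_card, ← card_univ, ← smul_eq_mul, ← sum_const]
    refine sum_lt_sum (fun x _ => h1 x) ⟨1, mem_univ _, ?_⟩
    rw [filter_false_of_mem (fun i _ => not_not.2 (Subgroup.one_mem _))]
    exact Nat.pos_of_ne_zero hb0
  have h3 : ∀ i ∈ range k, Nat.card G * (p - 1) ≤ #{x : G | x ∉ zc G i} * p := fun i hi => by
    have hlt : zc G i < ⊤ := lt_top_iff_ne_top.2 fun e => by
      have h4 := Subgroup.upperCentralSeries.StrictMonoOn G (a := i + 1) (b := i + 2)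
        (by simp only [mem_range] at hi; simp only [Set.mem_Iic]; omega)
        (by simp only [mem_range] at hi; simp only [Set.mem_Iic]; omega) (by omega)
      exact h4.not_ge fun z hz => Subgroup.mem_upperCentralSeries_succ_iff.2 fun y =>
        (e ▸ mem_top y : y ∈ zc G i) z hz
    have h4 := card_mul_le_of_lt hG hlt
    have h5 := card_filter_add_card_filter_not (s := (univ : Finset G)) (· ∈ zc G i)
    rw [card_top, Nat.card_eq_fintype_card, Fintype.card_subtype] at h4
    rw [card_univ, ← Nat.card_eq_fintype_card] at h5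
    obtain ⟨q, rfl⟩ : ∃ q, p = q + 1 := ⟨p - 1, by have := hp.out.pos; omega⟩
    rw [Nat.add_sub_cancel]
    nlinarith
  have h4 := sum_le_sum h3
  rw [sum_const, card_range, smul_eq_mul, ← sum_mul] at h4
  have h5 : ∑ i ∈ range k, #{x : G | x ∉ zc G i} = ∑ x : G, #{i ∈ range k | x ∉ zc G i} := by
    simp only [card_filter]; exact sum_comm
  rw [h5] at h4
  have h6 := h4.trans_lt (Nat.mul_lt_mul_of_pos_right h2 hp.out.pos)
  refine Nat.lt_of_mul_lt_mul_left (a := Nat.card G) ?_
  nlinarith

end H4
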